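import Mathlib
import Cfsg.Agent.H8.FSim1
import Cfsg.Agent.Lib.FusSimpleB

set_option autoImplicit false
set_option linter.all false

/-! Simple fusion systems: generation of the automizer of the Sylow subgroup. -/

namespace Cfsg.Agent.H8.FSim

open Cfsg Cfsg.FusionSystem Cfsg.Agent.Lib.FusBase Cfsg.Agent.Lib.FusSat Cfsg.Agent.Lib.FusNormal Cfsg.Agent.Lib.FusInv
open Cfsg.Agent.Lib.FusGroup Cfsg.Agent.Lib.FusSimple Cfsg.Agent.Lib.FusSimpleB

universe u

section sys

variable {Ω : Type u} [Group Ω] {S : Subgroup Ω} {F E : FusionSystem S} {R : Subgroup Ω} {p : ℕ} [Fact p.Prime] [Finite S]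

/-- `p`-elements of the automizer of a fully automized subgroup lie in every invariant subsystem over `S` -/
theorem pelt_mem (hE : E.IsInvariantIn F) (hFA : F.IsFullyAutomized p R) {α : MulAut R} (hα : α ∈ F.autGroup R)
    (hp : IsPGroup p (Subgroup.zpowers α)) : α ∈ E.autGroup R := by
  have hR := hFA.1
  obtain ⟨β, hβ, h1⟩ := FA_conj hFA (Subgroup.zpowers α) (by rwa [Subgroup.zpowers_le]) hp
  have h2 : β * α * β⁻¹ ∈ E.autGroup R := autInducedBy_le hR (h1 α (Subgroup.mem_zpowers α))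
  have h3 := (mem_autGroup hR).1 h2
  have h4 := (mem_autGroup hR).1 (Subgroup.inv_mem _ hβ)
  obtain ⟨k, hk, hk1⟩ := strong_of_invariant hE (le_refl R) hR h3 (fun x hx => fn_mem' _ hx) h4
  have him : img R (fn β⁻¹) = R := (iso_fn hR (Subgroup.inv_mem _ hβ)).img_eq
  rw [him] at hk
  refine (mem_autGroup' hR).2 ⟨k, hk, fun x => ?_⟩
  have h5 := hk1 (β x : R) (β x).2
  rw [fn_apply, fn_apply] at h5
  have h6 : fn β⁻¹ ((β * α * β⁻¹) (β x) : R) = ((β⁻¹ ((β * α * β⁻¹) (β x)) : R) : Ω) := fn_apply _ _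
  rw [h6] at h5
  have h7 : β⁻¹ (β x) = x := MulAut.inv_apply_self _ _ _
  have h8 : β⁻¹ ((β * α * β⁻¹) (β x)) = α x := by
    show (β⁻¹ * (β * α * β⁻¹) * β) x = α x
    congr 1
    group
  rw [h7, h8] at h5
  exact h5.symm

end sys

variable {G : Type u} [Group G] [Finite G] {p : ℕ} [Fact p.Prime]

theorem gen_mem (S : Sylow p G) {E : FusionSystem (S : Subgroup G)} (hE : E.IsInvariantIn (groupFusionSystem (S : Subgroup G))) {R : Subgroup G}
    (hFA : (groupFusionSystem (S : Subgroup G)).IsFullyAutomized p R) {g : G}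
    (hg : g ∈ Subgroup.closure {g : G | g ∈ Subgroup.normalizer (R : Set G) ∧ ∃ k : ℕ, orderOf g = p ^ k}) :
    ∃ α ∈ E.autGroup R, ∀ x : R, ((α x : R) : G) = g * x * g⁻¹ := by
  have hR := hFA.1
  induction hg using Subgroup.closure_induction with
  | mem g hg =>
    obtain ⟨hgN, k, hk⟩ := hg
    refine ⟨cj R g hgN, pelt_mem hE hFA ?_ ?_, fun x => rfl⟩
    · rw [autGroup_grp hR]; exact cj_mem hgN (Subgroup.mem_top g)
    · have h3 : ∀ n : ℕ, ∀ x : R, ((((cj R g hgN) ^ n) x : R) : G) = g ^ n * x * (g ^ n)⁻¹ := by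
        intro n
        induction n with
        | zero => intro x; rw [pow_zero, pow_zero]; show (x : G) = 1 * x * 1⁻¹; group
        | succ n ih =>
          intro x
          rw [pow_succ]
          show ((((cj R g hgN) ^ n) (cj R g hgN x) : R) : G) = _
          rw [ih, cj_apply, pow_succ]
          group
      have h4 : (cj R g hgN) ^ p ^ k = 1 := by
        apply MulEquiv.ext
        intro x
        apply Subtype.ext
        rw [h3, ← hk, pow_orderOf_eq_one]
        show 1 * (x : G) * 1⁻¹ = x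
        group
      rintro ⟨_, n, rfl⟩
      refine ⟨k, Subtype.ext ?_⟩
      show ((cj R g hgN) ^ n) ^ p ^ k = 1
      rw [← zpow_natCast, ← zpow_mul, mul_comm, zpow_mul, zpow_natCast, h4, one_zpow]
  | one => exact ⟨1, Subgroup.one_mem _, fun x => by show (x : G) = 1 * x * 1⁻¹; group⟩
  | mul a b _ _ ha hb =>
    obtain ⟨α, hα, h1⟩ := ha
    obtain ⟨β, hβ, h2⟩ := hb
    refine ⟨α * β, Subgroup.mul_mem _ hα hβ, fun x => ?_⟩
    show ((α (β x) : R) : G) = _
    rw [h1, h2]; group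
  | inv a _ ha =>
    obtain ⟨α, hα, h1⟩ := ha
    refine ⟨α⁻¹, Subgroup.inv_mem _ hα, fun x => ?_⟩
    have h2 := h1 (α⁻¹ x)
    rw [MulAut.apply_inv_self] at h2
    rw [h2]; group

/-- conjugation by an element of `O^{p'}(N_G(R)) ∩ N_G(S)`, `R` centric and fully automized -/
theorem conj_mem (S : Sylow p G) {E : FusionSystem (S : Subgroup G)} (hEs : E.IsSaturated p)
    (hE : E.IsInvariantIn (groupFusionSystem (S : Subgroup G))) {R : Subgroup G}
    (hFA : (groupFusionSystem (S : Subgroup G)).IsFullyAutomized p R) (hc : (groupFusionSystem (S : Subgroup G)).IsCentric R) {g : G}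
    (hg : g ∈ Subgroup.closure {g : G | g ∈ Subgroup.normalizer (R : Set G) ∧ ∃ k : ℕ, orderOf g = p ^ k})
    {α : MulAut (S : Subgroup G)} (hα : ∀ x, ((α x : (S : Subgroup G)) : G) = g * x * g⁻¹) : α ∈ E.autGroup (S : Subgroup G) := by
  have hR := hFA.1
  obtain ⟨β, hβ, h1⟩ := gen_mem S hE hFA hg
  have h2 : Mor E R (fun x => g * x * g⁻¹) := ((mem_autGroup hR).1 hβ).congr fun x hx => by rw [fn_mem β hx]; exact h1 ⟨x, hx⟩
  refine (mem_autGroup' le_rfl).2 ⟨fun x => g * x * g⁻¹, ?_, hα⟩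
  refine lift_centric S.isPGroup' (saturated_grp S) hEs (isInvariant_iff.1 hE).1 hc hR ?_ h2
  rw [mor_grp]
  exact ⟨le_rfl, fun x hx => by rw [← hα ⟨x, hx⟩]; exact (α ⟨x, hx⟩).2, g, fun x _ => rfl⟩

/-- the criterion with odd automizers -/
theorem simple_of_gen (S : Sylow p G) (h1 : (S : Subgroup G) ≠ ⊥)
    (haut : ∀ E : FusionSystem (S : Subgroup G), E.IsSaturated p → E.IsInvariantIn (groupFusionSystem (S : Subgroup G)) →
      autInducedBy ⊤ (S : Subgroup G) ≤ E.autGroup (S : Subgroup G))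
    (hsc : ∀ T : Subgroup G, (groupFusionSystem (S : Subgroup G)).StronglyClosed T → T = ⊥ ∨ T = (S : Subgroup G)) :
    (groupFusionSystem (S : Subgroup G)).IsSimple p := by
  refine ⟨saturated_grp S, h1, fun T E hE => ?_⟩
  have hT : (groupFusionSystem (S : Subgroup G)).StronglyClosed T := hE.1.2.2.2.1
  rcases hsc T hT with h | h
  · exact Or.inl h
  · subst h
    refine Or.inr ⟨rfl, fun P => eq_of_mor (isInvariant_iff.1 hE.1.2.2).1 ?_ P⟩
    refine le_of_invariant hE.1.2.2 ?_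
    rw [autGroup_grp le_rfl]
    exact haut E hE.1.1 hE.1.2.2

end Cfsg.Agent.H8.FSim
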