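import Mathlib
import Cfsg.Agent.H8.FSim4

set_option autoImplicit false
set_option linter.all false

/-! Simple fusion systems: a group-theoretic criterion with odd automizers. -/

namespace Cfsg.Agent.H8.FSim

open Cfsg Cfsg.FusionSystem Cfsg.Agent.Lib.FusBase Cfsg.Agent.Lib.FusSat Cfsg.Agent.Lib.FusNormal Cfsg.Agent.Lib.FusInv
open Cfsg.Agent.Lib.FusGroup Cfsg.Agent.Lib.FusSimple Cfsg.Agent.Lib.FusSimpleB

universe u

variable {G : Type u} [Group G]

/-- `p`-elements normalizing `R` -/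
def pel (p : ℕ) (R : Subgroup G) : Set G := {y | (∀ r ∈ R, y * r * y⁻¹ ∈ R) ∧ ∃ k : ℕ, orderOf y = p ^ k}

/-- the normalizing elements seen in local subgroups -/
def NGs (p : ℕ) (S : Subgroup G) : Set G := {h | (∀ x ∈ S, h * x * h⁻¹ ∈ S) ∧ ∃ R, R ≤ S ∧ (∀ s ∈ S, ∀ r ∈ R, s * r * s⁻¹ ∈ R) ∧
  (∀ x, (∀ r ∈ R, x * r = r * x) → x ∈ R) ∧ h ∈ Subgroup.closure (pel p R)}

variable [Finite G] {p : ℕ} [Fact p.Prime]

theorem pel_sub (R : Subgroup G) : pel p R ⊆ {g : G | g ∈ Subgroup.normalizer (R : Set G) ∧ ∃ k : ℕ, orderOf g = p ^ k} := by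
  rintro y ⟨h1, h2⟩
  exact ⟨mem_normalizer_of_conj_mem h1, h2⟩

theorem FN_of_normal (S : Subgroup G) {R : Subgroup G} (hR : R ≤ S) (hn : ∀ s ∈ S, ∀ r ∈ R, s * r * s⁻¹ ∈ R) :
    (groupFusionSystem S).IsFullyNormalized R := by
  refine ⟨hR, fun Q hQ => ?_⟩
  have h1 : normalizerIn S R = S := le_antisymm normalizerIn_le fun s hs => ⟨hs, mem_normalizer_of_conj_mem (hn s hs)⟩
  rw [h1]
  exact Subgroup.card_le_of_le normalizerIn_le

theorem centric_of_cent (S : Subgroup G) {R : Subgroup G} (hR : R ≤ S) (hc : ∀ x, (∀ r ∈ R, x * r = r * x) → x ∈ R) :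
    (groupFusionSystem S).IsCentric R := by
  refine ⟨hR, fun Q hQ x hx => ?_⟩
  obtain ⟨-, -, g, rfl⟩ := isConj_grp.1 hQ
  obtain ⟨hxS, hx⟩ := mem_centralizerIn.1 hx
  have h1 : g⁻¹ * x * g ∈ R := by
    refine hc _ fun r hr => ?_
    have h2 := hx (g * r * g⁻¹) ⟨r, hr, rfl⟩
    have h3 : x * (g * r * g⁻¹) = g * r * g⁻¹ * x := h2.symm
    calc g⁻¹ * x * g * r = g⁻¹ * (x * (g * r * g⁻¹)) * g := by group
      _ = g⁻¹ * (g * r * g⁻¹ * x) * g := by rw [h3]
      _ = _ := by group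
  refine ⟨_, h1, ?_⟩
  show g * (g⁻¹ * x * g) * g⁻¹ = x
  group

/-- the criterion -/
theorem simple_of_norm (S : Sylow p G) (h1 : (S : Subgroup G) ≠ ⊥)
    (hsc : ∀ T : Subgroup G, SC (S : Subgroup G) T → T ≠ ⊥ → (S : Subgroup G) ≤ T)
    (hN : ∀ g, (∀ x ∈ (S : Subgroup G), g * x * g⁻¹ ∈ (S : Subgroup G)) → g ∈ Subgroup.closure (NGs p (S : Subgroup G))) :
    (groupFusionSystem (S : Subgroup G)).IsSimple p := by
  refine simple_of_gen S h1 ?_ ?_
  · intro E hEs hE α hα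
    obtain ⟨g, -, hg⟩ := mem_autInducedBy.1 hα
    have hgS : ∀ x ∈ (S : Subgroup G), g * x * g⁻¹ ∈ (S : Subgroup G) := fun x hx => by
      rw [← hg ⟨x, hx⟩]; exact (α ⟨x, hx⟩).2
    have key : ∃ β ∈ E.autGroup (S : Subgroup G), ∀ x, ((β x : (S : Subgroup G)) : G) = g * x * g⁻¹ := by
      have h2 := hN g hgS
      clear hgS hg hα
      induction h2 using Subgroup.closure_induction with
      | mem h hh =>
        obtain ⟨h3, R, hR, hRn, hRc, h4⟩ := hh
        have h5 : h ∈ Subgroup.normalizer ((S : Subgroup G) : Set G) := mem_normalizer_of_conj_mem h3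
        refine ⟨cj _ h h5, ?_, fun x => rfl⟩
        exact conj_mem S hEs hE (FN_FA S.isPGroup' (saturated_grp S) (FN_of_normal _ hR hRn)) (centric_of_cent _ hR hRc)
          (Subgroup.closure_mono (pel_sub R) h4) (fun x => rfl)
      | one => exact ⟨1, Subgroup.one_mem _, fun x => by show (x : G) = 1 * x * 1⁻¹; group⟩
      | mul a b _ _ ha hb =>
        obtain ⟨α, hα, h1⟩ := ha
        obtain ⟨β, hβ, h2⟩ := hb
        refine ⟨α * β, Subgroup.mul_mem _ hα hβ, fun x => ?_⟩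
        show ((α (β x) : (S : Subgroup G)) : G) = _
        rw [h1, h2]; group
      | inv a _ ha =>
        obtain ⟨α, hα, h1⟩ := ha
        refine ⟨α⁻¹, Subgroup.inv_mem _ hα, fun x => ?_⟩
        have h2 := h1 (α⁻¹ x)
        rw [MulAut.apply_inv_self] at h2
        rw [h2]; group
    obtain ⟨β, hβ, h2⟩ := key
    have : α = β := by
      apply MulEquiv.ext
      intro x
      apply Subtype.ext
      rw [hg, h2]
    rw [this]; exact hβ
  · intro T hT
    by_cases hT1 : T = ⊥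
    · exact Or.inl hT1
    · exact Or.inr (le_antisymm hT.1 (hsc T (sc_of hT) hT1))

/-- transport of the criterion to a conjugate Sylow subgroup -/
theorem simple_of_norm' (S₀ S : Sylow p G) (h1 : (S₀ : Subgroup G) ≠ ⊥)
    (hsc : ∀ T : Subgroup G, SC (S₀ : Subgroup G) T → T ≠ ⊥ → (S₀ : Subgroup G) ≤ T)
    (hN : ∀ g, (∀ x ∈ (S₀ : Subgroup G), g * x * g⁻¹ ∈ (S₀ : Subgroup G)) → g ∈ Subgroup.closure (NGs p (S₀ : Subgroup G))) :
    (groupFusionSystem (S : Subgroup G)).IsSimple p := by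
  obtain ⟨c, hc1⟩ := MulAction.exists_smul_eq G S₀ S
  have hc2 : (S : Subgroup G) = (S₀ : Subgroup G).map (MulAut.conj c).toMonoidHom := by
    rw [← hc1]; rfl
  have hcm : ∀ {H : Subgroup G} {x : G}, x ∈ H.map (MulAut.conj c).toMonoidHom ↔ c⁻¹ * x * c ∈ H := by
    intro H x
    constructor
    · rintro ⟨y, hy, rfl⟩
      have : c⁻¹ * (c * y * c⁻¹) * c = y := by group
      show c⁻¹ * (c * y * c⁻¹) * c ∈ H
      rw [this]; exact hy
    · intro hx
      refine ⟨_, hx, ?_⟩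
      show c * (c⁻¹ * x * c) * c⁻¹ = x
      group
  refine simple_of_norm S ?_ ?_ ?_
  · intro h0
    rw [hc2, Subgroup.map_eq_bot_iff_of_injective _ (MulAut.conj c).injective] at h0
    exact h1 h0
  · intro T hT hT1
    have h2 := hT.conj c⁻¹
    have h3 : (S : Subgroup G).map (MulAut.conj c⁻¹).toMonoidHom = S₀ := by
      ext x
      constructor
      · rintro ⟨y, hy, rfl⟩
        have hy' : y ∈ (S : Subgroup G) := hy
        rw [hc2, hcm] at hy'
        show c⁻¹ * y * c⁻¹⁻¹ ∈ _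
        rw [inv_inv]; exact hy'
      · intro hx
        refine ⟨c * x * c⁻¹, ?_, ?_⟩
        · show c * x * c⁻¹ ∈ (S : Subgroup G)
          rw [hc2, hcm]
          have : c⁻¹ * (c * x * c⁻¹) * c = x := by group
          rw [this]; exact hx
        · show c⁻¹ * (c * x * c⁻¹) * c⁻¹⁻¹ = x
          group
    rw [h3] at h2
    have h4 := hsc _ h2 (by
      intro h0
      rw [Subgroup.map_eq_bot_iff_of_injective _ (MulAut.conj c⁻¹).injective] at h0
      exact hT1 h0)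
    intro x hx
    rw [hc2, hcm] at hx
    obtain ⟨y, hy, hyx⟩ := h4 hx
    have h5 : c⁻¹ * y * c⁻¹⁻¹ = c⁻¹ * x * c := hyx
    have h6 : y = x := by
      rw [inv_inv] at h5
      exact mul_left_cancel (mul_right_cancel h5)
    rw [← h6]; exact hy
  · intro g hg
    have h2 := hN (c⁻¹ * g * c) (by
      intro x hx
      have h3 := hg (c * x * c⁻¹) (by
        rw [hc2, hcm]
        have : c⁻¹ * (c * x * c⁻¹) * c = x := by group
        rw [this]; exact hx)
      rw [hc2, hcm] at h3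
      have e1 : c⁻¹ * (g * (c * x * c⁻¹) * g⁻¹) * c = c⁻¹ * g * c * x * (c⁻¹ * g * c)⁻¹ := by group
      rwa [e1] at h3)
    have h3 : g ∈ (Subgroup.closure (NGs p (S₀ : Subgroup G))).map (MulAut.conj c).toMonoidHom := hcm.2 h2
    rw [MonoidHom.map_closure] at h3
    refine Subgroup.closure_mono ?_ h3
    rintro _ ⟨h, ⟨h4, R, hR, hRn, hRc, h5⟩, rfl⟩
    show c * h * c⁻¹ ∈ NGs p (S : Subgroup G)
    refine ⟨?_, R.map (MulAut.conj c).toMonoidHom, ?_, ?_, ?_, ?_⟩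
    · intro x hx
      rw [hc2, hcm] at hx ⊢
      have e1 : c⁻¹ * (c * h * c⁻¹ * x * (c * h * c⁻¹)⁻¹) * c = h * (c⁻¹ * x * c) * h⁻¹ := by group
      rw [e1]; exact h4 _ hx
    · rw [hc2]; exact Subgroup.map_mono hR
    · intro s hs r hr
      rw [hc2, hcm] at hs
      rw [hcm] at hr ⊢
      have e1 : c⁻¹ * (s * r * s⁻¹) * c = (c⁻¹ * s * c) * (c⁻¹ * r * c) * (c⁻¹ * s * c)⁻¹ := by group
      rw [e1]; exact hRn _ hs _ hr
    · intro x hx
      rw [hcm]
      refine hRc _ fun r hr => ?_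
      have h6 := hx (c * r * c⁻¹) ⟨r, hr, rfl⟩
      calc c⁻¹ * x * c * r = c⁻¹ * (x * (c * r * c⁻¹)) * c := by group
        _ = c⁻¹ * (c * r * c⁻¹ * x) * c := by rw [h6]
        _ = _ := by group
    · have h6 : c * h * c⁻¹ ∈ (Subgroup.closure (pel p R)).map (MulAut.conj c).toMonoidHom := ⟨h, h5, rfl⟩
      rw [MonoidHom.map_closure] at h6
      refine Subgroup.closure_mono ?_ h6
      rintro _ ⟨y, ⟨hy1, k, hy2⟩, rfl⟩
      refine ⟨?_, k, ?_⟩
      · intro r hr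
        rw [hcm] at hr ⊢
        show c⁻¹ * (c * y * c⁻¹ * r * (c * y * c⁻¹)⁻¹) * c ∈ R
        have e1 : c⁻¹ * (c * y * c⁻¹ * r * (c * y * c⁻¹)⁻¹) * c = y * (c⁻¹ * r * c) * y⁻¹ := by group
        rw [e1]; exact hy1 _ hr
      · rw [← hy2]
        exact orderOf_injective (MulAut.conj c).toMonoidHom (MulAut.conj c).injective y

end Cfsg.Agent.H8.FSim
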