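import Mathlib

set_option autoImplicit false
set_option linter.all false

/-! Triangle groups `(2,3,3)`, `(2,3,4)`, `(2,3,5)`: bounds on the order. -/

namespace Cfsg.Agent.H8.Tri

section
variable {G : Type*} [Group G] {t y : G}

theorem rel_of (ht : t * t = 1) (hx : (t * y⁻¹) ^ 3 = 1) : t * y⁻¹ * t = y * t * y := by
  have h1 : t⁻¹ = t := inv_eq_of_mul_eq_one_left ht
  have h2 : (t * y⁻¹ * t) * (y⁻¹ * t * y⁻¹) = 1 := by
    rw [← hx, pow_succ, pow_succ, pow_one]; simp only [mul_assoc]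
  have h3 : t * y⁻¹ * t = (y⁻¹ * t * y⁻¹)⁻¹ := eq_inv_of_mul_eq_one_left h2
  rw [h3, mul_inv_rev, mul_inv_rev, inv_inv, h1, mul_assoc]

theorem rel' (ht : t * t = 1) (hr : t * y⁻¹ * t = y * t * y) : t * y * t = y⁻¹ * t * y⁻¹ := by
  have h1 : t⁻¹ = t := inv_eq_of_mul_eq_one_left ht
  have h2 := congrArg (fun g => g⁻¹) hr
  simp only [mul_inv_rev, inv_inv, h1] at h2
  rw [mul_assoc, mul_assoc]; exact h2

theorem rel1 (ht : t * t = 1) (hr : t * y⁻¹ * t = y * t * y) : t * y ^ (-2 : ℤ) * t = y * (t * y ^ (2 : ℤ) * t) * y := by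
  have hr' := rel' ht hr
  have key : y * t = t * y⁻¹ * t * y⁻¹ := by rw [hr]; group
  symm
  calc y * (t * y ^ (2 : ℤ) * t) * y = (y * t) * y ^ (2 : ℤ) * t * y := by group
    _ = (t * y⁻¹ * t * y⁻¹) * y ^ (2 : ℤ) * t * y := by rw [key]
    _ = t * y⁻¹ * (t * y * t) * y := by group
    _ = t * y⁻¹ * (y⁻¹ * t * y⁻¹) * y := by rw [hr']
    _ = t * y ^ (-2 : ℤ) * t := by group

/-- from a left invariant set to the generated subgroup -/
theorem closure_sub {U : Set G} (h1 : (1 : G) ∈ U) (ht : ∀ g ∈ U, t * g ∈ U) (ht' : t * t = 1) (hy : ∀ g ∈ U, y * g ∈ U) (hy' : ∀ g ∈ U, y⁻¹ * g ∈ U) :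
    ∀ g ∈ Subgroup.closure ({t, y} : Set G), g ∈ U := by
  intro g hg
  have hti : t⁻¹ = t := inv_eq_of_mul_eq_one_left ht'
  induction hg using Subgroup.closure_induction_left with
  | one => exact h1
  | mul_left x hx z hz ih =>
    rcases hx with rfl | rfl
    · exact ht _ ih
    · exact hy _ ih
  | inv_mul_cancel x hx z hz ih =>
    rcases hx with rfl | rfl
    · rw [hti]; exact ht _ ih
    · exact hy' _ ih

theorem card_le_of {U : Set G} {X : Type} [Fintype X] (f : X → G) (h : ∀ g ∈ U, ∃ x, f x = g) {K : Subgroup G} (hK : ∀ g ∈ K, g ∈ U) :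
    Nat.card K ≤ Fintype.card X ∧ Finite K := by
  have hinj : ∃ φ : K → X, Function.Injective φ := by
    choose φ hφ using fun g : K => h g.1 (hK g.1 g.2)
    exact ⟨φ, fun a b hab => Subtype.ext (by rw [← hφ a, ← hφ b, hab])⟩
  obtain ⟨φ, hφ⟩ := hinj
  haveI : Finite K := Finite.of_injective φ hφ
  refine ⟨?_, inferInstance⟩
  rw [← Nat.card_eq_fintype_card]
  exact Nat.card_le_card_of_injective φ hφ

theorem zpow_fin {n : ℕ} (hn : 0 < n) (hy : y ^ n = 1) (j : ℤ) : ∃ i : Fin n, y ^ i.1 = y ^ j := by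
  have h0 : (0 : ℤ) ≤ j % n := Int.emod_nonneg _ (by omega)
  have h1 : j % n < n := Int.emod_lt_of_pos _ (by omega)
  refine ⟨⟨(j % n).toNat, by omega⟩, ?_⟩
  show y ^ (j % n).toNat = y ^ j
  rw [← zpow_natCast, Int.toNat_of_nonneg h0]
  have h2 : y ^ j = y ^ (j % n) * (y ^ (n : ℤ)) ^ (j / n) := by
    rw [← zpow_mul, ← zpow_add, Int.emod_add_mul_ediv]
  rw [h2, zpow_natCast, hy, one_zpow, mul_one]

theorem mod_cases {n : ℕ} (hn : 0 < n) (hy : y ^ n = 1) (i : ℤ) : y ^ i = y ^ (i % n) := by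
  have h2 : y ^ i = y ^ (i % n) * (y ^ (n : ℤ)) ^ (i / n) := by
    rw [← zpow_mul, ← zpow_add, Int.emod_add_mul_ediv]
  rw [h2, zpow_natCast, hy, one_zpow, mul_one]

/-- `n = 3` -/
theorem card3 (ht : t * t = 1) (hy : y ^ 3 = 1) (hx : (t * y⁻¹) ^ 3 = 1) :
    Nat.card (Subgroup.closure ({t, y} : Set G)) ≤ 12 ∧ Finite (Subgroup.closure ({t, y} : Set G)) := by
  have hr := rel_of ht hx
  have hr' := rel' ht hr
  let U : Set G := {g | (∃ j : ℤ, g = y ^ j) ∨ ∃ i j : ℤ, g = y ^ i * t * y ^ j}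
  have hsub := closure_sub (U := U) (t := t) (y := y) (Or.inl ⟨0, by simp⟩) (by
    rintro g (⟨j, rfl⟩ | ⟨i, j, rfl⟩)
    · exact Or.inr ⟨0, j, by simp⟩
    · have hi : i % 3 = 0 ∨ i % 3 = 1 ∨ i % 3 = 2 := by omega
      have e0 : y ^ i = y ^ (i % 3) := mod_cases (by norm_num) hy i
      rcases hi with h | h | h
      · left; refine ⟨j, ?_⟩
        rw [e0, h, zpow_zero, one_mul, ← mul_assoc, ht, one_mul]
      · right; refine ⟨-1, j - 1, ?_⟩
        rw [e0, h, zpow_one]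
        calc t * (y * t * y ^ j) = (t * y * t) * y ^ j := by simp only [mul_assoc]
          _ = (y⁻¹ * t * y⁻¹) * y ^ j := by rw [hr']
          _ = y ^ (-1 : ℤ) * t * y ^ (j - 1) := by group
      · right; refine ⟨1, j + 1, ?_⟩
        have e1 : y ^ (2 : ℤ) = y⁻¹ := by
          have e2 : y ^ (2 : ℤ) * y = 1 := by rw [← hy]; group
          exact eq_inv_of_mul_eq_one_left e2
        rw [e0, h, e1]
        calc t * (y⁻¹ * t * y ^ j) = (t * y⁻¹ * t) * y ^ j := by simp only [mul_assoc]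
          _ = (y * t * y) * y ^ j := by rw [hr]
          _ = y ^ (1 : ℤ) * t * y ^ (j + 1) := by group) ht (by
    rintro g (⟨j, rfl⟩ | ⟨i, j, rfl⟩)
    · exact Or.inl ⟨1 + j, by group⟩
    · exact Or.inr ⟨1 + i, j, by group⟩) (by
    rintro g (⟨j, rfl⟩ | ⟨i, j, rfl⟩)
    · exact Or.inl ⟨-1 + j, by group⟩
    · exact Or.inr ⟨-1 + i, j, by group⟩)
  have hfin := card_le_of (U := U) (X := Fin 3 ⊕ (Fin 3 × Fin 3)) (Sum.elim (fun i => y ^ i.1) (fun ij => y ^ ij.1.1 * t * y ^ ij.2.1)) (by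
    rintro g (⟨j, rfl⟩ | ⟨i, j, rfl⟩)
    · obtain ⟨j', hj⟩ := zpow_fin (by norm_num) hy j
      exact ⟨Sum.inl j', hj⟩
    · obtain ⟨j', hj⟩ := zpow_fin (by norm_num) hy j
      obtain ⟨i', hi⟩ := zpow_fin (by norm_num) hy i
      refine ⟨Sum.inr (i', j'), ?_⟩
      show y ^ i'.1 * t * y ^ j'.1 = _
      rw [hj, hi]) hsub
  exact ⟨hfin.1.trans (by decide), hfin.2⟩

/-- `n = 4` -/
theorem card4 (ht : t * t = 1) (hy : y ^ 4 = 1) (hx : (t * y⁻¹) ^ 3 = 1) :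
    Nat.card (Subgroup.closure ({t, y} : Set G)) ≤ 24 ∧ Finite (Subgroup.closure ({t, y} : Set G)) := by
  have hr := rel_of ht hx
  have hr' := rel' ht hr
  have hr1 := rel1 ht hr
  have h22 : y ^ (-2 : ℤ) = y ^ (2 : ℤ) := by rw [mod_cases (by norm_num) hy (-2)]; norm_num
  set c := t * y ^ (2 : ℤ) * t with hc
  have hyc : y * c = c * y⁻¹ := by
    rw [h22, ← hc] at hr1
    have e : y * c = (y * c * y) * y⁻¹ := by group
    rw [e, ← hr1]
  have hyc' : y⁻¹ * c = c * y := by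
    have : c * y = y⁻¹ * (y * c) * y := by group
    rw [this, hyc]; group
  let U : Set G := {g | (∃ j : ℤ, g = y ^ j) ∨ (∃ i j : ℤ, g = y ^ i * t * y ^ j) ∨ ∃ j : ℤ, g = c * y ^ j}
  have hsub := closure_sub (U := U) (t := t) (y := y) (Or.inl ⟨0, by simp⟩) (by
    rintro g (⟨j, rfl⟩ | ⟨i, j, rfl⟩ | ⟨j, rfl⟩)
    · exact Or.inr (Or.inl ⟨0, j, by simp⟩)
    · have hi : i % 4 = 0 ∨ i % 4 = 1 ∨ i % 4 = 2 ∨ i % 4 = 3 := by omega
      have e0 : y ^ i = y ^ (i % 4) := mod_cases (by norm_num) hy i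
      rcases hi with h | h | h | h
      · left; refine ⟨j, ?_⟩
        rw [e0, h, zpow_zero, one_mul, ← mul_assoc, ht, one_mul]
      · right; left; refine ⟨-1, j - 1, ?_⟩
        rw [e0, h, zpow_one]
        calc t * (y * t * y ^ j) = (t * y * t) * y ^ j := by simp only [mul_assoc]
          _ = (y⁻¹ * t * y⁻¹) * y ^ j := by rw [hr']
          _ = y ^ (-1 : ℤ) * t * y ^ (j - 1) := by group
      · right; right; refine ⟨j, ?_⟩
        rw [e0, h, hc]; simp only [mul_assoc]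
      · right; left; refine ⟨1, j + 1, ?_⟩
        have e1 : y ^ (3 : ℤ) = y⁻¹ := by
          have e2 : y ^ (3 : ℤ) * y = 1 := by rw [← hy]; group
          exact eq_inv_of_mul_eq_one_left e2
        rw [e0, h, e1]
        calc t * (y⁻¹ * t * y ^ j) = (t * y⁻¹ * t) * y ^ j := by simp only [mul_assoc]
          _ = (y * t * y) * y ^ j := by rw [hr]
          _ = y ^ (1 : ℤ) * t * y ^ (j + 1) := by group
    · right; left; refine ⟨2, j, ?_⟩
      calc t * (c * y ^ j) = (t * t) * y ^ (2 : ℤ) * t * y ^ j := by rw [hc]; simp only [mul_assoc]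
        _ = y ^ (2 : ℤ) * t * y ^ j := by rw [ht, one_mul]) ht (by
    rintro g (⟨j, rfl⟩ | ⟨i, j, rfl⟩ | ⟨j, rfl⟩)
    · exact Or.inl ⟨1 + j, by group⟩
    · exact Or.inr (Or.inl ⟨1 + i, j, by group⟩)
    · exact Or.inr (Or.inr ⟨-1 + j, by rw [← mul_assoc, hyc, mul_assoc, ← zpow_neg_one, ← zpow_add]⟩)) (by
    rintro g (⟨j, rfl⟩ | ⟨i, j, rfl⟩ | ⟨j, rfl⟩)
    · exact Or.inl ⟨-1 + j, by group⟩
    · exact Or.inr (Or.inl ⟨-1 + i, j, by group⟩)
    · exact Or.inr (Or.inr ⟨1 + j, by rw [← mul_assoc, hyc', mul_assoc, zpow_add, zpow_one]⟩))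
  have hfin := card_le_of (U := U) (X := Fin 4 ⊕ (Fin 4 × Fin 4) ⊕ Fin 4)
    (Sum.elim (fun i => y ^ i.1) (Sum.elim (fun ij => y ^ ij.1.1 * t * y ^ ij.2.1) (fun j => c * y ^ j.1))) (by
    rintro g (⟨j, rfl⟩ | ⟨i, j, rfl⟩ | ⟨j, rfl⟩)
    · obtain ⟨j', hj⟩ := zpow_fin (by norm_num) hy j
      exact ⟨Sum.inl j', hj⟩
    · obtain ⟨j', hj⟩ := zpow_fin (by norm_num) hy j
      obtain ⟨i', hi⟩ := zpow_fin (by norm_num) hy i
      refine ⟨Sum.inr (Sum.inl (i', j')), ?_⟩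
      show y ^ i'.1 * t * y ^ j'.1 = _
      rw [hj, hi]
    · obtain ⟨j', hj⟩ := zpow_fin (by norm_num) hy j
      refine ⟨Sum.inr (Sum.inr j'), ?_⟩
      show c * y ^ j'.1 = _
      rw [hj]) hsub
  exact ⟨hfin.1.trans (by decide), hfin.2⟩

/-- `n = 5` -/
theorem card5 (ht : t * t = 1) (hy : y ^ 5 = 1) (hx : (t * y⁻¹) ^ 3 = 1) :
    Nat.card (Subgroup.closure ({t, y} : Set G)) ≤ 60 ∧ Finite (Subgroup.closure ({t, y} : Set G)) := by
  have hr := rel_of ht hx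
  have hr' := rel' ht hr
  have hr1 := rel1 ht hr
  have h33 : y ^ (3 : ℤ) = y ^ (-2 : ℤ) := by rw [mod_cases (by norm_num) hy (-2)]; norm_num
  have hm3 : y ^ (-3 : ℤ) = y ^ (2 : ℤ) := by rw [mod_cases (by norm_num) hy (-3)]; norm_num
  set c := t * y ^ (2 : ℤ) * t with hc
  have htc : t * c = y ^ (2 : ℤ) * t := by
    rw [hc, ← mul_assoc, ← mul_assoc, ht, one_mul]
  -- `t y c = y⁻² t y⁻¹`
  have k1 : t * (y * c) = y ^ (-2 : ℤ) * t * y⁻¹ := by
    calc t * (y * c) = (t * y * t) * y ^ (2 : ℤ) * t := by rw [hc]; simp only [mul_assoc]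
      _ = (y⁻¹ * t * y⁻¹) * y ^ (2 : ℤ) * t := by rw [hr']
      _ = y⁻¹ * (t * y * t) := by group
      _ = y⁻¹ * (y⁻¹ * t * y⁻¹) := by rw [hr']
      _ = y ^ (-2 : ℤ) * t * y⁻¹ := by group
  -- `t y⁻¹ c = y² c y`
  have k4 : t * (y⁻¹ * c) = y ^ (2 : ℤ) * c * y := by
    calc t * (y⁻¹ * c) = (t * y⁻¹ * t) * y ^ (2 : ℤ) * t := by rw [hc]; simp only [mul_assoc]
      _ = (y * t * y) * y ^ (2 : ℤ) * t := by rw [hr]
      _ = y * (t * y ^ (3 : ℤ) * t) := by group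
      _ = y * (y * c * y) := by rw [h33, hr1]
      _ = y ^ (2 : ℤ) * c * y := by rw [zpow_two]; simp only [mul_assoc]
  have k2 : t * (y ^ (2 : ℤ) * c) = y⁻¹ * c * y⁻¹ := by
    calc t * (y ^ (2 : ℤ) * c) = t * (y ^ (2 : ℤ) * c * y) * y⁻¹ := by group
      _ = t * (t * (y⁻¹ * c)) * y⁻¹ := by rw [k4]
      _ = y⁻¹ * c * y⁻¹ := by rw [← mul_assoc t t, ht, one_mul]
  set d := t * y ^ (-2 : ℤ) * c with hd
  have hyd : y * d = d * y⁻¹ := by
    have key : y * t = t * y⁻¹ * t * y⁻¹ := by rw [hr]; group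
    -- `c = t y² t`, `y⁻¹ (t y⁻² t) y⁻¹ = c`
    have hc2 : c = y⁻¹ * (t * y ^ (-2 : ℤ) * t) * y⁻¹ := by rw [hr1]; group
    calc y * d = (y * t) * y ^ (-2 : ℤ) * c := by rw [hd]; simp only [mul_assoc]
      _ = (t * y⁻¹ * t * y⁻¹) * y ^ (-2 : ℤ) * c := by rw [key]
      _ = t * y⁻¹ * (t * y ^ (-3 : ℤ)) * c := by group
      _ = t * y⁻¹ * (t * y ^ (2 : ℤ)) * (t * y ^ (2 : ℤ) * t) := by rw [hm3, ← hc]
      _ = t * y⁻¹ * (t * y ^ (2 : ℤ) * t) * y ^ (2 : ℤ) * t := by simp only [mul_assoc]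
      _ = t * y⁻¹ * (y⁻¹ * (t * y ^ (-2 : ℤ) * t) * y⁻¹) * y ^ (2 : ℤ) * t := by rw [← hc, ← hc2]
      _ = t * y ^ (-2 : ℤ) * t * y ^ (-2 : ℤ) * (t * y * t) := by group
      _ = t * y ^ (-2 : ℤ) * t * y ^ (-2 : ℤ) * (y⁻¹ * t * y⁻¹) := by rw [hr']
      _ = t * y ^ (-2 : ℤ) * t * y ^ (-3 : ℤ) * t * y⁻¹ := by group
      _ = t * y ^ (-2 : ℤ) * (t * y ^ (2 : ℤ) * t) * y⁻¹ := by rw [hm3]; simp only [mul_assoc]
      _ = d * y⁻¹ := by rw [← hc, ← hd]
  have hyd' : y⁻¹ * d = d * y := by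
    have : d * y = y⁻¹ * (y * d) * y := by group
    rw [this, hyd]; group
  let U : Set G := {g | (∃ j : ℤ, g = y ^ j) ∨ (∃ i j : ℤ, g = y ^ i * t * y ^ j) ∨ (∃ i j : ℤ, g = y ^ i * c * y ^ j) ∨ ∃ j : ℤ, g = d * y ^ j}
  have hsub := closure_sub (U := U) (t := t) (y := y) (Or.inl ⟨0, by simp⟩) (by
    rintro g (⟨j, rfl⟩ | ⟨i, j, rfl⟩ | ⟨i, j, rfl⟩ | ⟨j, rfl⟩)
    · exact Or.inr (Or.inl ⟨0, j, by simp⟩)
    · have hi : i % 5 = 0 ∨ i % 5 = 1 ∨ i % 5 = 2 ∨ i % 5 = 3 ∨ i % 5 = 4 := by omega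
      have e0 : y ^ i = y ^ (i % 5) := mod_cases (by norm_num) hy i
      rcases hi with h | h | h | h | h
      · left; refine ⟨j, ?_⟩
        rw [e0, h, zpow_zero, one_mul, ← mul_assoc, ht, one_mul]
      · right; left; refine ⟨-1, j - 1, ?_⟩
        rw [e0, h, zpow_one]
        calc t * (y * t * y ^ j) = (t * y * t) * y ^ j := by simp only [mul_assoc]
          _ = (y⁻¹ * t * y⁻¹) * y ^ j := by rw [hr']
          _ = y ^ (-1 : ℤ) * t * y ^ (j - 1) := by group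
      · right; right; left; refine ⟨0, j, ?_⟩
        rw [e0, h, hc, zpow_zero, one_mul]; simp only [mul_assoc]
      · right; right; left; refine ⟨1, 1 + j, ?_⟩
        rw [e0, h, h33]
        calc t * (y ^ (-2 : ℤ) * t * y ^ j) = (t * y ^ (-2 : ℤ) * t) * y ^ j := by simp only [mul_assoc]
          _ = (y * c * y) * y ^ j := by rw [hr1]
          _ = y ^ (1 : ℤ) * c * y ^ (1 + j) := by group
      · right; left; refine ⟨1, j + 1, ?_⟩
        have e1 : y ^ (4 : ℤ) = y⁻¹ := by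
          have e2 : y ^ (4 : ℤ) * y = 1 := by rw [← hy]; group
          exact eq_inv_of_mul_eq_one_left e2
        rw [e0, h, e1]
        calc t * (y⁻¹ * t * y ^ j) = (t * y⁻¹ * t) * y ^ j := by simp only [mul_assoc]
          _ = (y * t * y) * y ^ j := by rw [hr]
          _ = y ^ (1 : ℤ) * t * y ^ (j + 1) := by group
    · have hi : i % 5 = 0 ∨ i % 5 = 1 ∨ i % 5 = 2 ∨ i % 5 = 3 ∨ i % 5 = 4 := by omega
      have e0 : y ^ i = y ^ (i % 5) := mod_cases (by norm_num) hy i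
      rcases hi with h | h | h | h | h
      · right; left; refine ⟨2, j, ?_⟩
        rw [e0, h, zpow_zero, one_mul, ← mul_assoc, htc]
      · right; left; refine ⟨-2, -1 + j, ?_⟩
        rw [e0, h, zpow_one]
        calc t * (y * c * y ^ j) = (t * (y * c)) * y ^ j := by simp only [mul_assoc]
          _ = (y ^ (-2 : ℤ) * t * y⁻¹) * y ^ j := by rw [k1]
          _ = y ^ (-2 : ℤ) * t * y ^ (-1 + j) := by group
      · right; right; left; refine ⟨-1, -1 + j, ?_⟩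
        rw [e0, h]
        calc t * (y ^ (2 : ℤ) * c * y ^ j) = (t * (y ^ (2 : ℤ) * c)) * y ^ j := by simp only [mul_assoc]
          _ = (y⁻¹ * c * y⁻¹) * y ^ j := by rw [k2]
          _ = y ^ (-1 : ℤ) * c * y ^ (-1 + j) := by group
      · right; right; right; refine ⟨j, ?_⟩
        rw [e0, h, h33, hd]; simp only [mul_assoc]
      · right; right; left; refine ⟨2, 1 + j, ?_⟩
        have e1 : y ^ (4 : ℤ) = y⁻¹ := by
          have e2 : y ^ (4 : ℤ) * y = 1 := by rw [← hy]; group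
          exact eq_inv_of_mul_eq_one_left e2
        rw [e0, h, e1]
        calc t * (y⁻¹ * c * y ^ j) = (t * (y⁻¹ * c)) * y ^ j := by simp only [mul_assoc]
          _ = (y ^ (2 : ℤ) * c * y) * y ^ j := by rw [k4]
          _ = y ^ (2 : ℤ) * c * y ^ (1 + j) := by group
    · right; right; left; refine ⟨-2, j, ?_⟩
      calc t * (d * y ^ j) = (t * t) * y ^ (-2 : ℤ) * c * y ^ j := by rw [hd]; simp only [mul_assoc]
        _ = y ^ (-2 : ℤ) * c * y ^ j := by rw [ht, one_mul]) ht (by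
    rintro g (⟨j, rfl⟩ | ⟨i, j, rfl⟩ | ⟨i, j, rfl⟩ | ⟨j, rfl⟩)
    · exact Or.inl ⟨1 + j, by group⟩
    · exact Or.inr (Or.inl ⟨1 + i, j, by group⟩)
    · exact Or.inr (Or.inr (Or.inl ⟨1 + i, j, by group⟩))
    · exact Or.inr (Or.inr (Or.inr ⟨-1 + j, by rw [← mul_assoc, hyd, mul_assoc, ← zpow_neg_one, ← zpow_add]⟩))) (by
    rintro g (⟨j, rfl⟩ | ⟨i, j, rfl⟩ | ⟨i, j, rfl⟩ | ⟨j, rfl⟩)
    · exact Or.inl ⟨-1 + j, by group⟩
    · exact Or.inr (Or.inl ⟨-1 + i, j, by group⟩)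
    · exact Or.inr (Or.inr (Or.inl ⟨-1 + i, j, by group⟩))
    · exact Or.inr (Or.inr (Or.inr ⟨1 + j, by rw [← mul_assoc, hyd', mul_assoc, zpow_add, zpow_one]⟩)))
  have hfin := card_le_of (U := U) (X := Fin 5 ⊕ (Fin 5 × Fin 5) ⊕ (Fin 5 × Fin 5) ⊕ Fin 5)
    (Sum.elim (fun i => y ^ i.1) (Sum.elim (fun ij => y ^ ij.1.1 * t * y ^ ij.2.1) (Sum.elim (fun ij => y ^ ij.1.1 * c * y ^ ij.2.1) (fun j => d * y ^ j.1)))) (by
    rintro g (⟨j, rfl⟩ | ⟨i, j, rfl⟩ | ⟨i, j, rfl⟩ | ⟨j, rfl⟩)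
    · obtain ⟨j', hj⟩ := zpow_fin (by norm_num) hy j
      exact ⟨Sum.inl j', hj⟩
    · obtain ⟨j', hj⟩ := zpow_fin (by norm_num) hy j
      obtain ⟨i', hi⟩ := zpow_fin (by norm_num) hy i
      refine ⟨Sum.inr (Sum.inl (i', j')), ?_⟩
      show y ^ i'.1 * t * y ^ j'.1 = _
      rw [hj, hi]
    · obtain ⟨j', hj⟩ := zpow_fin (by norm_num) hy j
      obtain ⟨i', hi⟩ := zpow_fin (by norm_num) hy i
      refine ⟨Sum.inr (Sum.inr (Sum.inl (i', j'))), ?_⟩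
      show y ^ i'.1 * c * y ^ j'.1 = _
      rw [hj, hi]
    · obtain ⟨j', hj⟩ := zpow_fin (by norm_num) hy j
      refine ⟨Sum.inr (Sum.inr (Sum.inr j')), ?_⟩
      show d * y ^ j'.1 = _
      rw [hj]) hsub
  exact ⟨hfin.1.trans (by decide), hfin.2⟩

end

/-- homomorphisms from a bound on the order -/
theorem exists_hom {K P : Type*} [Group K] [Finite K] [Group P] {t0 y0 : K} (hgen : Subgroup.closure ({t0, y0} : Set K) = ⊤) {t y : P}
    (h : Nat.card (Subgroup.closure ({(t0, t), (y0, y)} : Set (K × P))) ≤ Nat.card K)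
    (hf : Finite (Subgroup.closure ({(t0, t), (y0, y)} : Set (K × P)))) : ∃ φ : K →* P, φ t0 = t ∧ φ y0 = y := by
  set L := Subgroup.closure ({(t0, t), (y0, y)} : Set (K × P)) with hL
  let π : L →* K := (MonoidHom.fst K P).comp L.subtype
  have hsurj : Function.Surjective π := by
    intro k
    have hk : k ∈ Subgroup.closure ({t0, y0} : Set K) := by rw [hgen]; exact Subgroup.mem_top k
    have h1 : Subgroup.closure ({t0, y0} : Set K) ≤ L.map (MonoidHom.fst K P) := by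
      rw [Subgroup.closure_le]
      rintro x (rfl | rfl)
      · exact ⟨(x, t), Subgroup.subset_closure (by simp), rfl⟩
      · exact ⟨(x, y), Subgroup.subset_closure (by simp), rfl⟩
    obtain ⟨z, hz, hzk⟩ := h1 hk
    exact ⟨⟨z, hz⟩, hzk⟩
  have hbij : Function.Bijective π := hsurj.bijective_of_nat_card_le h
  let e : L ≃* K := MulEquiv.ofBijective π hbij
  have e1 : e ⟨(t0, t), Subgroup.subset_closure (by simp)⟩ = t0 := rfl
  have e2 : e ⟨(y0, y), Subgroup.subset_closure (by simp)⟩ = y0 := rfl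
  refine ⟨((MonoidHom.snd K P).comp L.subtype).comp e.symm.toMonoidHom, ?_, ?_⟩
  · show (e.symm t0).1.2 = t
    rw [← e1, e.symm_apply_apply]
  · show (e.symm y0).1.2 = y
    rw [← e2, e.symm_apply_apply]

end Cfsg.Agent.H8.Tri
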