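import Mathlib
import Cfsg.Agent.H8.Tri1

set_option autoImplicit false
set_option linter.all false

/-! Triangle groups: `A_4`, `S_4`, `A_5` as groups with two generators. -/

namespace Cfsg.Agent.H8.Tri

open Equiv

/-- generator -/
def t5 : alternatingGroup (Fin 5) := ⟨swap 1 2 * swap 3 4, Equiv.Perm.mem_alternatingGroup.2 (by decide)⟩
/-- generator -/
def y5 : alternatingGroup (Fin 5) := ⟨swap 0 1 * swap 1 2 * swap 2 3 * swap 3 4, Equiv.Perm.mem_alternatingGroup.2 (by decide)⟩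

theorem t5_sq : t5 * t5 = 1 := by decide
theorem y5_pow : y5 ^ 5 = 1 := by decide +kernel
theorem x5_pow : (t5 * y5⁻¹) ^ 3 = 1 := by decide +kernel

theorem all5 : ∀ g : alternatingGroup (Fin 5), (∃ j : Fin 5, g = y5 ^ j.1) ∨ (∃ i j : Fin 5, g = y5 ^ i.1 * t5 * y5 ^ j.1) ∨
    (∃ i j : Fin 5, g = y5 ^ i.1 * (t5 * y5 ^ 2 * t5) * y5 ^ j.1) ∨ ∃ j : Fin 5, g = t5 * y5 ^ 3 * (t5 * y5 ^ 2 * t5) * y5 ^ j.1 := by
  decide +kernel

theorem gen5 : Subgroup.closure ({t5, y5} : Set (alternatingGroup (Fin 5))) = ⊤ := by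
  rw [eq_top_iff]
  intro g _
  have ht : t5 ∈ Subgroup.closure ({t5, y5} : Set (alternatingGroup (Fin 5))) := Subgroup.subset_closure (by simp)
  have hy : ∀ j : ℕ, y5 ^ j ∈ Subgroup.closure ({t5, y5} : Set (alternatingGroup (Fin 5))) := fun j =>
    Subgroup.pow_mem _ (Subgroup.subset_closure (by simp)) j
  rcases all5 g with ⟨j, rfl⟩ | ⟨i, j, rfl⟩ | ⟨i, j, rfl⟩ | ⟨j, rfl⟩
  · exact hy _
  · exact mul_mem (mul_mem (hy _) ht) (hy _)
  · exact mul_mem (mul_mem (hy _) (mul_mem (mul_mem ht (hy _)) ht)) (hy _)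
  · exact mul_mem (mul_mem (mul_mem ht (hy _)) (mul_mem (mul_mem ht (hy _)) ht)) (hy _)

/-- generator -/
def t4 : Perm (Fin 4) := swap 0 1
/-- generator -/
def y4 : Perm (Fin 4) := swap 0 1 * swap 1 2 * swap 2 3

theorem t4_sq : t4 * t4 = 1 := by decide
theorem y4_pow : y4 ^ 4 = 1 := by decide +kernel
theorem x4_pow : (t4 * y4⁻¹) ^ 3 = 1 := by decide +kernel

theorem all4 : ∀ g : Perm (Fin 4), (∃ j : Fin 4, g = y4 ^ j.1) ∨ (∃ i j : Fin 4, g = y4 ^ i.1 * t4 * y4 ^ j.1) ∨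
    ∃ j : Fin 4, g = t4 * y4 ^ 2 * t4 * y4 ^ j.1 := by
  decide +kernel

theorem gen4 : Subgroup.closure ({t4, y4} : Set (Perm (Fin 4))) = ⊤ := by
  rw [eq_top_iff]
  intro g _
  have ht : t4 ∈ Subgroup.closure ({t4, y4} : Set (Perm (Fin 4))) := Subgroup.subset_closure (by simp)
  have hy : ∀ j : ℕ, y4 ^ j ∈ Subgroup.closure ({t4, y4} : Set (Perm (Fin 4))) := fun j =>
    Subgroup.pow_mem _ (Subgroup.subset_closure (by simp)) j
  rcases all4 g with ⟨j, rfl⟩ | ⟨i, j, rfl⟩ | ⟨j, rfl⟩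
  · exact hy _
  · exact mul_mem (mul_mem (hy _) ht) (hy _)
  · exact mul_mem (mul_mem (mul_mem ht (hy _)) ht) (hy _)

/-- nontrivial normal subgroups contain `y4 ^ 2` -/
theorem nc4 : ∀ g : Perm (Fin 4), g ≠ 1 → ∃ u v : Perm (Fin 4), y4 ^ 2 = (u * g * u⁻¹) * (v * g * v⁻¹) := by
  decide +kernel

/-- generator -/
def t3 : alternatingGroup (Fin 4) := ⟨swap 0 1 * swap 2 3, Equiv.Perm.mem_alternatingGroup.2 (by decide)⟩
/-- generator -/
def y3 : alternatingGroup (Fin 4) := ⟨swap 0 1 * swap 1 2, Equiv.Perm.mem_alternatingGroup.2 (by decide)⟩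

theorem t3_sq : t3 * t3 = 1 := by decide
theorem y3_pow : y3 ^ 3 = 1 := by decide +kernel
theorem x3_pow : (t3 * y3⁻¹) ^ 3 = 1 := by decide +kernel

theorem all3 : ∀ g : alternatingGroup (Fin 4), (∃ j : Fin 3, g = y3 ^ j.1) ∨ ∃ i j : Fin 3, g = y3 ^ i.1 * t3 * y3 ^ j.1 := by
  decide +kernel

theorem gen3 : Subgroup.closure ({t3, y3} : Set (alternatingGroup (Fin 4))) = ⊤ := by
  rw [eq_top_iff]
  intro g _
  have ht : t3 ∈ Subgroup.closure ({t3, y3} : Set (alternatingGroup (Fin 4))) := Subgroup.subset_closure (by simp)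
  have hy : ∀ j : ℕ, y3 ^ j ∈ Subgroup.closure ({t3, y3} : Set (alternatingGroup (Fin 4))) := fun j =>
    Subgroup.pow_mem _ (Subgroup.subset_closure (by simp)) j
  rcases all3 g with ⟨j, rfl⟩ | ⟨i, j, rfl⟩
  · exact hy _
  · exact mul_mem (mul_mem (hy _) ht) (hy _)

/-- nontrivial normal subgroups contain `t3` -/
theorem nc3 : ∀ g : alternatingGroup (Fin 4), g ≠ 1 → ∃ u v : alternatingGroup (Fin 4), t3 = u * g * u⁻¹ ∨ t3 = u * (v * g * v⁻¹ * g⁻¹) * u⁻¹ := by
  decide +kernel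

theorem card_A5 : Nat.card (alternatingGroup (Fin 5)) = 60 := by
  rw [Nat.card_eq_fintype_card]; decide +kernel

theorem card_A4 : Nat.card (alternatingGroup (Fin 4)) = 12 := by
  rw [Nat.card_eq_fintype_card]; decide +kernel

theorem card_S4 : Nat.card (Perm (Fin 4)) = 24 := by
  rw [Nat.card_eq_fintype_card, Fintype.card_perm, Fintype.card_fin]; rfl

section
variable {P : Type*} [Group P] {t y : P}

theorem hom5 (ht : t * t = 1) (hy : y ^ 5 = 1) (hx : (t * y⁻¹) ^ 3 = 1) : ∃ φ : alternatingGroup (Fin 5) →* P, φ t5 = t ∧ φ y5 = y := by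
  have h := card5 (G := alternatingGroup (Fin 5) × P) (t := (t5, t)) (y := (y5, y)) (Prod.ext t5_sq ht) (Prod.ext y5_pow hy) (Prod.ext x5_pow hx)
  exact exists_hom gen5 (by rw [card_A5]; exact h.1) h.2

theorem hom4 (ht : t * t = 1) (hy : y ^ 4 = 1) (hx : (t * y⁻¹) ^ 3 = 1) : ∃ φ : Perm (Fin 4) →* P, φ t4 = t ∧ φ y4 = y := by
  have h := card4 (G := Perm (Fin 4) × P) (t := (t4, t)) (y := (y4, y)) (Prod.ext t4_sq ht) (Prod.ext y4_pow hy) (Prod.ext x4_pow hx)
  exact exists_hom gen4 (by rw [card_S4]; exact h.1) h.2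

theorem hom3 (ht : t * t = 1) (hy : y ^ 3 = 1) (hx : (t * y⁻¹) ^ 3 = 1) : ∃ φ : alternatingGroup (Fin 4) →* P, φ t3 = t ∧ φ y3 = y := by
  have h := card3 (G := alternatingGroup (Fin 4) × P) (t := (t3, t)) (y := (y3, y)) (Prod.ext t3_sq ht) (Prod.ext y3_pow hy) (Prod.ext x3_pow hx)
  exact exists_hom gen3 (by rw [card_A4]; exact h.1) h.2

theorem sub5 (ht : t * t = 1) (hy : y ^ 5 = 1) (hx : (t * y⁻¹) ^ 3 = 1) (h1 : t ≠ 1) : ∃ H : Subgroup P, Nonempty (H ≃* alternatingGroup (Fin 5)) := by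
  obtain ⟨φ, h2, h3⟩ := hom5 ht hy hx
  haveI : IsSimpleGroup (alternatingGroup (Fin 5)) := alternatingGroup.isSimpleGroup (by simp)
  have hinj : Function.Injective φ := by
    rw [← MonoidHom.ker_eq_bot_iff]
    rcases (inferInstance : φ.ker.Normal).eq_bot_or_eq_top with h | h
    · exact h
    · exfalso; apply h1
      have : t5 ∈ φ.ker := by rw [h]; exact Subgroup.mem_top _
      rw [← h2]; exact this
  exact ⟨φ.range, ⟨(MonoidHom.ofInjective hinj).symm⟩⟩

theorem sub4 (ht : t * t = 1) (hy : y ^ 4 = 1) (hx : (t * y⁻¹) ^ 3 = 1) (h1 : y ^ 2 ≠ 1) : ∃ H : Subgroup P, Nonempty (H ≃* Perm (Fin 4)) := by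
  obtain ⟨φ, h2, h3⟩ := hom4 ht hy hx
  have hinj : Function.Injective φ := by
    rw [injective_iff_map_eq_one]
    intro g hg
    by_contra hne
    apply h1
    obtain ⟨u, v, huv⟩ := nc4 g hne
    rw [← h3, ← map_pow, huv]; simp [hg]
  exact ⟨φ.range, ⟨(MonoidHom.ofInjective hinj).symm⟩⟩

theorem sub3 (ht : t * t = 1) (hy : y ^ 3 = 1) (hx : (t * y⁻¹) ^ 3 = 1) (h1 : t ≠ 1) : ∃ H : Subgroup P, Nonempty (H ≃* alternatingGroup (Fin 4)) := by
  obtain ⟨φ, h2, h3⟩ := hom3 ht hy hx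
  have hinj : Function.Injective φ := by
    rw [injective_iff_map_eq_one]
    intro g hg
    by_contra hne
    apply h1
    obtain ⟨u, v, huv | huv⟩ := nc3 g hne
    · rw [← h2, huv]; simp [hg]
    · rw [← h2, huv]; simp [hg]
  exact ⟨φ.range, ⟨(MonoidHom.ofInjective hinj).symm⟩⟩

end

theorem s3377 : Nonempty (PresentedGroup ({FreeGroup.of (0 : Fin 2) ^ 3, FreeGroup.of (1 : Fin 2) ^ 5,
    (FreeGroup.of (0 : Fin 2) * FreeGroup.of 1) ^ 2} : Set (FreeGroup (Fin 2))) ≃* alternatingGroup (Fin 5)) := by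
  set R : Set (FreeGroup (Fin 2)) := {FreeGroup.of (0 : Fin 2) ^ 3, FreeGroup.of (1 : Fin 2) ^ 5,
    (FreeGroup.of (0 : Fin 2) * FreeGroup.of 1) ^ 2} with hR
  let f : Fin 2 → alternatingGroup (Fin 5) := ![t5 * y5⁻¹, y5]
  have hf : ∀ r ∈ R, FreeGroup.lift f r = 1 := by
    rintro r (rfl | rfl | rfl)
    · rw [map_pow, FreeGroup.lift_apply_of]; exact x5_pow
    · rw [map_pow, FreeGroup.lift_apply_of]; exact y5_pow
    · rw [map_pow, map_mul, FreeGroup.lift_apply_of, FreeGroup.lift_apply_of]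
      show (t5 * y5⁻¹ * y5) ^ 2 = 1
      rw [inv_mul_cancel_right, pow_two]; exact t5_sq
  let φ : PresentedGroup R →* alternatingGroup (Fin 5) := PresentedGroup.toGroup hf
  have hφ0 : φ (PresentedGroup.of 0) = t5 * y5⁻¹ := PresentedGroup.toGroup.of hf
  have hφ1 : φ (PresentedGroup.of 1) = y5 := PresentedGroup.toGroup.of hf
  have hsurj : Function.Surjective φ := by
    rw [← MonoidHom.range_eq_top, eq_top_iff, ← gen5, Subgroup.closure_le]
    rintro x (rfl | rfl)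
    · exact ⟨PresentedGroup.of 0 * PresentedGroup.of 1, by rw [map_mul, hφ0, hφ1, inv_mul_cancel_right]⟩
    · exact ⟨PresentedGroup.of 1, hφ1⟩
  have rel : ∀ r ∈ R, PresentedGroup.mk R r = 1 := fun r hr => PresentedGroup.one_of_mem hr
  have e0 : PresentedGroup.mk R (FreeGroup.of 0) = PresentedGroup.of 0 := rfl
  have e1 : PresentedGroup.mk R (FreeGroup.of 1) = PresentedGroup.of 1 := rfl
  have r1 : (PresentedGroup.of (rels := R) 0) ^ 3 = 1 := by
    have := rel _ (show FreeGroup.of (0 : Fin 2) ^ 3 ∈ R by simp [hR])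
    rwa [map_pow] at this
  have r2 : (PresentedGroup.of (rels := R) 1) ^ 5 = 1 := by
    have := rel _ (show FreeGroup.of (1 : Fin 2) ^ 5 ∈ R by simp [hR])
    rwa [map_pow] at this
  have r3 : (PresentedGroup.of (rels := R) 0 * PresentedGroup.of 1) ^ 2 = 1 := by
    have := rel _ (show (FreeGroup.of (0 : Fin 2) * FreeGroup.of 1) ^ 2 ∈ R by simp [hR])
    rwa [map_pow, map_mul] at this
  have hc := card5 (t := PresentedGroup.of (rels := R) 0 * PresentedGroup.of 1) (y := PresentedGroup.of 1) (by rw [← pow_two]; exact r3) r2 (by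
    rw [mul_inv_cancel_right]; exact r1)
  have htop : Subgroup.closure ({PresentedGroup.of (rels := R) 0 * PresentedGroup.of 1, PresentedGroup.of 1} : Set (PresentedGroup R)) = ⊤ := by
    rw [eq_top_iff, ← PresentedGroup.closure_range_of, Subgroup.closure_le]
    rintro _ ⟨i, rfl⟩
    have h1 : PresentedGroup.of (rels := R) 1 ∈ Subgroup.closure ({PresentedGroup.of (rels := R) 0 * PresentedGroup.of 1, PresentedGroup.of 1} : Set (PresentedGroup R)) :=
      Subgroup.subset_closure (by simp)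
    have h2 : PresentedGroup.of (rels := R) 0 * PresentedGroup.of 1 ∈ Subgroup.closure ({PresentedGroup.of (rels := R) 0 * PresentedGroup.of 1, PresentedGroup.of 1} : Set (PresentedGroup R)) :=
      Subgroup.subset_closure (by simp)
    fin_cases i
    · have := mul_mem h2 (inv_mem h1)
      rwa [mul_inv_cancel_right] at this
    · exact h1
  rw [htop] at hc
  haveI : Finite (⊤ : Subgroup (PresentedGroup R)) := hc.2
  haveI : Finite (PresentedGroup R) := Finite.of_equiv _ Subgroup.topEquiv.toEquiv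
  rw [Nat.card_congr Subgroup.topEquiv.toEquiv] at hc
  exact ⟨MulEquiv.ofBijective φ (hsurj.bijective_of_nat_card_le (by rw [card_A5]; exact hc.1))⟩

end Cfsg.Agent.H8.Tri
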