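import Mathlib
import Cfsg.Agent.H8.Tri2
import Cfsg.Agent.Lib.SL2

set_option autoImplicit false
set_option linter.all false

/-! `A_4`, `S_4`, `A_5` in `PSL_2(q)`. -/

namespace Cfsg.Agent.H8.Tri

open Matrix

section
variable {F : Type*} [Field F]

local notation "M2" => Matrix (Fin 2) (Fin 2) F
local notation "SL2" => SpecialLinearGroup (Fin 2) F
local notation "PSL2" => ProjectiveSpecialLinearGroup (Fin 2) F

/-- projection -/
def pi : SL2 →* PSL2 := QuotientGroup.mk' (Subgroup.center SL2)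

theorem pi_one {A : SL2} {c : F} (h : A.1 = c • 1) : pi A = 1 := by
  apply (QuotientGroup.eq_one_iff A).2
  rw [Subgroup.mem_center_iff]
  intro B
  apply Subtype.ext
  show B.1 * A.1 = A.1 * B.1
  rw [h, mul_smul_comm, smul_mul_assoc, mul_one, one_mul]

theorem pi_one' {A : SL2} (h : pi A = 1) : ∃ c : F, A.1 = c • 1 := by
  have h1 : A ∈ Subgroup.center SL2 := (QuotientGroup.eq_one_iff A).1 h
  obtain ⟨c, -, hc⟩ := Matrix.SpecialLinearGroup.mem_center_iff.1 h1
  refine ⟨c, ?_⟩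
  rw [← hc]
  ext i j
  simp [Matrix.scalar_apply, Matrix.diagonal_apply, Matrix.one_apply]

/-- the element of trace `τ` -/
def YY (τ : F) : SL2 := ⟨!![0, -1; 1, τ], by simp [Matrix.det_fin_two]⟩

/-- the element of trace `0` -/
def TT (a b τ : F) (h : a ^ 2 - τ * a * b + b ^ 2 + b + 1 = 0) : SL2 := ⟨!![a, b; 1 + b - a * τ, -a], by
  rw [Matrix.det_fin_two]
  show a * (-a) - b * (1 + b - a * τ) = 1
  linear_combination -h⟩

theorem TT_sq {a b τ : F} (h : a ^ 2 - τ * a * b + b ^ 2 + b + 1 = 0) : pi (TT a b τ h) * pi (TT a b τ h) = 1 := by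
  rw [← map_mul]
  apply pi_one (c := -1)
  show !![a, b; 1 + b - a * τ, -a] * !![a, b; 1 + b - a * τ, -a] = _
  ext i j
  fin_cases i <;> fin_cases j <;> simp [Matrix.mul_apply, Fin.sum_univ_two]
  · linear_combination h
  · ring
  · ring
  · linear_combination h

theorem XX_pow {a b τ : F} (h : a ^ 2 - τ * a * b + b ^ 2 + b + 1 = 0) : (pi (TT a b τ h) * (pi (YY τ))⁻¹) ^ 3 = 1 := by
  rw [← map_inv, ← map_mul, ← map_pow]
  apply pi_one (c := -1)
  have e1 : (TT a b τ h * (YY τ)⁻¹).1 = !![a * τ - b, a; (1 + b - a * τ) * τ + a, 1 + b - a * τ] := by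
    let Yi : SL2 := ⟨!![τ, 1; -1, 0], by simp [Matrix.det_fin_two]⟩
    have hinv : (YY τ)⁻¹ = Yi := by
      apply inv_eq_of_mul_eq_one_right
      apply Subtype.ext
      show !![0, -1; 1, τ] * !![τ, 1; -1, 0] = (1 : Matrix (Fin 2) (Fin 2) F)
      ext i j
      fin_cases i <;> fin_cases j <;> simp [Matrix.mul_apply, Fin.sum_univ_two]
    rw [hinv]
    show !![a, b; 1 + b - a * τ, -a] * !![τ, 1; -1, 0] = _
    ext i j
    fin_cases i <;> fin_cases j <;> simp [Matrix.mul_apply, Fin.sum_univ_two] <;> ring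
  show ((TT a b τ h * (YY τ)⁻¹).1) ^ 3 = _
  have e2 : (TT a b τ h * (YY τ)⁻¹).1 * (TT a b τ h * (YY τ)⁻¹).1 = (TT a b τ h * (YY τ)⁻¹).1 - 1 := by
    rw [e1]
    ext i j
    fin_cases i <;> fin_cases j <;> simp [Matrix.mul_apply, Fin.sum_univ_two]
    · linear_combination h
    · ring
    · ring
    · linear_combination h
  rw [pow_succ, pow_two, e2, sub_mul, one_mul, e2]
  simp

theorem Y3 {τ : F} (h : τ ^ 2 = 1) : (pi (YY τ)) ^ 3 = 1 := by
  rw [← map_pow]
  apply pi_one (c := -τ)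
  show (!![0, -1; 1, τ] : M2) ^ 3 = _
  rw [pow_succ, pow_two]
  ext i j
  fin_cases i <;> fin_cases j <;> simp [Matrix.mul_apply, Fin.sum_univ_two]
  · linear_combination -h
  · linear_combination h
  · left; linear_combination h

theorem Y4 {τ : F} (h : τ ^ 2 = 2) : (pi (YY τ)) ^ 4 = 1 := by
  rw [← map_pow]
  apply pi_one (c := -1)
  show (!![0, -1; 1, τ] : M2) ^ 4 = _
  rw [pow_succ, pow_succ, pow_two]
  ext i j
  fin_cases i <;> fin_cases j <;> simp [Matrix.mul_apply, Fin.sum_univ_two]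
  · linear_combination -h
  · linear_combination -τ * h
  · linear_combination τ * h
  · linear_combination (τ ^ 2 - 1) * h

theorem Y5 {τ : F} (h : τ ^ 4 - 3 * τ ^ 2 + 1 = 0) : (pi (YY τ)) ^ 5 = 1 := by
  rw [← map_pow]
  apply pi_one (c := -(τ ^ 3 - 2 * τ))
  show (!![0, -1; 1, τ] : M2) ^ 5 = _
  rw [pow_succ, pow_succ, pow_succ, pow_two]
  ext i j
  fin_cases i <;> fin_cases j <;> simp [Matrix.mul_apply, Fin.sum_univ_two]
  · ring
  · linear_combination -h
  · linear_combination h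
  · linear_combination τ * h

theorem Y4_sq {τ : F} (h : τ ^ 2 = 2) (h2 : (2 : F) ≠ 0) : (pi (YY τ)) ^ 2 ≠ 1 := by
  rw [← map_pow]
  intro h1
  obtain ⟨c, hc⟩ := pi_one' h1
  have h3 : (!![0, -1; 1, τ] : M2) ^ 2 = c • 1 := hc
  rw [pow_two] at h3
  have h4 := congrFun (congrFun h3 1) 0
  simp [Matrix.mul_apply, Fin.sum_univ_two] at h4
  rw [h4] at h
  apply h2; rw [← h]; ring

/-- solutions of the conic -/
theorem conic [Fintype F] (τ : F) : ∃ a b : F, a ^ 2 - τ * a * b + b ^ 2 + b + 1 = 0 := by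
  by_cases h2 : (2 : F) = 0
  · by_cases hτ : τ = 0
    · exact ⟨1, 0, by rw [hτ]; linear_combination h2⟩
    · refine ⟨τ⁻¹, τ⁻¹ + 1, ?_⟩
      have e : τ * τ⁻¹ = 1 := mul_inv_cancel₀ hτ
      linear_combination (-(τ⁻¹ + 1)) * e + (τ⁻¹ ^ 2 + τ⁻¹ + 1) * h2
  · by_cases hτ : τ ^ 2 = 4
    · refine ⟨-τ / 2, -1, ?_⟩
      field_simp
      linear_combination -hτ
    · have hodd : Fintype.card F % 2 = 1 := by
        rcases Nat.even_or_odd (Fintype.card F) with h | h
        · exfalso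
          apply h2
          have : ringChar F = 2 := (FiniteField.even_card_iff_char_two).2 (Nat.even_iff.1 h)
          have h3 := CharP.cast_eq_zero F (ringChar F)
          rw [this] at h3
          exact_mod_cast h3
        · exact Nat.odd_iff.1 h
      have hδ : (1 - τ ^ 2 / 4 : F) ≠ 0 := by
        intro h
        apply hτ
        have h4 : (4 : F) ≠ 0 := by
          have : (4 : F) = 2 * 2 := by norm_num
          rw [this]; exact mul_ne_zero h2 h2
        field_simp at h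
        linear_combination -h
      obtain ⟨s, b, hsb⟩ := FiniteField.exists_root_sum_quadratic (R := F) (f := Polynomial.C 1 * Polynomial.X ^ 2 + Polynomial.C 0 * Polynomial.X + Polynomial.C 0)
        (g := Polynomial.C (1 - τ ^ 2 / 4) * Polynomial.X ^ 2 + Polynomial.C 1 * Polynomial.X + Polynomial.C 1)
        (Polynomial.degree_quadratic one_ne_zero) (Polynomial.degree_quadratic hδ) hodd
      simp only [Polynomial.eval_add, Polynomial.eval_mul, Polynomial.eval_C, Polynomial.eval_pow, Polynomial.eval_X] at hsb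
      refine ⟨s + τ / 2 * b, b, ?_⟩
      have h4 : (4 : F) = 2 * 2 := by norm_num
      have h5 : (2 : F) * (τ / 2) = τ := by field_simp
      have h6 : τ ^ 2 / 4 = (τ / 2) ^ 2 := by rw [h4]; field_simp
      rw [h6] at hsb
      generalize τ / 2 = μ at *
      rw [← h5]
      linear_combination hsb

theorem TT_ne {a b τ : F} (h : a ^ 2 - τ * a * b + b ^ 2 + b + 1 = 0) (h1 : pi (TT a b τ h) = 1) : (2 : F) = 0 ∧ a = 1 ∧ b = 0 ∧ τ = 1 := by
  obtain ⟨c, hc⟩ := pi_one' h1
  have h3 : (!![a, b; 1 + b - a * τ, -a] : M2) = c • 1 := hc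
  have e00 := congrFun (congrFun h3 0) 0
  have e01 := congrFun (congrFun h3 0) 1
  have e10 := congrFun (congrFun h3 1) 0
  have e11 := congrFun (congrFun h3 1) 1
  simp at e00 e01 e10 e11
  have hb : b = 0 := e01
  have ha : 2 * a = 0 := by linear_combination e00 - e11
  rw [hb] at e10 h
  have haτ : a * τ = 1 := by linear_combination -e10
  have ha0 : a ≠ 0 := by rintro rfl; rw [zero_mul] at haτ; exact zero_ne_one haτ
  have h2 : (2 : F) = 0 := (mul_eq_zero.1 ha).resolve_right ha0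
  have ha1 : a = 1 := by
    have : (a - 1) ^ 2 = 0 := by linear_combination h - a * h2
    have := pow_eq_zero_iff (two_ne_zero) |>.1 this
    exact sub_eq_zero.1 this
  exact ⟨h2, ha1, hb, by rw [ha1, one_mul] at haτ; exact haτ⟩

end

section Main
variable {F : Type*} [Field F] [Fintype F]

local notation "SL2" => SpecialLinearGroup (Fin 2) F
local notation "PSL2" => ProjectiveSpecialLinearGroup (Fin 2) F

/-- trace of an element of order five -/
theorem trace5 {Y : SL2} (hY : Y ^ 5 = 1) (hY1 : Y ≠ 1) : Y.1.trace ^ 4 - 3 * Y.1.trace ^ 2 + 1 = 0 := by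
  by_contra hne
  set τ := Y.1.trace with hτ
  have hdet : Y.1 0 0 * Y.1 1 1 - Y.1 0 1 * Y.1 1 0 = 1 := by rw [← Matrix.det_fin_two]; exact Y.2
  have hch : Y.1 * Y.1 = τ • Y.1 - 1 := by
    ext i j
    rw [hτ, Matrix.trace_fin_two]
    fin_cases i <;> fin_cases j <;> simp [Matrix.mul_apply, Fin.sum_univ_two]
    · linear_combination -hdet
    · ring
    · ring
    · linear_combination -hdet
  have h5 : Y.1 ^ 5 = (τ ^ 4 - 3 * τ ^ 2 + 1) • Y.1 - (τ ^ 3 - 2 * τ) • (1 : Matrix (Fin 2) (Fin 2) F) := by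
    have p3 : Y.1 ^ 3 = (τ ^ 2 - 1) • Y.1 - τ • (1 : Matrix (Fin 2) (Fin 2) F) := by
      rw [pow_succ, pow_two, hch, sub_mul, smul_mul_assoc, hch, one_mul]
      module
    have p4 : Y.1 ^ 4 = (τ ^ 3 - 2 * τ) • Y.1 - (τ ^ 2 - 1) • (1 : Matrix (Fin 2) (Fin 2) F) := by
      rw [pow_succ, p3, sub_mul, smul_mul_assoc, smul_mul_assoc, hch, one_mul]
      module
    rw [pow_succ, p4, sub_mul, smul_mul_assoc, smul_mul_assoc, hch, one_mul]
    module
  have h5' : Y.1 ^ 5 = 1 := congrArg Subtype.val hY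
  rw [h5'] at h5
  have h6 : Y.1 = ((τ ^ 4 - 3 * τ ^ 2 + 1)⁻¹ * (1 + (τ ^ 3 - 2 * τ))) • (1 : Matrix (Fin 2) (Fin 2) F) := by
    rw [mul_smul, eq_inv_smul_iff₀ hne]
    have h9 := congrArg (fun M => M + (τ ^ 3 - 2 * τ) • (1 : Matrix (Fin 2) (Fin 2) F)) h5
    simp only [sub_add_cancel] at h9
    rw [← h9, add_smul, one_smul]
  set c := (τ ^ 4 - 3 * τ ^ 2 + 1)⁻¹ * (1 + (τ ^ 3 - 2 * τ)) with hc
  have h7 : c ^ 2 = 1 := by
    have := Y.2
    rw [h6, Matrix.det_smul, Matrix.det_one, mul_one, Fintype.card_fin] at this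
    exact this
  have h8 : Y ^ 2 = 1 := by
    apply Subtype.ext
    show Y.1 ^ 2 = 1
    rw [h6, pow_two, smul_mul_smul_comm, mul_one, ← pow_two, h7, one_smul]
  apply hY1
  calc Y = Y ^ 5 * (Y ^ 2)⁻¹ * (Y ^ 2)⁻¹ := by group
    _ = 1 := by rw [hY, h8]; simp

theorem s0804 {q : ℕ} (hF : Fintype.card F = q) : (∃ H : Subgroup PSL2, Nonempty (H ≃* alternatingGroup (Fin 5))) ↔ 5 ∣ q * (q ^ 2 - 1) := by
  have hcard := Cfsg.Agent.Lib.SL2.card_SL2_eq (F := F)
  rw [hF] at hcard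
  constructor
  · rintro ⟨H, ⟨e⟩⟩
    have h1 : Nat.card H = 60 := by rw [Nat.card_congr e.toEquiv, card_A5]
    have h2 : 60 ∣ Nat.card PSL2 := by rw [← h1]; exact H.card_subgroup_dvd_card
    have h3 : Nat.card PSL2 ∣ Nat.card SL2 := Subgroup.card_quotient_dvd_card _
    rw [← hcard]
    exact ((show 5 ∣ 60 by norm_num).trans h2).trans h3
  · intro h
    rw [← hcard] at h
    haveI : Fact (Nat.Prime 5) := ⟨by norm_num⟩
    obtain ⟨Y, hY⟩ := exists_prime_orderOf_dvd_card' 5 h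
    have hτ := trace5 (Y := Y) (by rw [← hY]; exact pow_orderOf_eq_one Y) (by rintro rfl; rw [orderOf_one] at hY; omega)
    set τ := Y.1.trace
    obtain ⟨a, b, hab⟩ := conic τ
    refine sub5 (TT_sq hab) (Y5 hτ) (XX_pow hab) ?_
    intro h1
    obtain ⟨h2, -, -, h3⟩ := TT_ne hab h1
    rw [h3] at hτ
    have : (1 : F) = 0 := by linear_combination hτ - (-1) * h2
    exact one_ne_zero this

end Main

end Cfsg.Agent.H8.Tri
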