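import Mathlib
import Cfsg.Agent.H8.Tri3

set_option autoImplicit false
set_option linter.all false

/-! `A_4`, `S_4` in `PSL_2(q)`. -/

namespace Cfsg.Agent.H8.Tri

open Matrix

section
variable {F : Type*} [Field F]

local notation "M2" => Matrix (Fin 2) (Fin 2) F
local notation "SL2" => SpecialLinearGroup (Fin 2) F
local notation "PSL2" => ProjectiveSpecialLinearGroup (Fin 2) F

theorem cayley (Y : SL2) : Y.1 * Y.1 = Y.1.trace • Y.1 - 1 := by
  have hdet : Y.1 0 0 * Y.1 1 1 - Y.1 0 1 * Y.1 1 0 = 1 := by rw [← Matrix.det_fin_two]; exact Y.2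
  ext i j
  rw [Matrix.trace_fin_two]
  fin_cases i <;> fin_cases j <;> simp [Matrix.mul_apply, Fin.sum_univ_two]
  · linear_combination -hdet
  · ring
  · ring
  · linear_combination -hdet

/-- no elements of order four in characteristic two -/
theorem no4 (h2 : (2 : F) = 0) {g : PSL2} (h : g ^ 4 = 1) : g ^ 2 = 1 := by
  obtain ⟨Y, rfl⟩ := QuotientGroup.mk'_surjective (Subgroup.center SL2) g
  have h' : (pi Y) ^ 4 = 1 := h
  show (pi Y) ^ 2 = 1
  rw [← map_pow] at h' ⊢
  obtain ⟨c, hc⟩ := pi_one' h'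
  set τ := Y.1.trace with hτ
  have hch : Y.1 * Y.1 = τ • Y.1 - 1 := cayley Y
  by_cases h0 : τ = 0
  · apply pi_one (c := -1)
    show Y.1 ^ 2 = _
    rw [pow_two, hch, h0, zero_smul, zero_sub, neg_smul, one_smul]
  · have p4 : Y.1 ^ 4 = (τ ^ 3 - 2 * τ) • Y.1 - (τ ^ 2 - 1) • (1 : M2) := by
      have p3 : Y.1 ^ 3 = (τ ^ 2 - 1) • Y.1 - τ • (1 : M2) := by
        rw [pow_succ, pow_two, hch, sub_mul, smul_mul_assoc, hch, one_mul]
        module
      rw [pow_succ, p3, sub_mul, smul_mul_assoc, smul_mul_assoc, hch, one_mul]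
      module
    have hc' : Y.1 ^ 4 = c • 1 := hc
    rw [hc', h2, zero_mul, sub_zero] at p4
    have h3 : τ ^ 3 ≠ 0 := pow_ne_zero _ h0
    have h6 : Y.1 = ((τ ^ 3)⁻¹ * (c + (τ ^ 2 - 1))) • (1 : M2) := by
      rw [mul_smul, eq_inv_smul_iff₀ h3]
      have h9 := congrArg (fun M => M + (τ ^ 2 - 1) • (1 : M2)) p4
      simp only [sub_add_cancel] at h9
      rw [← h9, add_smul]
    rw [map_pow, pi_one h6, one_pow]

theorem ker_prop {N : M2} (hN : N ≠ 0) {v u : Fin 2 → F} (hv : N *ᵥ v = 0) (hu : N *ᵥ u = 0) : v 0 * u 1 - v 1 * u 0 = 0 := by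
  by_contra hne
  apply hN
  have h1 : N * (Matrix.of ![v, u]).transpose = 0 := by
    ext i j
    fin_cases j
    · exact congrFun hv i
    · exact congrFun hu i
  have h2 : ((Matrix.of ![v, u]).transpose : M2).det ≠ 0 := by
    rw [Matrix.det_transpose, Matrix.det_fin_two]
    exact hne
  have h3 : ((Matrix.of ![v, u]).transpose : M2) * ((Matrix.of ![v, u]).transpose : M2)⁻¹ = 1 := Matrix.mul_nonsing_inv _ (isUnit_iff_ne_zero.2 h2)
  calc N = N * (((Matrix.of ![v, u]).transpose : M2) * ((Matrix.of ![v, u]).transpose : M2)⁻¹) := by rw [h3, mul_one]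
    _ = 0 := by rw [← mul_assoc, h1, zero_mul]

theorem par {v u : Fin 2 → F} (hv : v ≠ 0) (h : v 0 * u 1 - v 1 * u 0 = 0) : ∃ l : F, u = l • v := by
  by_cases h0 : v 0 = 0
  · have h1 : v 1 ≠ 0 := by
      intro h1; apply hv; funext i; fin_cases i
      · exact h0
      · exact h1
    have h2 : u 0 = 0 := by
      rw [h0, zero_mul, zero_sub, neg_eq_zero] at h
      exact (mul_eq_zero.1 h).resolve_left h1
    refine ⟨u 1 / v 1, ?_⟩
    funext i; fin_cases i
    · show u 0 = u 1 / v 1 * v 0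
      rw [h0, h2, mul_zero]
    · show u 1 = u 1 / v 1 * v 1
      field_simp
  · refine ⟨u 0 / v 0, ?_⟩
    funext i; fin_cases i
    · show u 0 = u 0 / v 0 * v 0
      field_simp
    · show u 1 = u 0 / v 0 * v 1
      field_simp
      linear_combination h

/-- a fixed line -/
theorem fixed_line (h2 : (2 : F) = 0) {T Y : SL2} (hT : T * T = 1) (hT1 : T ≠ 1) (hc : T * (Y * T * Y⁻¹) = (Y * T * Y⁻¹) * T) :
    ∃ (v : Fin 2 → F) (l : F), v ≠ 0 ∧ Y.1 *ᵥ v = l • v := by
  set N : M2 := T.1 - 1 with hN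
  have hN0 : N ≠ 0 := by
    intro h; apply hT1; apply Subtype.ext; exact sub_eq_zero.1 h
  have hTT : T.1 * T.1 = 1 := congrArg Subtype.val hT
  have h2M : (2 : F) • (T.1 : M2) = 0 := by rw [h2, zero_smul]
  have hNN : N * N = 0 := by
    rw [hN, sub_mul, mul_sub, hTT, mul_one, one_mul]
    have : (1 : M2) - T.1 - (T.1 - 1) = (2 : F) • 1 - (2 : F) • T.1 := by module
    rw [this, h2, zero_smul, zero_smul, sub_zero]
  obtain ⟨w, hw⟩ : ∃ w, N *ᵥ w ≠ 0 := by
    by_contra hcon
    push Not at hcon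
    apply hN0
    apply Matrix.toLin'.injective
    apply LinearMap.ext
    intro x
    rw [Matrix.toLin'_apply, hcon, map_zero, LinearMap.zero_apply]
  set v := N *ᵥ w with hv
  have hNv : N *ᵥ v = 0 := by rw [hv, Matrix.mulVec_mulVec, hNN, Matrix.zero_mulVec]
  set N' : M2 := (Y * T * Y⁻¹).1 - 1 with hN'
  have hYY : Y.1 * (Y⁻¹).1 = 1 := congrArg Subtype.val (mul_inv_cancel Y)
  have hYY' : (Y⁻¹).1 * Y.1 = 1 := congrArg Subtype.val (inv_mul_cancel Y)
  have hN'e : N' = Y.1 * N * (Y⁻¹).1 := by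
    rw [hN', hN, mul_sub, sub_mul, mul_one, hYY]
    rfl
  have hN'0 : N' ≠ 0 := by
    intro h
    apply hN0
    have : N = (Y⁻¹).1 * N' * Y.1 := by
      rw [hN'e]
      calc N = ((Y⁻¹).1 * Y.1) * N * ((Y⁻¹).1 * Y.1) := by rw [hYY', one_mul, mul_one]
        _ = _ := by simp only [mul_assoc]
    rw [this, h, mul_zero, zero_mul]
  have hN'N' : N' * N' = 0 := by
    rw [hN'e]
    calc Y.1 * N * (Y⁻¹).1 * (Y.1 * N * (Y⁻¹).1) = Y.1 * N * ((Y⁻¹).1 * Y.1) * (N * (Y⁻¹).1) := by simp only [mul_assoc]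
      _ = Y.1 * (N * N) * (Y⁻¹).1 := by rw [hYY', mul_one]; simp only [mul_assoc]
      _ = 0 := by rw [hNN, mul_zero, zero_mul]
  have hcc : T.1 * (Y * T * Y⁻¹).1 = (Y * T * Y⁻¹).1 * T.1 := congrArg Subtype.val hc
  have hNN' : N * N' = N' * N := by
    have a1 : ∀ X : M2, (T.1 - 1) * (X - 1) = T.1 * X - T.1 - X + 1 := fun X => by noncomm_ring
    have a2 : ∀ X : M2, (X - 1) * (T.1 - 1) = X * T.1 - T.1 - X + 1 := fun X => by noncomm_ring
    rw [hN, hN', a1, a2, hcc]
  have h3 : N *ᵥ (N' *ᵥ v) = 0 := by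
    rw [Matrix.mulVec_mulVec, hNN', ← Matrix.mulVec_mulVec, hNv, Matrix.mulVec_zero]
  obtain ⟨μ, hμ⟩ := par hw (ker_prop hN0 hNv h3)
  have hN'v : N' *ᵥ v = 0 := by
    have h4 : N' *ᵥ (N' *ᵥ v) = 0 := by rw [Matrix.mulVec_mulVec, hN'N', Matrix.zero_mulVec]
    rw [hμ, Matrix.mulVec_smul, hμ, smul_smul] at h4
    have h5 : μ * μ = 0 := (smul_eq_zero.1 h4).resolve_right hw
    rw [hμ, mul_self_eq_zero.1 h5, zero_smul]
  have h6 : N' *ᵥ (Y.1 *ᵥ v) = 0 := by
    rw [Matrix.mulVec_mulVec, hN'e]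
    have : Y.1 * N * (Y⁻¹).1 * Y.1 = Y.1 * N := by rw [mul_assoc, hYY', mul_one]
    rw [this, ← Matrix.mulVec_mulVec, hNv, Matrix.mulVec_zero]
  obtain ⟨l, hl⟩ := par hw (ker_prop hN'0 hN'v h6)
  exact ⟨v, l, hw, hl⟩

/-- trace of a matrix of determinant one with eigenvalue one -/
theorem trace_of_fixed {Y : SL2} {v : Fin 2 → F} (hv : v ≠ 0) (h : Y.1 *ᵥ v = v) : Y.1.trace = 2 := by
  have hdet : Y.1 0 0 * Y.1 1 1 - Y.1 0 1 * Y.1 1 0 = 1 := by rw [← Matrix.det_fin_two]; exact Y.2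
  have h0 : Y.1 0 0 * v 0 + Y.1 0 1 * v 1 = v 0 := by
    have := congrFun h 0
    rwa [Matrix.mulVec, dotProduct, Fin.sum_univ_two] at this
  have h1 : Y.1 1 0 * v 0 + Y.1 1 1 * v 1 = v 1 := by
    have := congrFun h 1
    rwa [Matrix.mulVec, dotProduct, Fin.sum_univ_two] at this
  rw [Matrix.trace_fin_two]
  by_cases hv0 : v 0 = 0
  · have hv1 : v 1 ≠ 0 := by
      intro h1; apply hv; funext i; fin_cases i
      · exact hv0
      · exact h1
    have : (Y.1 0 0 + Y.1 1 1 - 2) * v 1 = 0 := by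
      linear_combination (1 - Y.1 0 0) * h1 + Y.1 1 0 * h0 + v 1 * hdet
    have := (mul_eq_zero.1 this).resolve_right hv1
    linear_combination this
  · have : (Y.1 0 0 + Y.1 1 1 - 2) * v 0 = 0 := by
      linear_combination (1 - Y.1 1 1) * h0 + Y.1 0 1 * h1 + v 0 * hdet
    have := (mul_eq_zero.1 this).resolve_right hv0
    linear_combination this

end

section Main
variable {F : Type*} [Field F] [Fintype F]

local notation "M2" => Matrix (Fin 2) (Fin 2) F
local notation "SL2" => SpecialLinearGroup (Fin 2) F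
local notation "PSL2" => ProjectiveSpecialLinearGroup (Fin 2) F

theorem s0803 {q : ℕ} (hF : Fintype.card F = q) : (∃ H : Subgroup PSL2, Nonempty (H ≃* Equiv.Perm (Fin 4))) ↔ q ^ 2 % 16 = 1 := by
  have hcard := Cfsg.Agent.Lib.SL2.card_SL2_eq (F := F)
  rw [hF] at hcard
  constructor
  · rintro ⟨H, ⟨e⟩⟩
    have h2 : (2 : F) ≠ 0 := by
      intro h2
      have h4 : ((e.symm y4 : H) : PSL2) ^ 4 = 1 := by
        rw [← Subgroup.coe_pow, ← map_pow, y4_pow, map_one]; rfl
      have h5 := no4 h2 h4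
      rw [← Subgroup.coe_pow, ← map_pow] at h5
      have h6 : e.symm (y4 ^ 2) = 1 := Subtype.ext h5
      rw [MulEquiv.map_eq_one_iff] at h6
      revert h6; decide +kernel
    have hodd : q % 2 = 1 := by
      rcases Nat.mod_two_eq_zero_or_one q with h | h
      · exfalso
        apply h2
        have : ringChar F = 2 := (FiniteField.even_card_iff_char_two).2 (by rw [hF]; exact h)
        have h3 := CharP.cast_eq_zero F (ringChar F)
        rw [this] at h3
        exact_mod_cast h3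
      · exact h
    have h1 : Nat.card H = 24 := by rw [Nat.card_congr e.toEquiv, card_S4]
    have h3 : 24 ∣ Nat.card PSL2 := by rw [← h1]; exact H.card_subgroup_dvd_card
    have h4 : Nat.card SL2 = Nat.card PSL2 * Nat.card (Subgroup.center SL2) := Subgroup.card_eq_card_quotient_mul_card_subgroup (Subgroup.center SL2)
    let z : SL2 := ⟨-1, by rw [Matrix.det_neg]; simp⟩
    have hz : z ∈ Subgroup.center SL2 := by
      rw [Subgroup.mem_center_iff]
      intro B
      apply Subtype.ext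
      show B.1 * (-1 : M2) = (-1 : M2) * B.1
      rw [mul_neg, mul_one, neg_mul, one_mul]
    have h5 : 2 ∣ Nat.card (Subgroup.center SL2) := by
      have h6 : orderOf (⟨z, hz⟩ : Subgroup.center SL2) = 2 := by
        apply orderOf_eq_prime
        · apply Subtype.ext; apply Subtype.ext
          show (-1 : M2) ^ 2 = 1
          rw [neg_one_sq]
        · intro h
          have h7 : (-1 : M2) = 1 := congrArg (fun x : Subgroup.center SL2 => x.1.1) h
          have h8 := congrFun (congrFun h7 0) 0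
          simp at h8
          apply h2
          linear_combination -h8
      have h8 := orderOf_dvd_natCard (⟨z, hz⟩ : Subgroup.center SL2)
      rwa [h6] at h8
    have h6 : 16 ∣ q * (q ^ 2 - 1) := by
      rw [← hcard, h4]
      exact mul_dvd_mul ((show 8 ∣ 24 by norm_num).trans h3) h5
    have h7 : Nat.Coprime 16 q := by
      rw [show (16 : ℕ) = 2 ^ 4 by norm_num]
      exact Nat.Coprime.pow_left _ ((Nat.coprime_two_left).2 (Nat.odd_iff.2 hodd))
    obtain ⟨k, hk⟩ := h7.dvd_of_dvd_mul_left h6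
    have hq1 : 1 ≤ q ^ 2 := Nat.one_le_pow _ _ (by omega)
    omega
  · intro h
    have h16 : q % 8 = 1 ∨ q % 8 = 7 := by
      have h1 : q ^ 2 % 16 = ((q % 16) * (q % 16)) % 16 := by rw [pow_two, Nat.mul_mod]
      rw [h1] at h
      have h2 : q % 16 < 16 := Nat.mod_lt _ (by norm_num)
      have h3 : q % 8 = (q % 16) % 8 := by omega
      rw [h3]
      generalize q % 16 = r at *
      interval_cases r <;> simp_all
    have h2 : (2 : F) ≠ 0 := by
      intro h2
      have hp : CharP F 2 := CharTwo.of_one_ne_zero_of_two_eq_zero one_ne_zero h2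
      obtain ⟨n, -, hn⟩ := FiniteField.card F 2
      rw [hF] at hn
      have : 2 ∣ q := by rw [hn]; exact dvd_pow_self 2 n.2.ne'
      omega
    obtain ⟨τ, hτ⟩ := (FiniteField.isSquare_two_iff (F := F)).2 (by rw [hF]; omega)
    have hτ2 : τ ^ 2 = 2 := by rw [hτ, pow_two]
    obtain ⟨a, b, hab⟩ := conic τ
    exact sub4 (TT_sq hab) (Y4 hτ2) (XX_pow hab) (Y4_sq hτ2 h2)

theorem s0802 (p n : ℕ) [Fact p.Prime] [CharP F p] (hF : Fintype.card F = p ^ n) :
    (∃ H : Subgroup PSL2, Nonempty (H ≃* alternatingGroup (Fin 4))) ↔ ¬ (p = 2 ∧ Odd n) := by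
  constructor
  · rintro ⟨H, ⟨e⟩⟩ ⟨rfl, hn⟩
    have h2 : (2 : F) = 0 := by have := CharP.cast_eq_zero F 2; exact_mod_cast this
    have pinj : ∀ A : SL2, pi A = 1 → A = 1 := by
      intro A hA
      obtain ⟨c, hc⟩ := pi_one' hA
      have h3 : c ^ 2 = 1 := by
        have := A.2
        rw [hc, Matrix.det_smul, Matrix.det_one, mul_one, Fintype.card_fin] at this
        exact this
      have h4 : (c - 1) ^ 2 = 0 := by linear_combination h3 + (1 - c) * h2
      have h5 : c = 1 := sub_eq_zero.1 ((pow_eq_zero_iff two_ne_zero).1 h4)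
      apply Subtype.ext
      rw [hc, h5, one_smul]; rfl
    obtain ⟨T, hT⟩ := QuotientGroup.mk'_surjective (Subgroup.center SL2) ((e.symm t3 : H) : PSL2)
    obtain ⟨Y, hY⟩ := QuotientGroup.mk'_surjective (Subgroup.center SL2) ((e.symm y3 : H) : PSL2)
    have hT' : pi T = ((e.symm t3 : H) : PSL2) := hT
    have hY' : pi Y = ((e.symm y3 : H) : PSL2) := hY
    have hTT : T * T = 1 := by
      apply pinj
      rw [map_mul, hT', ← Subgroup.coe_mul, ← map_mul, t3_sq, map_one]; rfl
    have hT1 : T ≠ 1 := by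
      rintro rfl
      rw [map_one] at hT'
      have h6 : e.symm t3 = 1 := Subtype.ext hT'.symm
      rw [MulEquiv.map_eq_one_iff] at h6
      revert h6; decide +kernel
    have hY3 : Y ^ 3 = 1 := by
      apply pinj
      rw [map_pow, hY', ← Subgroup.coe_pow, ← map_pow, y3_pow, map_one]; rfl
    have hY1 : Y ≠ 1 := by
      rintro rfl
      rw [map_one] at hY'
      have h6 : e.symm y3 = 1 := Subtype.ext hY'.symm
      rw [MulEquiv.map_eq_one_iff] at h6
      revert h6; decide +kernel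
    have hcm : T * (Y * T * Y⁻¹) = (Y * T * Y⁻¹) * T := by
      have h7 : T * (Y * T * Y⁻¹) * ((Y * T * Y⁻¹) * T)⁻¹ = 1 := by
        apply pinj
        have h8 : t3 * (y3 * t3 * y3⁻¹) * ((y3 * t3 * y3⁻¹) * t3)⁻¹ = 1 := by decide +kernel
        have h9 : pi (T * (Y * T * Y⁻¹) * ((Y * T * Y⁻¹) * T)⁻¹) = ((e.symm (t3 * (y3 * t3 * y3⁻¹) * ((y3 * t3 * y3⁻¹) * t3)⁻¹) : H) : PSL2) := by
          simp only [map_mul, map_inv, hT', hY', Subgroup.coe_mul, Subgroup.coe_inv]
        rw [h9, h8, map_one]; rfl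
      exact mul_inv_eq_one.1 h7
    obtain ⟨v, l, hv, hl⟩ := fixed_line h2 hTT hT1 hcm
    have hY3' : Y.1 ^ 3 = 1 := congrArg Subtype.val hY3
    have hl3 : l ^ 3 = 1 := by
      have h8 : (Y.1 ^ 3) *ᵥ v = (l ^ 3) • v := by
        rw [pow_succ, pow_two, ← Matrix.mulVec_mulVec, ← Matrix.mulVec_mulVec, hl, Matrix.mulVec_smul, Matrix.mulVec_smul, hl, Matrix.mulVec_smul, hl,
          smul_smul, smul_smul]
        congr 1; ring
      rw [hY3', Matrix.one_mulVec] at h8
      have h9 : (l ^ 3 - 1) • v = 0 := by rw [sub_smul, one_smul, ← h8, sub_self]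
      exact sub_eq_zero.1 ((smul_eq_zero.1 h9).resolve_right hv)
    have hl1 : l = 1 := by
      have hl0 : l ≠ 0 := by rintro rfl; rw [zero_pow (by norm_num)] at hl3; exact zero_ne_one hl3
      have h8 : l ^ (Fintype.card F - 1) = 1 := FiniteField.pow_card_sub_one_eq_one l hl0
      have h9 : Nat.gcd 3 (Fintype.card F - 1) = 1 := by
        rw [hF]
        obtain ⟨k, rfl⟩ := hn
        have h10 : 2 ^ (2 * k + 1) % 3 = 2 := by
          rw [pow_succ, pow_mul, Nat.mul_mod, Nat.pow_mod]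
          norm_num
        have h12 : ∀ X : ℕ, X % 3 = 2 → ¬ 3 ∣ X - 1 := by intro X hX hd; omega
        have h11 : Nat.Coprime 3 (2 ^ (2 * k + 1) - 1) := by
          rw [Nat.Prime.coprime_iff_not_dvd Nat.prime_three]
          exact h12 _ h10
        exact h11
      have h10 : orderOf l ∣ 1 := by
        rw [← h9]
        exact Nat.dvd_gcd (orderOf_dvd_of_pow_eq_one hl3) (orderOf_dvd_of_pow_eq_one h8)
      exact orderOf_eq_one_iff.1 (Nat.dvd_one.1 h10)
    rw [hl1, one_smul] at hl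
    have htr := trace_of_fixed hv hl
    have hch := cayley Y
    rw [htr, h2, zero_smul, zero_sub] at hch
    have hYY : Y * Y = 1 := by
      apply pinj
      apply pi_one (c := -1)
      show Y.1 * Y.1 = _
      rw [hch, neg_smul, one_smul]
    apply hY1
    calc Y = Y ^ 3 * (Y * Y)⁻¹ := by group
      _ = 1 := by rw [hY3, hYY]; simp
  · intro h
    by_cases hp : p = 2
    · subst hp
      have h2 : (2 : F) = 0 := by have := CharP.cast_eq_zero F 2; exact_mod_cast this
      have hn : Even n := by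
        rw [← Nat.not_odd_iff_even]; exact fun hn => h ⟨rfl, hn⟩
      have h3 : 3 ∣ Nat.card Fˣ := by
        rw [Nat.card_units, Nat.card_eq_fintype_card, hF]
        obtain ⟨k, rfl⟩ := hn
        have h10 : 2 ^ (k + k) % 3 = 1 := by
          rw [← two_mul, pow_mul, Nat.pow_mod]
          norm_num
        omega
      haveI : Fact (Nat.Prime 3) := ⟨Nat.prime_three⟩
      obtain ⟨ω, hω⟩ := exists_prime_orderOf_dvd_card' 3 h3
      have hω3 : (ω : F) ^ 3 = 1 := by
        have : ω ^ 3 = 1 := by rw [← hω]; exact pow_orderOf_eq_one ω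
        rw [← Units.val_pow_eq_pow_val, this, Units.val_one]
      have hω1 : (ω : F) - 1 ≠ 0 := by
        intro h5
        have : ω = 1 := Units.ext (sub_eq_zero.1 h5)
        rw [this, orderOf_one] at hω; omega
      have hw : (ω : F) ^ 2 + ω + 1 = 0 := by
        have h6 : ((ω : F) - 1) * ((ω : F) ^ 2 + ω + 1) = 0 := by linear_combination hω3
        exact (mul_eq_zero.1 h6).resolve_left hω1
      have hab : (ω : F) ^ 2 - 1 * ω * 1 + 1 ^ 2 + 1 + 1 = 0 := by
        linear_combination hw + (1 - (ω : F)) * h2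
      refine sub3 (TT_sq hab) (Y3 (by ring)) (XX_pow hab) ?_
      intro h1
      obtain ⟨-, -, hb, -⟩ := TT_ne hab h1
      exact one_ne_zero hb
    · have h2 : (2 : F) ≠ 0 := by
        intro h2
        have h3 : ((2 : ℕ) : F) = 0 := by exact_mod_cast h2
        rw [CharP.cast_eq_zero_iff F p] at h3
        exact hp ((Nat.prime_dvd_prime_iff_eq Fact.out Nat.prime_two).1 h3)
      obtain ⟨a, b, hab⟩ := conic (1 : F)
      refine sub3 (TT_sq hab) (Y3 (by ring)) (XX_pow hab) ?_
      intro h1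
      exact h2 (TT_ne hab h1).1

end Main

end Cfsg.Agent.H8.Tri
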