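import Mathlib
import Cfsg.Agent.H8.Tri4
import Cfsg.Agent.Lib.GLSL

set_option autoImplicit false
set_option linter.all false

/-! Counting Klein four-subgroups of `PSL_2(q)`. -/

namespace Cfsg.Agent.H8.Kln

open Matrix Cfsg.Agent.H8.Tri

section
variable {F : Type*} [Field F]

local notation "M2" => Matrix (Fin 2) (Fin 2) F
local notation "SL2" => SpecialLinearGroup (Fin 2) F
local notation "PSL2" => ProjectiveSpecialLinearGroup (Fin 2) F

/-- quaternion pairs -/
def XX (F : Type*) [Field F] : Type _ := {p : SpecialLinearGroup (Fin 2) F × SpecialLinearGroup (Fin 2) F //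
  p.1.1 * p.1.1 = -1 ∧ p.2.1 * p.2.1 = -1 ∧ p.1.1 * p.2.1 = -(p.2.1 * p.1.1)}

def cj (g : GL (Fin 2) F) (x : SL2) : SL2 := ⟨g.1 * x.1 * (g⁻¹).1, by
  rw [Matrix.det_mul, Matrix.det_mul, x.2, mul_one, ← Matrix.det_mul]
  have : g.1 * (g⁻¹).1 = 1 := by rw [← Units.val_mul, mul_inv_cancel]; rfl
  rw [this, Matrix.det_one]⟩

theorem cj_mul (g : GL (Fin 2) F) (x y : SL2) : (cj g x).1 * (cj g y).1 = g.1 * (x.1 * y.1) * (g⁻¹).1 := by
  have : (g⁻¹).1 * g.1 = 1 := by rw [← Units.val_mul, inv_mul_cancel]; rfl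
  show g.1 * x.1 * (g⁻¹).1 * (g.1 * y.1 * (g⁻¹).1) = _
  calc g.1 * x.1 * (g⁻¹).1 * (g.1 * y.1 * (g⁻¹).1) = g.1 * x.1 * ((g⁻¹).1 * g.1) * y.1 * (g⁻¹).1 := by
        simp only [mul_assoc]
    _ = _ := by rw [this, mul_one]; simp only [mul_assoc]

theorem cj_neg (g : GL (Fin 2) F) : g.1 * (-1 : M2) * (g⁻¹).1 = -1 := by
  have : g.1 * (g⁻¹).1 = 1 := by rw [← Units.val_mul, mul_inv_cancel]; rfl
  rw [mul_neg, mul_one, neg_mul, this]

instance act : MulAction (GL (Fin 2) F) (XX F) where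
  smul g p := ⟨(cj g p.1.1, cj g p.1.2), by
    show (cj g p.1.1).1 * (cj g p.1.1).1 = -1
    rw [cj_mul, p.2.1, cj_neg], by
    show (cj g p.1.2).1 * (cj g p.1.2).1 = -1
    rw [cj_mul, p.2.2.1, cj_neg], by
    show (cj g p.1.1).1 * (cj g p.1.2).1 = -((cj g p.1.2).1 * (cj g p.1.1).1)
    rw [cj_mul, cj_mul, p.2.2.2, mul_neg, neg_mul]⟩
  one_smul p := by
    apply Subtype.ext
    apply Prod.ext
    · apply Subtype.ext
      show (1 : GL (Fin 2) F).1 * p.1.1.1 * ((1 : GL (Fin 2) F)⁻¹).1 = _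
      rw [inv_one, Units.val_one, one_mul, mul_one]
    · apply Subtype.ext
      show (1 : GL (Fin 2) F).1 * p.1.2.1 * ((1 : GL (Fin 2) F)⁻¹).1 = _
      rw [inv_one, Units.val_one, one_mul, mul_one]
  mul_smul g h p := by
    apply Subtype.ext
    apply Prod.ext
    · apply Subtype.ext
      show (g * h).1 * p.1.1.1 * ((g * h)⁻¹).1 = g.1 * (h.1 * p.1.1.1 * (h⁻¹).1) * (g⁻¹).1
      rw [_root_.mul_inv_rev, Units.val_mul, Units.val_mul]
      simp only [mul_assoc]
    · apply Subtype.ext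
      show (g * h).1 * p.1.2.1 * ((g * h)⁻¹).1 = g.1 * (h.1 * p.1.2.1 * (h⁻¹).1) * (g⁻¹).1
      rw [_root_.mul_inv_rev, Units.val_mul, Units.val_mul]
      simp only [mul_assoc]

theorem smul_eq_iff (g : GL (Fin 2) F) (p q : XX F) : g • p = q ↔ g.1 * p.1.1.1 = q.1.1.1 * g.1 ∧ g.1 * p.1.2.1 = q.1.2.1 * g.1 := by
  have h1 : g.1 * (g⁻¹).1 = 1 := by rw [← Units.val_mul, mul_inv_cancel]; rfl
  have h2 : (g⁻¹).1 * g.1 = 1 := by rw [← Units.val_mul, inv_mul_cancel]; rfl
  have key : ∀ x y : M2, g.1 * x * (g⁻¹).1 = y ↔ g.1 * x = y * g.1 := by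
    intro x y
    constructor
    · rintro rfl
      rw [mul_assoc, h2, mul_one]
    · intro h
      rw [h, mul_assoc, h1, mul_one]
  constructor
  · rintro rfl
    exact ⟨(key _ _).1 rfl, (key _ _).1 rfl⟩
  · rintro ⟨h3, h4⟩
    apply Subtype.ext
    apply Prod.ext
    · exact Subtype.ext ((key _ _).2 h3)
    · exact Subtype.ext ((key _ _).2 h4)

/-- matrix with given columns -/
def GG (v w : Fin 2 → F) : M2 := !![v 0, w 0; v 1, w 1]

theorem mul_GG (A : M2) (v w : Fin 2 → F) : A * GG v w = GG (A *ᵥ v) (A *ᵥ w) := by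
  ext i j
  fin_cases i <;> fin_cases j <;> simp [GG, Matrix.mul_apply, Matrix.mulVec, dotProduct, Fin.sum_univ_two]

theorem GG_mul (A : M2) (v w : Fin 2 → F) : GG v w * A = GG (A 0 0 • v + A 1 0 • w) (A 0 1 • v + A 1 1 • w) := by
  ext i j
  fin_cases i <;> fin_cases j <;> simp [GG, Matrix.mul_apply, Fin.sum_univ_two] <;> ring

def p0 (a b : F) (h : a ^ 2 + b ^ 2 = -1) : XX F := ⟨(⟨!![0, 1; -1, 0], by simp [Matrix.det_fin_two]⟩,
  ⟨!![a, b; b, -a], by rw [Matrix.det_fin_two]; show a * (-a) - b * b = 1; linear_combination -h⟩), by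
    show (!![0, 1; -1, 0] : M2) * !![0, 1; -1, 0] = -1
    ext i j; fin_cases i <;> fin_cases j <;> simp, by
    show (!![a, b; b, -a] : M2) * !![a, b; b, -a] = -1
    ext i j; fin_cases i <;> fin_cases j <;> simp
    · linear_combination h
    · ring
    · ring
    · linear_combination h, by
    show (!![0, 1; -1, 0] : M2) * !![a, b; b, -a] = -(!![a, b; b, -a] * !![0, 1; -1, 0])
    ext i j; fin_cases i <;> fin_cases j <;> simp⟩

theorem trans (h2 : (2 : F) ≠ 0) (a b : F) (h : a ^ 2 + b ^ 2 = -1) (p : XX F) : ∃ g : GL (Fin 2) F, g • p0 a b h = p := by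
  obtain ⟨⟨x, y⟩, hx, hy, hxy⟩ := p
  have hx' : x.1 * x.1 = -1 := hx
  have hy' : y.1 * y.1 = -1 := hy
  have hxy' : x.1 * y.1 = -(y.1 * x.1) := hxy
  obtain ⟨z, hz⟩ : ∃ z : M2, z = y.1 + b • x.1 := ⟨_, rfl⟩
  have hzz : (z - a • 1) * (z + a • 1) = 0 := by
    have e1 : z * z = (a ^ 2) • 1 := by
      rw [hz, add_mul, mul_add, mul_add, hy', mul_smul_comm, smul_mul_assoc, smul_mul_assoc, mul_smul_comm, hx', hxy', smul_neg, smul_neg]
      have : (-1 : M2) + b • (y.1 * x.1) + (-(b • (y.1 * x.1)) + -(b • b • (1 : M2))) = -(1 + b * b) • (1 : M2) := by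
        rw [smul_smul, neg_smul, add_smul, one_smul]; abel
      rw [smul_neg] 
      rw [this]
      congr 1
      linear_combination -h
    rw [sub_mul, mul_add, mul_add, e1, mul_smul_comm, mul_one, smul_mul_assoc, smul_mul_assoc, one_mul, one_mul, smul_smul, ← sq]
    abel
  have hdet : (z - a • 1).det = 0 := by
    by_contra hne
    have hu : IsUnit (z - a • 1 : M2) := (Matrix.isUnit_iff_isUnit_det _).2 (isUnit_iff_ne_zero.2 hne)
    have h3 : z + a • 1 = 0 := by
      obtain ⟨u, hu⟩ := hu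
      rw [← hu] at hzz
      have := congrArg (fun M : M2 => (u⁻¹).1 * M) hzz
      simpa [← mul_assoc] using this
    have h4 : y.1 = -(b • x.1) - a • 1 := by
      rw [hz] at h3
      rw [eq_sub_iff_add_eq, eq_neg_iff_add_eq_zero]
      rw [← h3]; abel
    have h5 : x.1 * y.1 = y.1 * x.1 := by
      rw [h4, mul_sub, sub_mul, mul_neg, neg_mul, mul_smul_comm, smul_mul_assoc, mul_smul_comm, smul_mul_assoc, mul_one, one_mul]
    have h6 : (2 : F) • (x.1 * y.1) = 0 := by
      rw [two_smul]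
      nth_rewrite 2 [hxy']
      rw [h5, add_neg_cancel]
    have h7 : x.1 * y.1 = 0 := (smul_eq_zero.1 h6).resolve_left h2
    have h8 := congrArg Matrix.det h7
    rw [Matrix.det_mul, x.2, y.2, Matrix.det_zero] at h8
    norm_num at h8
  obtain ⟨v, hv, hzv⟩ := Matrix.exists_mulVec_eq_zero_iff.2 hdet
  set w : Fin 2 → F := -(x.1 *ᵥ v) with hw
  have q1 : x.1 *ᵥ v = -w := by rw [hw, neg_neg]
  have q2 : x.1 *ᵥ w = v := by
    rw [hw, Matrix.mulVec_neg, Matrix.mulVec_mulVec, hx', Matrix.neg_mulVec, Matrix.one_mulVec, neg_neg]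
  have q3 : y.1 *ᵥ v = a • v + b • w := by
    rw [Matrix.sub_mulVec, hz, Matrix.add_mulVec, Matrix.smul_mulVec, Matrix.smul_mulVec, Matrix.one_mulVec, q1, smul_neg] at hzv
    have : y.1 *ᵥ v = (y.1 *ᵥ v + -(b • w) - a • v) + (a • v + b • w) := by abel
    rw [this, hzv, zero_add]
  have q4 : y.1 *ᵥ w = b • v - a • w := by
    have : y.1 *ᵥ w = x.1 *ᵥ (y.1 *ᵥ v) := by
      rw [hw, Matrix.mulVec_neg, Matrix.mulVec_mulVec, Matrix.mulVec_mulVec, hxy', Matrix.neg_mulVec]
    rw [this, q3, Matrix.mulVec_add, Matrix.mulVec_smul, Matrix.mulVec_smul, q1, q2, smul_neg]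
    abel
  have hdG : (GG v w).det ≠ 0 := by
    intro h0
    have h1 : v 0 * w 1 - v 1 * w 0 = 0 := by
      rw [Matrix.det_fin_two] at h0
      have : v 0 * w 1 - w 0 * v 1 = 0 := h0
      linear_combination this
    obtain ⟨l, hl⟩ := par hv h1
    have r1 : x.1 *ᵥ v = (-l) • v := by rw [q1, hl, neg_smul]
    have r2 : y.1 *ᵥ v = (a + b * l) • v := by rw [q3, hl, smul_smul, ← add_smul]
    have s1 : ((-l) * (-l)) • v = (-1 : F) • v := by
      rw [← smul_smul, ← r1, ← Matrix.mulVec_smul, ← r1, Matrix.mulVec_mulVec, hx', Matrix.neg_mulVec, Matrix.one_mulVec, neg_smul, one_smul]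
    have s2 : ((a + b * l) * (a + b * l)) • v = (-1 : F) • v := by
      rw [← smul_smul, ← r2, ← Matrix.mulVec_smul, ← r2, Matrix.mulVec_mulVec, hy', Matrix.neg_mulVec, Matrix.one_mulVec, neg_smul, one_smul]
    have s3 : ((a + b * l) * (-l)) • v = -(((-l) * (a + b * l)) • v) := by
      rw [← smul_smul, ← r1, ← Matrix.mulVec_smul, ← r2, Matrix.mulVec_mulVec, hxy', Matrix.neg_mulVec, ← Matrix.mulVec_mulVec, r1, Matrix.mulVec_smul, r2, smul_smul]
    have t1 : (-l) * (-l) = -1 := by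
      have := sub_eq_zero.2 s1
      rw [← sub_smul] at this
      exact sub_eq_zero.1 ((smul_eq_zero.1 this).resolve_right hv)
    have t2 : (a + b * l) * (a + b * l) = -1 := by
      have := sub_eq_zero.2 s2
      rw [← sub_smul] at this
      exact sub_eq_zero.1 ((smul_eq_zero.1 this).resolve_right hv)
    have t3 : (a + b * l) * (-l) = -((-l) * (a + b * l)) := by
      rw [← neg_smul] at s3
      have := sub_eq_zero.2 s3
      rw [← sub_smul] at this
      exact sub_eq_zero.1 ((smul_eq_zero.1 this).resolve_right hv)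
    have t4 : 2 * ((a + b * l) * (-l)) = 0 := by linear_combination t3
    rcases mul_eq_zero.1 ((mul_eq_zero.1 t4).resolve_left h2) with t5 | t5
    · rw [t5] at t2; norm_num at t2
    · rw [t5] at t1; norm_num at t1
  let g : GL (Fin 2) F := Matrix.GeneralLinearGroup.mkOfDetNeZero (GG v w) hdG
  refine ⟨g, (smul_eq_iff g _ _).2 ⟨?_, ?_⟩⟩
  · show GG v w * !![0, 1; -1, 0] = x.1 * GG v w
    rw [mul_GG, GG_mul, q1, q2]
    simp
  · show GG v w * !![a, b; b, -a] = y.1 * GG v w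
    rw [mul_GG, GG_mul, q3, q4]
    simp [sub_eq_add_neg]

theorem stab (h2 : (2 : F) ≠ 0) (a b : F) (h : a ^ 2 + b ^ 2 = -1) :
    MulAction.stabilizer (GL (Fin 2) F) (p0 a b h) = Subgroup.center (GL (Fin 2) F) := by
  ext g
  rw [MulAction.mem_stabilizer_iff, smul_eq_iff]
  constructor
  · rintro ⟨h3, h4⟩
    have h3' : g.1 * !![0, 1; -1, 0] = !![0, 1; -1, 0] * g.1 := h3
    have h4' : g.1 * !![a, b; b, -a] = !![a, b; b, -a] * g.1 := h4
    have e00 := congrFun (congrFun h3' 0) 0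
    have e01 := congrFun (congrFun h3' 0) 1
    have f00 := congrFun (congrFun h4' 0) 0
    have f01 := congrFun (congrFun h4' 0) 1
    simp [Matrix.mul_apply, Fin.sum_univ_two] at e00 e01 f00 f01
    have hb : g.1 0 1 = 0 := by
      have k1 : 2 * (b * g.1 0 1) = 0 := by linear_combination f00 - b * e00
      have k2 : 2 * (a * g.1 0 1) = 0 := by linear_combination -f01 + b * e01
      have k1' := (mul_eq_zero.1 k1).resolve_left h2
      have k2' := (mul_eq_zero.1 k2).resolve_left h2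
      have : (a ^ 2 + b ^ 2) * g.1 0 1 = 0 := by linear_combination a * k2' + b * k1'
      rw [h] at this
      linear_combination -this
    have hc : g.1 1 0 = 0 := by linear_combination -e00 - hb
    have hg : g.1 = g.1 0 0 • (1 : M2) := by
      ext i j
      fin_cases i <;> fin_cases j <;> simp [Matrix.one_apply]
      · exact hb
      · exact hc
      · linear_combination -e01
    rw [Subgroup.mem_center_iff]
    intro k
    apply Units.ext
    show k.1 * g.1 = g.1 * k.1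
    rw [hg, mul_smul_comm, smul_mul_assoc, mul_one, one_mul]
  · intro hg
    rw [Matrix.GeneralLinearGroup.center_eq_range_scalar] at hg
    obtain ⟨u, rfl⟩ := hg
    constructor
    · exact (Matrix.scalar_commute (u : F) (fun r => Commute.all _ _) _).eq
    · exact (Matrix.scalar_commute (u : F) (fun r => Commute.all _ _) _).eq

theorem card_XX [Fintype F] (h2 : (2 : F) ≠ 0) : Nat.card (XX F) = Nat.card SL2 := by
  classical
  obtain ⟨p, hp⟩ := CharP.exists F
  haveI : NeZero p := ⟨fun h => by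
    subst h
    haveI := CharP.charP_to_charZero F
    exact (not_finite F)⟩
  obtain ⟨a, b, hab⟩ := CharP.sq_add_sq F p (-1)
  have h : (a : F) ^ 2 + (b : F) ^ 2 = -1 := by push_cast at hab; exact hab
  haveI : MulAction.IsPretransitive (GL (Fin 2) F) (XX F) := by
    constructor
    intro p q
    obtain ⟨g, rfl⟩ := trans h2 _ _ h p
    obtain ⟨k, rfl⟩ := trans h2 _ _ h q
    exact ⟨k * g⁻¹, by rw [mul_smul, inv_smul_smul]⟩
  have h3 := MulAction.index_stabilizer_of_transitive (GL (Fin 2) F) (p0 (a : F) b h)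
  have h4 := Subgroup.card_mul_index (MulAction.stabilizer (GL (Fin 2) F) (p0 (a : F) b h))
  rw [h3, stab h2, Cfsg.Agent.Lib.GLSL.card_center_GL, ← Cfsg.Agent.Lib.GLSL.card_SL_mul_card_units (Fin 2) F, mul_comm] at h4
  have : 0 < Nat.card Fˣ := Nat.card_pos
  exact Nat.eq_of_mul_eq_mul_right this h4

end
end Cfsg.Agent.H8.Kln
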