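import Mathlib
import Cfsg.Agent.H8.Kln

set_option autoImplicit false
set_option linter.all false

/-! Counting Klein four-subgroups of `PSL_2(q)`, II. -/

namespace Cfsg.Agent.H8.Kln

open Matrix Cfsg.Agent.H8.Tri

theorem card_preim {A B : Type*} [Group A] [Group B] (φ : A →* B) (hφ : Function.Surjective φ) (P : B → Prop) :
    Nat.card {a : A // P (φ a)} = Nat.card {b : B // P b} * Nat.card φ.ker := by
  classical
  obtain ⟨s, hs⟩ : ∃ s : B → A, ∀ b, φ (s b) = b := ⟨Function.surjInv hφ, Function.surjInv_eq hφ⟩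
  rw [← Nat.card_prod]
  refine Nat.card_congr ⟨fun a => (⟨φ a.1, a.2⟩, ⟨(s (φ a.1))⁻¹ * a.1, by rw [MonoidHom.mem_ker, map_mul, map_inv, hs, inv_mul_cancel]⟩),
    fun q => ⟨s q.1.1 * q.2.1, by rw [map_mul, hs, MonoidHom.mem_ker.1 q.2.2, mul_one]; exact q.1.2⟩, ?_, ?_⟩
  · intro a
    apply Subtype.ext
    show s (φ a.1) * ((s (φ a.1))⁻¹ * a.1) = a.1
    rw [mul_inv_cancel_left]
  · rintro ⟨⟨b, hb⟩, ⟨k, hk⟩⟩
    have h1 : φ (s b * k) = b := by rw [map_mul, hs, MonoidHom.mem_ker.1 hk, mul_one]
    apply Prod.ext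
    · exact Subtype.ext h1
    · apply Subtype.ext
      show (s (φ (s b * k)))⁻¹ * (s b * k) = k
      rw [h1, inv_mul_cancel_left]

/-- commuting pairs of distinct involutions -/
def PP {G : Type*} [Group G] (p : G × G) : Prop :=
  p.1 * p.1 = 1 ∧ p.2 * p.2 = 1 ∧ p.1 ≠ 1 ∧ p.2 ≠ 1 ∧ p.1 ≠ p.2 ∧ p.1 * p.2 = p.2 * p.1

theorem kl {G : Type*} [Group G] {a b : G} (h : PP (a, b)) : IsKleinFour (Subgroup.closure ({a, b} : Set G)) := by
  classical
  obtain ⟨ha, hb, ha1, hb1, hab, hc⟩ := h
  simp only at ha hb ha1 hb1 hab hc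
  have ai : a⁻¹ = a := inv_eq_of_mul_eq_one_right ha
  have bi : b⁻¹ = b := inv_eq_of_mul_eq_one_right hb
  have e1 : a * (a * b) = b := by rw [← mul_assoc, ha, one_mul]
  have e2 : b * (a * b) = a := by rw [hc, ← mul_assoc, hb, one_mul]
  have e3 : a * b * a = b := by rw [hc, mul_assoc, ha, mul_one]
  have e4 : a * b * b = a := by rw [mul_assoc, hb, mul_one]
  have e5 : a * b * (a * b) = 1 := by rw [← mul_assoc, e3, hb]
  let K : Subgroup G := 
    { carrier := (({1, a, b, a * b} : Finset G) : Set G)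
      one_mem' := by simp
      mul_mem' := by
        intro x y hx hy
        simp only [Finset.coe_insert, Finset.coe_singleton, Set.mem_insert_iff, Set.mem_singleton_iff] at hx hy ⊢
        rcases hx with rfl | rfl | rfl | rfl <;> rcases hy with rfl | rfl | rfl | rfl <;> simp [ha, hb, ← hc, e1, e2, e3, e4, e5]
      inv_mem' := by
        intro x hx
        simp only [Finset.coe_insert, Finset.coe_singleton, Set.mem_insert_iff, Set.mem_singleton_iff] at hx ⊢
        rcases hx with rfl | rfl | rfl | rfl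
        · simp
        · right; left; exact ai
        · right; right; left; exact bi
        · right; right; right; rw [_root_.mul_inv_rev, ai, bi, hc] }
  have hK : Subgroup.closure ({a, b} : Set G) = K := by
    apply le_antisymm
    · rw [Subgroup.closure_le]
      rintro x (rfl | rfl)
      · show x ∈ (({1, x, b, x * b} : Finset G) : Set G); simp
      · show x ∈ (({1, a, x, a * x} : Finset G) : Set G); simp
    · intro x hx
      have hx' : x ∈ (({1, a, b, a * b} : Finset G) : Set G) := hx
      simp only [Finset.coe_insert, Finset.coe_singleton, Set.mem_insert_iff, Set.mem_singleton_iff] at hx'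
      have h1 : a ∈ Subgroup.closure ({a, b} : Set G) := Subgroup.subset_closure (by simp)
      have h2 : b ∈ Subgroup.closure ({a, b} : Set G) := Subgroup.subset_closure (by simp)
      rcases hx' with rfl | rfl | rfl | rfl
      · exact one_mem _
      · exact h1
      · exact h2
      · exact mul_mem h1 h2
  rw [hK]
  have hcard : Nat.card K = 4 := by
    have : Nat.card K = ({1, a, b, a * b} : Finset G).card := by
      show Nat.card (({1, a, b, a * b} : Finset G) : Set G) = _
      rw [Nat.card_coe_set_eq, Set.ncard_coe_finset]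
    rw [this]
    have n1 : a ≠ a * b := fun h => hb1 (by simpa using h)
    have n2 : b ≠ a * b := fun h => ha1 (by simpa using h)
    have n3 : (1 : G) ≠ a * b := by
      intro h
      have := eq_inv_of_mul_eq_one_left h.symm
      rw [bi] at this
      exact hab this
    rw [Finset.card_insert_of_notMem, Finset.card_insert_of_notMem, Finset.card_insert_of_notMem, Finset.card_singleton]
    · simpa using n2
    · simpa using ⟨hab, hb1⟩
    · simpa using ⟨ha1.symm, hb1.symm, n3⟩
  haveI : Nontrivial K := by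
    haveI : Finite K := Nat.finite_of_card_ne_zero (by omega)
    apply Finite.one_lt_card_iff_nontrivial.1
    omega
  refine ⟨hcard, (Monoid.exponent_eq_prime_iff Nat.prime_two).2 ?_⟩
  rintro ⟨x, hx⟩ hx1
  apply orderOf_eq_prime _ hx1
  apply Subtype.ext
  show x ^ 2 = 1
  have hx' : x ∈ (({1, a, b, a * b} : Finset G) : Set G) := hx
  simp only [Finset.coe_insert, Finset.coe_singleton, Set.mem_insert_iff, Set.mem_singleton_iff] at hx'
  rw [sq]
  rcases hx' with rfl | rfl | rfl | rfl
  · exact one_mul 1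
  · exact ha
  · exact hb
  · exact e5

theorem six0 : Nat.card {q : (ZMod 2 × ZMod 2) × (ZMod 2 × ZMod 2) // q.1 ≠ 0 ∧ q.2 ≠ 0 ∧ q.1 ≠ q.2} = 6 := by
  rw [Nat.card_eq_fintype_card]
  decide

theorem six {V : Type*} [Group V] (hV : IsKleinFour V) : Nat.card {q : V × V // q.1 ≠ 1 ∧ q.2 ≠ 1 ∧ q.1 ≠ q.2} = 6 := by
  haveI := hV
  obtain ⟨e⟩ : Nonempty (V ≃* Multiplicative (ZMod 2 × ZMod 2)) := IsKleinFour.nonempty_mulEquiv
  have h1 : Nat.card {q : V × V // q.1 ≠ 1 ∧ q.2 ≠ 1 ∧ q.1 ≠ q.2} =
      Nat.card {q : Multiplicative (ZMod 2 × ZMod 2) × Multiplicative (ZMod 2 × ZMod 2) // q.1 ≠ 1 ∧ q.2 ≠ 1 ∧ q.1 ≠ q.2} := by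
    apply Nat.card_congr
    refine (Equiv.prodCongr e.toEquiv e.toEquiv).subtypeEquiv ?_
    rintro ⟨x, y⟩
    show (x ≠ 1 ∧ y ≠ 1 ∧ x ≠ y) ↔ (e x ≠ 1 ∧ e y ≠ 1 ∧ e x ≠ e y)
    rw [Ne, Ne, Ne, Ne, Ne, Ne, EmbeddingLike.map_eq_one_iff, EmbeddingLike.map_eq_one_iff, e.injective.eq_iff]
  rw [h1]
  exact six0

theorem card_pairs (G : Type*) [Group G] [Finite G] :
    Nat.card {p : G × G // PP p} = 6 * Nat.card {V : Subgroup G // IsKleinFour V} := by
  classical
  let f : {p : G × G // PP p} → {V : Subgroup G // IsKleinFour V} := fun p => ⟨Subgroup.closure ({p.1.1, p.1.2} : Set G), kl p.2⟩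
  haveI : Fintype {V : Subgroup G // IsKleinFour V} := Fintype.ofFinite _
  rw [Nat.card_congr (Equiv.sigmaFiberEquiv f).symm, Nat.card_sigma]
  have hfib : ∀ V : {V : Subgroup G // IsKleinFour V}, Nat.card {p // f p = V} = 6 := by
    rintro ⟨V, hV⟩
    rw [← six hV]
    apply Nat.card_congr
    have hcl : ∀ p : {p : {p : G × G // PP p} // f p = ⟨V, hV⟩}, Subgroup.closure ({p.1.1.1, p.1.1.2} : Set G) = V :=
      fun p => congrArg Subtype.val p.2
    refine ⟨fun p => ⟨(⟨p.1.1.1, ?_⟩, ⟨p.1.1.2, ?_⟩), ?_⟩, fun q => ⟨⟨(q.1.1.1, q.1.2.1), ?_⟩, ?_⟩, ?_, ?_⟩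
    · exact (hcl p).le (Subgroup.subset_closure (by simp))
    · exact (hcl p).le (Subgroup.subset_closure (by simp))
    · refine ⟨fun h => p.1.2.2.2.1 (congrArg Subtype.val h), fun h => p.1.2.2.2.2.1 (congrArg Subtype.val h), fun h => p.1.2.2.2.2.2.1 (congrArg Subtype.val h)⟩
    · have hsq : ∀ x : V, x * x = 1 := by
        intro x
        have h1 := Monoid.pow_exponent_eq_one x
        rwa [hV.exponent_two, sq] at h1
      refine ⟨congrArg Subtype.val (hsq q.1.1), congrArg Subtype.val (hsq q.1.2), fun h => q.2.1 (Subtype.ext h),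
        fun h => q.2.2.1 (Subtype.ext h), fun h => q.2.2.2 (Subtype.ext h), ?_⟩
      exact congrArg Subtype.val (mul_comm_of_exponent_two hV.exponent_two q.1.1 q.1.2)
    · apply Subtype.ext
      show Subgroup.closure ({q.1.1.1, q.1.2.1} : Set G) = V
      have hsq : ∀ x : V, x * x = 1 := by
        intro x
        have h1 := Monoid.pow_exponent_eq_one x
        rwa [hV.exponent_two, sq] at h1
      have hP : PP ((q.1.1.1, q.1.2.1) : G × G) := ⟨congrArg Subtype.val (hsq q.1.1), congrArg Subtype.val (hsq q.1.2), fun h => q.2.1 (Subtype.ext h),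
        fun h => q.2.2.1 (Subtype.ext h), fun h => q.2.2.2 (Subtype.ext h),
        congrArg Subtype.val (mul_comm_of_exponent_two hV.exponent_two q.1.1 q.1.2)⟩
      apply Subgroup.eq_of_le_of_card_ge
      · rw [Subgroup.closure_le]
        rintro x (rfl | rfl)
        · exact q.1.1.2
        · exact q.1.2.2
      · rw [hV.card_four, (kl hP).card_four]
    · intro p
      rfl
    · intro q
      rfl
  rw [Finset.sum_congr rfl (fun V _ => hfib V), Finset.sum_const, Finset.card_univ, smul_eq_mul, mul_comm, Nat.card_eq_fintype_card]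

section
variable {F : Type*} [Field F]

local notation "M2" => Matrix (Fin 2) (Fin 2) F
local notation "SL2" => SpecialLinearGroup (Fin 2) F
local notation "PSL2" => ProjectiveSpecialLinearGroup (Fin 2) F

theorem inv_lift {x : SL2} (h : pi x * pi x = 1) (h1 : pi x ≠ 1) : x.1 * x.1 = -1 := by
  rw [← map_mul] at h
  obtain ⟨c, hc⟩ := pi_one' h
  have h2 : x.1 * x.1 = c • 1 := hc
  have h3 := cayley x
  by_cases ht : x.1.trace = 0
  · rw [h3, ht, zero_smul, zero_sub]
  · exfalso
    apply h1
    apply pi_one (c := x.1.trace⁻¹ * (c + 1))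
    have h4 : x.1.trace • x.1 = (c + 1) • (1 : M2) := by
      rw [add_smul, ← h2, h3, one_smul, sub_add_cancel]
    rw [mul_smul, ← h4, smul_smul, inv_mul_cancel₀ ht, one_smul]

theorem cond_iff (h2 : (2 : F) ≠ 0) (x y : SL2) :
    (x.1 * x.1 = -1 ∧ y.1 * y.1 = -1 ∧ x.1 * y.1 = -(y.1 * x.1)) ↔ PP ((pi x, pi y) : PSL2 × PSL2) := by
  constructor
  · rintro ⟨hx, hy, hxy⟩
    have hnc : x.1 * y.1 ≠ y.1 * x.1 := by
      intro h
      have h6 : (2 : F) • (x.1 * y.1) = 0 := by
        rw [two_smul]
        nth_rewrite 2 [hxy]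
        rw [h, add_neg_cancel]
      have h7 : x.1 * y.1 = 0 := (smul_eq_zero.1 h6).resolve_left h2
      have h8 := congrArg Matrix.det h7
      rw [Matrix.det_mul, x.2, y.2, Matrix.det_zero] at h8
      norm_num at h8
    have sc : ∀ z : SL2, z.1 * z.1 = -1 → pi z * pi z = 1 := by
      intro z hz
      rw [← map_mul]
      apply pi_one (c := -1)
      show z.1 * z.1 = _
      rw [hz, neg_smul, one_smul]
    refine ⟨sc x hx, sc y hy, ?_, ?_, ?_, ?_⟩
    · intro h
      obtain ⟨c, hc⟩ := pi_one' h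
      exact hnc (by rw [hc, smul_mul_assoc, mul_smul_comm, one_mul, mul_one])
    · intro h
      obtain ⟨c, hc⟩ := pi_one' h
      exact hnc (by rw [hc, smul_mul_assoc, mul_smul_comm, one_mul, mul_one])
    · intro h
      have h3 : pi (x⁻¹ * y) = 1 := by
        rw [map_mul, map_inv]; rw [show pi x = pi y from h, inv_mul_cancel]
      obtain ⟨c, hc⟩ := pi_one' h3
      have h4 : y.1 = c • x.1 := by
        have : y = x * (x⁻¹ * y) := by group
        rw [this]
        show x.1 * (x⁻¹ * y).1 = _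
        rw [hc, mul_smul_comm, mul_one]
      exact hnc (by rw [h4, smul_mul_assoc, mul_smul_comm])
    · show pi x * pi y = pi y * pi x
      rw [← map_mul, ← map_mul, ← mul_inv_eq_one, ← map_inv, ← map_mul]
      apply pi_one (c := -1)
      show (x.1 * y.1) * ((y * x)⁻¹).1 = _
      rw [hxy, neg_mul, neg_smul, one_smul]
      congr 1
      show (y * x * (y * x)⁻¹).1 = 1
      rw [mul_inv_cancel]; rfl
  · rintro ⟨hx, hy, hx1, hy1, hne, hc⟩
    simp only at hx hy hx1 hy1 hne hc
    have ex := inv_lift hx hx1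
    have ey := inv_lift hy hy1
    refine ⟨ex, ey, ?_⟩
    have h3 : pi ((x * y) * (y * x)⁻¹) = 1 := by
      rw [map_mul, map_inv, map_mul, map_mul, hc, mul_inv_cancel]
    obtain ⟨c, hc'⟩ := pi_one' h3
    have h4 : x.1 * y.1 = c • (y.1 * x.1) := by
      have : x * y = (x * y * (y * x)⁻¹) * (y * x) := by group
      have h5 : (x * y).1 = (x * y * (y * x)⁻¹).1 * (y * x).1 := congrArg Subtype.val this
      rw [hc', smul_mul_assoc, one_mul] at h5
      exact h5
    have h5 : c ^ 2 = 1 := by
      have := congrArg Matrix.det h4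
      rw [Matrix.det_mul, x.2, y.2, Matrix.det_smul, Matrix.det_mul, x.2, y.2, Fintype.card_fin] at this
      rw [mul_one, mul_one] at this
      exact this.symm
    have h55 : (c - 1) * (c + 1) = 0 := by linear_combination h5
    rcases mul_eq_zero.1 h55 with h6 | h6
    · exfalso
      have h6' : c = 1 := sub_eq_zero.1 h6
      rw [h6', one_smul] at h4
      have h7 : (x * y).1 * (x * y).1 = 1 := by
        show x.1 * y.1 * (x.1 * y.1) = 1
        calc x.1 * y.1 * (x.1 * y.1) = x.1 * (y.1 * x.1) * y.1 := by simp only [mul_assoc]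
          _ = (x.1 * x.1) * (y.1 * y.1) := by rw [← h4]; simp only [mul_assoc]
          _ = 1 := by rw [ex, ey]; simp
      have h8 : pi (x * y) * pi (x * y) = 1 := by
        rw [← map_mul]
        apply pi_one (c := 1)
        rw [one_smul]; exact h7
      have h9 : pi (x * y) ≠ 1 := by
        intro h
        rw [map_mul] at h
        apply hne
        rw [eq_inv_of_mul_eq_one_left h]
        exact inv_eq_of_mul_eq_one_right hy
      have h10 := inv_lift h8 h9
      rw [h7] at h10
      have h11 := congrFun (congrFun h10 0) 0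
      simp at h11
      apply h2
      linear_combination h11
    · have h6' : c = -1 := by linear_combination h6
      rw [h4, h6', neg_smul, one_smul]

theorem s0807 [Fintype F] (hodd : Odd (Fintype.card F)) :
    12 * Nat.card {V : Subgroup PSL2 // IsKleinFour V} = Nat.card PSL2 := by
  classical
  have h2 : (2 : F) ≠ 0 := by
    intro h
    have h1 : ringChar F ∣ 2 := (ringChar.spec F 2).1 (by exact_mod_cast h)
    have h3 : ringChar F = 2 := ((Nat.dvd_prime Nat.prime_two).1 h1).resolve_left CharP.ringChar_ne_one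
    have h4 := FiniteField.even_card_of_char_two h3
    rw [Nat.odd_iff] at hodd
    omega
  haveI : Finite PSL2 := Quotient.finite _
  have hp := card_pairs PSL2
  have hsurj : Function.Surjective (pi (F := F)) := QuotientGroup.mk'_surjective _
  have hs : Function.Surjective (MonoidHom.prodMap (pi (F := F)) (pi (F := F))) := Function.Surjective.prodMap hsurj hsurj
  have h3 := card_preim (MonoidHom.prodMap (pi (F := F)) (pi (F := F))) hs PP
  have h4 : Nat.card (XX F) = Nat.card {a : SL2 × SL2 // PP ((MonoidHom.prodMap (pi (F := F)) (pi (F := F))) a)} :=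
    Nat.card_congr (Equiv.subtypeEquivRight (fun a => cond_iff h2 a.1 a.2))
  have hg : Nat.gcd 2 (Fintype.card F - 1) = 2 := by
    obtain ⟨k, hk⟩ := hodd
    exact Nat.gcd_eq_left ⟨k, by omega⟩
  have h5 : Nat.card (MonoidHom.prodMap (pi (F := F)) (pi (F := F))).ker = 4 := by
    rw [MonoidHom.ker_prodMap, Nat.card_congr (Subgroup.prodEquiv _ _).toEquiv, Nat.card_prod]
    have : (pi (F := F)).ker = Subgroup.center SL2 := QuotientGroup.ker_mk' _
    rw [this, Cfsg.Agent.Lib.GLSL.card_center_SL 2 (by norm_num), hg]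
  have h6 := Cfsg.Agent.Lib.GLSL.card_PSL (F := F) 2 (by norm_num)
  rw [hg, ← card_XX h2, h4, h3, h5, hp] at h6
  omega

end
end Cfsg.Agent.H8.Kln
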