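import Mathlib
import Cfsg.Agent.H8.Kln2
import Cfsg.Agent.Lib.SL2

set_option autoImplicit false
set_option linter.all false

/-! Classes of Klein four-subgroups of `PSL_2(q)`. -/

namespace Cfsg.Agent.H8.Kln

open Matrix Cfsg.Agent.H8.Tri

theorem kl_map {G : Type*} [Group G] {V : Subgroup G} (hV : IsKleinFour V) (g : G) :
    IsKleinFour (V.map (MulAut.conj g).toMonoidHom) := by
  have e := V.equivMapOfInjective (MulAut.conj g).toMonoidHom (MulAut.conj g).injective
  refine ⟨?_, ?_⟩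
  · rw [← Nat.card_congr e.toEquiv]; exact hV.card_four
  · rw [← Monoid.exponent_eq_of_mulEquiv e]; exact hV.exponent_two

instance actK (G : Type*) [Group G] : MulAction G {V : Subgroup G // IsKleinFour V} where
  smul g V := ⟨V.1.map (MulAut.conj g).toMonoidHom, kl_map V.2 g⟩
  one_smul V := by
    apply Subtype.ext
    show V.1.map (MulAut.conj 1).toMonoidHom = V.1
    rw [map_one]
    exact Subgroup.map_id _
  mul_smul g h V := by
    apply Subtype.ext
    show V.1.map (MulAut.conj (g * h)).toMonoidHom = (V.1.map (MulAut.conj h).toMonoidHom).map (MulAut.conj g).toMonoidHom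
    rw [Subgroup.map_map, map_mul]
    rfl

theorem not_all_conj {G : Type*} [Group G] [Finite G] (h8 : 8 ∣ Nat.card G)
    (h12 : 12 * Nat.card {V : Subgroup G // IsKleinFour V} = Nat.card G) {V : Subgroup G} (hV : IsKleinFour V)
    (hall : ∀ W : Subgroup G, IsKleinFour W → ∃ g : G, W = V.map (MulAut.conj g).toMonoidHom) : False := by
  haveI : MulAction.IsPretransitive G {V : Subgroup G // IsKleinFour V} := by
    have key : ∀ W : {V : Subgroup G // IsKleinFour V}, ∃ g : G, g • (⟨V, hV⟩ : {V : Subgroup G // IsKleinFour V}) = W := by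
      rintro ⟨W, hW⟩
      obtain ⟨g, hg⟩ := hall W hW
      exact ⟨g, Subtype.ext hg.symm⟩
    constructor
    intro p q
    obtain ⟨g, rfl⟩ := key p
    obtain ⟨k, rfl⟩ := key q
    exact ⟨k * g⁻¹, by rw [mul_smul, inv_smul_smul]⟩
  have h1 := MulAction.index_stabilizer_of_transitive G (⟨V, hV⟩ : {V : Subgroup G // IsKleinFour V})
  have h2 := Subgroup.card_mul_index (MulAction.stabilizer G (⟨V, hV⟩ : {V : Subgroup G // IsKleinFour V}))
  rw [h1, ← h12] at h2
  haveI : Nonempty {V : Subgroup G // IsKleinFour V} := ⟨⟨V, hV⟩⟩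
  have h3 : 0 < Nat.card {V : Subgroup G // IsKleinFour V} := Nat.card_pos
  have h4 := Nat.eq_of_mul_eq_mul_right h3 h2
  have hle : Subgroup.normalizer (V : Set G) ≤ MulAction.stabilizer G (⟨V, hV⟩ : {V : Subgroup G // IsKleinFour V}) := by
    intro g hg
    rw [MulAction.mem_stabilizer_iff]
    apply Subtype.ext
    show V.map (MulAut.conj g).toMonoidHom = V
    rw [Subgroup.mem_normalizer_iff] at hg
    ext x
    constructor
    · rintro ⟨v, hv, rfl⟩
      exact (hg v).1 hv
    · intro hx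
      refine ⟨g⁻¹ * x * g, (hg _).2 (by rwa [show g * (g⁻¹ * x * g) * g⁻¹ = x by group]), ?_⟩
      show g * (g⁻¹ * x * g) * g⁻¹ = x
      group
  have h5 := Subgroup.card_dvd_of_le hle
  rw [h4] at h5
  haveI : Fact (Nat.Prime 2) := ⟨Nat.prime_two⟩
  have h6 := Sylow.card_normalizer_modEq_card (G := G) (p := 2) (n := 2) (H := V) (by rw [hV.card_four]; norm_num)
  have h7 : 8 ∣ Nat.card (Subgroup.normalizer (V : Set G)) := by
    have : Nat.card (Subgroup.normalizer (V : Set G)) ≡ Nat.card G [MOD 8] := by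
      have := h6
      norm_num at this
      exact this
    exact (Nat.modEq_zero_iff_dvd).1 (this.trans ((Nat.modEq_zero_iff_dvd).2 h8))
  have := h7.trans h5
  omega

section
variable {F : Type*} [Field F]

local notation "M2" => Matrix (Fin 2) (Fin 2) F
local notation "SL2" => SpecialLinearGroup (Fin 2) F
local notation "PSL2" => ProjectiveSpecialLinearGroup (Fin 2) F

/-- the four-group of a quaternion pair -/
def kap (p : XX F) : Subgroup PSL2 := Subgroup.closure ({pi p.1.1, pi p.1.2} : Set PSL2)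

theorem kap_kl (h2 : (2 : F) ≠ 0) (p : XX F) : IsKleinFour (kap p) := kl ((cond_iff h2 p.1.1 p.1.2).1 p.2)

theorem kap_surj [Finite F] (h2 : (2 : F) ≠ 0) {V : Subgroup PSL2} (hV : IsKleinFour V) : ∃ p : XX F, kap p = V := by
  have h6 := six hV
  have hne : Nonempty {q : V × V // q.1 ≠ 1 ∧ q.2 ≠ 1 ∧ q.1 ≠ q.2} := by
    by_contra h
    rw [not_nonempty_iff] at h
    rw [Nat.card_of_isEmpty] at h6
    omega
  obtain ⟨q⟩ := hne
  have hsq : ∀ x : V, x * x = 1 := by
    intro x
    have h1 := Monoid.pow_exponent_eq_one x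
    rwa [hV.exponent_two, sq] at h1
  have hP : PP ((q.1.1.1, q.1.2.1) : PSL2 × PSL2) := ⟨congrArg Subtype.val (hsq q.1.1), congrArg Subtype.val (hsq q.1.2), fun h => q.2.1 (Subtype.ext h),
    fun h => q.2.2.1 (Subtype.ext h), fun h => q.2.2.2 (Subtype.ext h),
    congrArg Subtype.val (mul_comm_of_exponent_two hV.exponent_two q.1.1 q.1.2)⟩
  obtain ⟨x, hx⟩ : ∃ x : SL2, pi x = q.1.1.1 := QuotientGroup.mk'_surjective _ _
  obtain ⟨y, hy⟩ : ∃ x : SL2, pi x = q.1.2.1 := QuotientGroup.mk'_surjective _ _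
  rw [← hx, ← hy] at hP
  refine ⟨⟨(x, y), (cond_iff h2 x y).2 hP⟩, ?_⟩
  haveI : Finite V := Nat.finite_of_card_ne_zero (by rw [hV.card_four]; norm_num)
  apply Subgroup.eq_of_le_of_card_ge
  · show Subgroup.closure ({pi x, pi y} : Set PSL2) ≤ V
    rw [Subgroup.closure_le]
    rintro z (rfl | rfl)
    · rw [hx]; exact q.1.1.2
    · rw [hy]; exact q.1.2.2
  · rw [hV.card_four]
    exact (kl hP).card_four.ge

theorem cj_sq {g : GL (Fin 2) F} (hg : IsSquare (Matrix.GeneralLinearGroup.det g)) : ∃ s : SL2, ∀ x : SL2, cj g x = s * x * s⁻¹ := by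
  obtain ⟨c, hc⟩ := hg
  have hc' : g.1.det = (c : F) * c := congrArg Units.val hc
  have hc0 : (c : F) ≠ 0 := c.ne_zero
  have hd : ((c : F)⁻¹ • g.1 : M2).det = 1 := by
    rw [Matrix.det_smul, Fintype.card_fin, hc']
    field_simp
  let s : SL2 := ⟨(c : F)⁻¹ • g.1, hd⟩
  refine ⟨s, fun x => ?_⟩
  apply eq_mul_inv_of_mul_eq
  apply Subtype.ext
  show (g.1 * x.1 * (g⁻¹).1) * ((c : F)⁻¹ • g.1) = ((c : F)⁻¹ • g.1) * x.1
  have h1 : (g⁻¹).1 * g.1 = 1 := by rw [← Units.val_mul, inv_mul_cancel]; rfl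
  rw [mul_smul_comm, mul_assoc, h1, mul_one, smul_mul_assoc]

theorem kap_sq {g : GL (Fin 2) F} (hg : IsSquare (Matrix.GeneralLinearGroup.det g)) (p : XX F) :
    ∃ k : PSL2, kap (g • p) = (kap p).map (MulAut.conj k).toMonoidHom := by
  obtain ⟨s, hs⟩ := cj_sq hg
  refine ⟨pi s, ?_⟩
  show Subgroup.closure ({pi (cj g p.1.1), pi (cj g p.1.2)} : Set PSL2) = _
  unfold kap
  rw [MonoidHom.map_closure, Set.image_pair, hs, hs, map_mul, map_mul, map_mul, map_mul, map_inv]
  rfl

theorem sq_tri [Fintype F] (h2 : (2 : F) ≠ 0) (u v : Fˣ) (hu : ¬ IsSquare u) (hv : ¬ IsSquare v) : IsSquare (u * v⁻¹) := by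
  have hc : ringChar F ≠ 2 := by
    intro h
    apply h2
    have := ringChar.Nat.cast_ringChar (R := F)
    rw [h] at this
    exact_mod_cast this
  rw [FiniteField.unit_isSquare_iff hc] at hu hv ⊢
  have key : ∀ w : Fˣ, w ^ (Fintype.card F / 2) ≠ 1 → w ^ (Fintype.card F / 2) = -1 := by
    intro w hw
    rcases FiniteField.pow_dichotomy hc (a := (w : F)) w.ne_zero with h | h
    · exact absurd (Units.ext (by simpa using h)) hw
    · exact Units.ext (by simpa using h)
  rw [mul_pow, inv_pow, key u hu, key v hv]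
  simp

theorem s0808 [Fintype F] (hodd : Odd (Fintype.card F)) :
    ((Fintype.card F % 8 = 3 ∨ Fintype.card F % 8 = 5) → ∀ V W : Subgroup PSL2, IsKleinFour V → IsKleinFour W → ∃ g : PSL2, W = V.map (MulAut.conj g).toMonoidHom) ∧
    ((Fintype.card F % 8 = 1 ∨ Fintype.card F % 8 = 7) → ∃ V₁ V₂ : Subgroup PSL2, IsKleinFour V₁ ∧ IsKleinFour V₂ ∧
      (¬ ∃ g : PSL2, V₂ = V₁.map (MulAut.conj g).toMonoidHom) ∧ ∀ W : Subgroup PSL2, IsKleinFour W →
        (∃ g : PSL2, W = V₁.map (MulAut.conj g).toMonoidHom) ∨ (∃ g : PSL2, W = V₂.map (MulAut.conj g).toMonoidHom)) := by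
  classical
  have h2 : (2 : F) ≠ 0 := by
    intro h
    have h1 : ringChar F ∣ 2 := (ringChar.spec F 2).1 (by exact_mod_cast h)
    have h3 : ringChar F = 2 := ((Nat.dvd_prime Nat.prime_two).1 h1).resolve_left CharP.ringChar_ne_one
    have h4 := FiniteField.even_card_of_char_two h3
    rw [Nat.odd_iff] at hodd
    omega
  haveI : Finite PSL2 := Quotient.finite _
  haveI : Fact (Nat.Prime 2) := ⟨Nat.prime_two⟩
  have hcard : 2 * Nat.card PSL2 = Fintype.card F * (Fintype.card F ^ 2 - 1) := by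
    have hg : Nat.gcd 2 (Fintype.card F - 1) = 2 := by
      obtain ⟨k, hk⟩ := hodd
      exact Nat.gcd_eq_left ⟨k, by omega⟩
    have h6 := Cfsg.Agent.Lib.GLSL.card_PSL (F := F) 2 (by norm_num)
    rw [hg, Cfsg.Agent.Lib.SL2.card_SL2_eq] at h6
    exact h6
  set q := Fintype.card F with hq
  constructor
  · intro hmod V W hV hW
    have hn8 : ¬ 8 ∣ Nat.card PSL2 := by
      intro h8
      have h16 : 16 ∣ q * (q ^ 2 - 1) := by
        rw [← hcard]; exact Nat.mul_dvd_mul_left 2 h8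
      have hcop : Nat.Coprime 16 q := by
        rw [show 16 = 2 ^ 4 by norm_num]
        exact Nat.Coprime.pow_left 4 (Nat.coprime_two_left.2 hodd)
      have h17 := hcop.dvd_of_dvd_mul_left h16
      have h18 : q % 16 = 3 ∨ q % 16 = 5 ∨ q % 16 = 11 ∨ q % 16 = 13 := by omega
      have h19 : q ^ 2 % 16 = 9 := by
        rcases h18 with h | h | h | h <;> simp [Nat.pow_mod, h]
      omega
    have key : ∀ V : Subgroup PSL2, IsKleinFour V → ∃ S : Sylow 2 PSL2, (S : Subgroup PSL2) = V := by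
      intro V hV
      have hVp : IsPGroup 2 V := IsPGroup.of_card (n := 2) (by rw [hV.card_four]; norm_num)
      obtain ⟨S, hS⟩ := hVp.exists_le_sylow
      refine ⟨S, ?_⟩
      symm
      apply Subgroup.eq_of_le_of_card_ge hS
      obtain ⟨k, hk⟩ := IsPGroup.iff_card.1 S.2
      have hk2 : k ≤ 2 := by
        by_contra h
        apply hn8
        have h1 := Subgroup.card_subgroup_dvd_card (S : Subgroup PSL2)
        rw [hk] at h1
        exact (Nat.pow_dvd_pow 2 (show 3 ≤ k by omega)).trans h1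
      rw [hV.card_four, hk]
      calc 2 ^ k ≤ 2 ^ 2 := Nat.pow_le_pow_right (by norm_num) hk2
        _ = 4 := by norm_num
    obtain ⟨S, rfl⟩ := key V hV
    obtain ⟨T, rfl⟩ := key W hW
    obtain ⟨g, hg⟩ := MulAction.exists_smul_eq PSL2 S T
    exact ⟨g, by rw [← hg]; rfl⟩
  · intro hmod
    have h8 : 8 ∣ Nat.card PSL2 := by
      have h18 : q % 16 = 1 ∨ q % 16 = 9 ∨ q % 16 = 7 ∨ q % 16 = 15 := by omega
      have h19 : q ^ 2 % 16 = 1 := by
        rcases h18 with h | h | h | h <;> simp [Nat.pow_mod, h]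
      have h20 : 16 ∣ q ^ 2 - 1 := by omega
      have h21 : 16 ∣ 2 * Nat.card PSL2 := by rw [hcard]; exact h20.mul_left _
      omega
    obtain ⟨p, hp⟩ := CharP.exists F
    haveI : NeZero p := ⟨fun h => by
      subst h
      haveI := CharP.charP_to_charZero F
      exact (not_finite F)⟩
    obtain ⟨a, b, hab⟩ := CharP.sq_add_sq F p (-1)
    have h : (a : F) ^ 2 + (b : F) ^ 2 = -1 := by push_cast at hab; exact hab
    set P0 := p0 (a : F) b h with hP0
    obtain ⟨V2, hV2, hnc⟩ : ∃ V2 : Subgroup PSL2, IsKleinFour V2 ∧ ¬ ∃ g : PSL2, V2 = (kap P0).map (MulAut.conj g).toMonoidHom := by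
      by_contra hcon
      push Not at hcon
      exact not_all_conj h8 (s0807 hodd) (kap_kl h2 P0) hcon
    refine ⟨kap P0, V2, kap_kl h2 P0, hV2, hnc, ?_⟩
    intro W hW
    obtain ⟨p2, rfl⟩ := kap_surj h2 hV2
    obtain ⟨pw, rfl⟩ := kap_surj h2 hW
    obtain ⟨g2, rfl⟩ := trans h2 _ _ h p2
    obtain ⟨g, rfl⟩ := trans h2 _ _ h pw
    by_cases hg : IsSquare (Matrix.GeneralLinearGroup.det g)
    · left
      exact kap_sq hg _
    · right
      have hg2 : ¬ IsSquare (Matrix.GeneralLinearGroup.det g2) := fun h' => hnc (kap_sq h' _)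
      have h3 : IsSquare (Matrix.GeneralLinearGroup.det (g * g2⁻¹)) := by
        rw [map_mul, map_inv]
        exact sq_tri h2 _ _ hg hg2
      have h4 := kap_sq h3 (g2 • p0 (a : F) b h)
      rwa [← mul_smul, inv_mul_cancel_right] at h4

end
end Cfsg.Agent.H8.Kln
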