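import Mathlib
import Cfsg.Agent.H8.FSim1

set_option autoImplicit false
set_option linter.all false

/-! Polycyclic 2-groups with certificates, and the transfer of simplicity criteria to a subgroup of an ambient group. -/

namespace Cfsg.Agent.H8.MatA

open Cfsg Cfsg.FusionSystem Cfsg.Agent.Lib.FusBase Cfsg.Agent.Lib.FusGroup Cfsg.Agent.H8.FSim

section pc

variable {P : Type*} [Group P]

/-- the chain of subgroups generated by the first elements -/
def E (e : ℕ → P) : ℕ → Subgroup P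
  | 0 => ⊥
  | i + 1 => E e i ⊔ Subgroup.zpowers (e i)

/-- descending product over the bits below `k` -/
def wd (e : ℕ → P) (m : ℕ) : ℕ → P
  | 0 => 1
  | k + 1 => if m.testBit k then e k * wd e m k else wd e m k

variable {e : ℕ → P}

theorem E_le_succ (i : ℕ) : E e i ≤ E e (i + 1) := le_sup_left

theorem E_mono {i j : ℕ} (h : i ≤ j) : E e i ≤ E e j := monotone_nat_of_le_succ E_le_succ h

theorem e_mem {i j : ℕ} (h : i < j) : e i ∈ E e j :=
  E_mono (show i + 1 ≤ j by omega) (Subgroup.mem_sup_right (Subgroup.mem_zpowers _))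

theorem E_le {H : Subgroup P} {n : ℕ} (h : ∀ i < n, e i ∈ H) : E e n ≤ H := by
  induction n with
  | zero => exact bot_le
  | succ n ih =>
    refine sup_le (ih fun i hi => h i (by omega)) ?_
    rw [Subgroup.zpowers_le]; exact h n (by omega)

theorem wd_mem (m : ℕ) (k : ℕ) : wd e m k ∈ E e k := by
  induction k with
  | zero => exact Subgroup.one_mem _
  | succ k ih =>
    unfold wd
    split_ifs
    · exact Subgroup.mul_mem _ (e_mem (by omega)) (E_le_succ k ih)
    · exact E_le_succ k ih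

/-- the certificate conditions -/
structure PC (e : ℕ → P) (n : ℕ) : Prop where
  sq : ∀ i < n, e i * e i ∈ E e i
  cj : ∀ i < n, ∀ j < i, e i * e j * (e i)⁻¹ ∈ E e i
  nm : ∀ i < n, e i ∉ E e i

theorem PC.norm {n : ℕ} (h : PC e n) {i : ℕ} (hi : i < n) {x : P} (hx : x ∈ E e i) : e i * x * (e i)⁻¹ ∈ E e i := by
  have h1 : E e i ≤ (E e i).comap (MulAut.conj (e i)).toMonoidHom := E_le fun j hj => h.cj i hi j hj
  exact h1 hx

theorem PC.norm' {n : ℕ} (h : PC e n) {i : ℕ} (hi : i < n) {x : P} (hx : x ∈ E e i) : (e i)⁻¹ * x * e i ∈ E e i := by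
  have h1 := h.norm hi hx
  have h2 := Subgroup.mul_mem _ (Subgroup.mul_mem _ (Subgroup.inv_mem _ (h.sq i hi)) h1) (h.sq i hi)
  have e1 : (e i * e i)⁻¹ * (e i * x * (e i)⁻¹) * (e i * e i) = (e i)⁻¹ * x * e i := by group
  rwa [e1] at h2

theorem PC.mem_succ {n : ℕ} (h : PC e n) {i : ℕ} (hi : i < n) {x : P} : x ∈ E e (i + 1) ↔ x ∈ E e i ∨ (e i)⁻¹ * x ∈ E e i := by
  have hs := h.sq i hi
  let D : Subgroup P :=
    { carrier := {x | x ∈ E e i ∨ (e i)⁻¹ * x ∈ E e i}
      one_mem' := Or.inl (Subgroup.one_mem _)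
      mul_mem' := by
        rintro a b (ha | ha) (hb | hb)
        · exact Or.inl (Subgroup.mul_mem _ ha hb)
        · right
          have h1 := Subgroup.mul_mem _ (h.norm' hi ha) hb
          have e2 : (e i)⁻¹ * a * e i * ((e i)⁻¹ * b) = (e i)⁻¹ * (a * b) := by group
          rwa [e2] at h1
        · right
          have e1 : (e i)⁻¹ * (a * b) = ((e i)⁻¹ * a) * b := by group
          show (e i)⁻¹ * (a * b) ∈ E e i
          rw [e1]; exact Subgroup.mul_mem _ ha hb
        · left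
          have h1 := Subgroup.mul_mem _ (Subgroup.mul_mem _ hs (h.norm' hi ha)) hb
          have e2 : e i * e i * ((e i)⁻¹ * ((e i)⁻¹ * a) * e i) * ((e i)⁻¹ * b) = a * b := by group
          rwa [e2] at h1
      inv_mem' := by
        rintro a (ha | ha)
        · exact Or.inl (Subgroup.inv_mem _ ha)
        · right
          have h1 := Subgroup.mul_mem _ (Subgroup.inv_mem _ hs) (h.norm hi (Subgroup.inv_mem _ ha))
          have e2 : (e i * e i)⁻¹ * (e i * ((e i)⁻¹ * a)⁻¹ * (e i)⁻¹) = (e i)⁻¹ * a⁻¹ := by group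
          rwa [e2] at h1 }
  constructor
  · intro hx
    have h1 : E e (i + 1) ≤ D := by
      refine sup_le (fun y hy => Or.inl hy) ?_
      rw [Subgroup.zpowers_le]
      right
      show (e i)⁻¹ * e i ∈ E e i
      rw [inv_mul_cancel]; exact Subgroup.one_mem _
    exact h1 hx
  · rintro (h1 | h1)
    · exact E_le_succ i h1
    · have h2 := Subgroup.mul_mem _ (e_mem (e := e) (show i < i + 1 by omega)) (E_le_succ i h1)
      rwa [mul_inv_cancel_left] at h2

theorem PC.card {n : ℕ} [Finite P] (h : PC e n) {i : ℕ} (hi : i ≤ n) : Nat.card (E e i) = 2 ^ i := by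
  induction i with
  | zero => show Nat.card (⊥ : Subgroup P) = 1; exact Subgroup.card_bot
  | succ i ih =>
    have ih := ih (by omega)
    have h1 : (E e i).relIndex (E e (i + 1)) = 2 := by
      rw [Subgroup.relIndex, Subgroup.index_eq_two_iff]
      refine ⟨⟨(e i)⁻¹, Subgroup.inv_mem _ (e_mem (by omega))⟩, fun b => ?_⟩
      rw [Subgroup.mem_subgroupOf, Subgroup.mem_subgroupOf]
      have hb := (h.mem_succ (show i < n by omega)).1 b.2
      have e1 : ((b * ⟨(e i)⁻¹, Subgroup.inv_mem _ (e_mem (by omega))⟩ : E e (i + 1)) : P) = b * (e i)⁻¹ := rfl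
      rw [e1]
      rcases hb with hb | hb
      · refine Or.inr ⟨hb, fun h2 => ?_⟩
        have h3 := Subgroup.mul_mem _ (Subgroup.inv_mem _ hb) h2
        rw [inv_mul_cancel_left] at h3
        exact h.nm i (by omega) (by simpa using Subgroup.inv_mem _ h3)
      · refine Or.inl ⟨?_, fun h2 => ?_⟩
        · have h3 := h.norm (show i < n by omega) hb
          have e2 : e i * ((e i)⁻¹ * (b : P)) * (e i)⁻¹ = b * (e i)⁻¹ := by group
          rwa [e2] at h3
        · have h3 := Subgroup.mul_mem _ h2 (Subgroup.inv_mem _ hb)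
          have e2 : (b : P) * ((e i)⁻¹ * (b : P))⁻¹ = e i := by group
          rw [e2] at h3
          exact h.nm i (by omega) h3
    have h2 := Cfsg.Agent.Lib.Basic.relIndex_mul_card (E_le_succ (e := e) i)
    rw [h1, ih] at h2
    rw [← h2, pow_succ, mul_comm]

/-! ### the invariant chain -/

/-- unitriangular action on the bottom part, with a regular element -/
structure Uni (e : ℕ → P) (n r : ℕ) (s : P) : Prop where
  hr : r ≤ n
  tri : ∀ i < r, ∀ j < n, (e i)⁻¹ * (e j * e i * (e j)⁻¹) ∈ E e i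
  hs : s ∈ E e n
  reg : ∀ i, i + 1 < r → (e (i + 1))⁻¹ * (s * e (i + 1) * s⁻¹) ∉ E e i
  two : ∀ i < r, e i * e i = 1
  comm : ∀ i < r, ∀ j < r, e i * e j = e j * e i

def Qs (e : ℕ → P) (r : ℕ) (s : P) : Prop := ∀ i < r, (e i)⁻¹ * (s * e i * s⁻¹) ∈ E e i

theorem Qs.conj {r : ℕ} {s : P} (h : Qs e r s) {i : ℕ} (hi : i ≤ r) {x : P} (hx : x ∈ E e i) : s * x * s⁻¹ ∈ E e i := by
  have h1 : E e i ≤ (E e i).comap (MulAut.conj s).toMonoidHom := E_le fun j hj => by
    show s * e j * s⁻¹ ∈ E e i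
    have h2 := Subgroup.mul_mem _ (e_mem (e := e) hj) (E_mono hj.le (h j (by omega)))
    rwa [mul_inv_cancel_left] at h2
  exact h1 hx

theorem Qs.mul {r : ℕ} {s t : P} (hs : Qs e r s) (ht : Qs e r t) : Qs e r (s * t) := by
  intro i hi
  have h1 := Subgroup.mul_mem _ (hs i hi) (hs.conj hi.le (ht i hi))
  have e1 : (e i)⁻¹ * (s * e i * s⁻¹) * (s * ((e i)⁻¹ * (t * e i * t⁻¹)) * s⁻¹) = (e i)⁻¹ * (s * t * e i * (s * t)⁻¹) := by group
  rwa [e1] at h1

theorem Qs.one {r : ℕ} : Qs e r (1 : P) := by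
  intro i hi
  have : (e i)⁻¹ * (1 * e i * 1⁻¹) = 1 := by group
  rw [this]; exact Subgroup.one_mem _

theorem Qs.pow {r : ℕ} {s : P} (hs : Qs e r s) (k : ℕ) : Qs e r (s ^ k) := by
  induction k with
  | zero => rw [pow_zero]; exact Qs.one
  | succ k ih => rw [pow_succ]; exact ih.mul hs

theorem inv_eq_pow' [Finite P] (s : P) : s⁻¹ = s ^ (orderOf s - 1) := by
  have h1 : s ^ (orderOf s - 1) * s = 1 := by
    rw [← pow_succ, Nat.sub_add_cancel (orderOf_pos s), pow_orderOf_eq_one]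
  exact (eq_inv_of_mul_eq_one_left h1).symm

theorem Uni.qs [Finite P] {n r : ℕ} {s : P} (h : Uni e n r s) {t : P} (ht : t ∈ E e n) : Qs e r t := by
  let D : Subgroup P :=
    { carrier := {t | Qs e r t}
      one_mem' := Qs.one
      mul_mem' := fun ha hb => ha.mul hb
      inv_mem' := by
        intro a ha
        show Qs e r a⁻¹
        rw [inv_eq_pow']; exact ha.pow _ }
  have h1 : E e n ≤ D := E_le fun j hj i hi => h.tri i hi j hj
  exact h1 ht

theorem Uni.act {n r : ℕ} (hpc : PC e n) (hr : r ≤ n) {t : P} (ht : Qs e r t) {i : ℕ} (hi : i < r) {x : P}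
    (hx : x ∈ E e (i + 1)) : x⁻¹ * (t * x * t⁻¹) ∈ E e i := by
  rcases (hpc.mem_succ (by omega)).1 hx with h1 | h1
  · exact Subgroup.mul_mem _ (Subgroup.inv_mem _ h1) (ht.conj hi.le h1)
  · have h2 := Subgroup.mul_mem _ (Subgroup.mul_mem _ (Subgroup.inv_mem _ h1) (ht i hi)) (ht.conj hi.le h1)
    have e1 : ((e i)⁻¹ * x)⁻¹ * ((e i)⁻¹ * (t * e i * t⁻¹)) * (t * ((e i)⁻¹ * x) * t⁻¹) = x⁻¹ * (t * x * t⁻¹) := by group
    rwa [e1] at h2

theorem Uni.ab {n r : ℕ} {s : P} (h : Uni e n r s) {x y : P} (hx : x ∈ E e r) (hy : y ∈ E e r) : x * y = y * x := by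
  have h1 : E e r ≤ Subgroup.centralizer (E e r : Set P) := by
    refine E_le fun i hi => ?_
    have h2 : E e r ≤ Subgroup.centralizer {e i} := by
      refine E_le fun j hj => ?_
      rw [Subgroup.mem_centralizer_iff]
      intro y hy
      rw [Set.mem_singleton_iff] at hy
      rw [hy]; exact h.comm i hi j hj
    rw [Subgroup.mem_centralizer_iff]
    intro y hy
    have h3 := Subgroup.mem_centralizer_iff.1 (h2 hy) (e i) rfl
    exact h3.symm
  exact (Subgroup.mem_centralizer_iff.1 (h1 hx) y hy).symm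

theorem Uni.sq {n r : ℕ} {s : P} (h : Uni e n r s) {x : P} (hx : x ∈ E e r) : x * x = 1 := by
  let D : Subgroup P :=
    { carrier := {x | x ∈ E e r ∧ x * x = 1}
      one_mem' := ⟨Subgroup.one_mem _, one_mul 1⟩
      mul_mem' := by
        rintro a b ⟨ha, ha1⟩ ⟨hb, hb1⟩
        refine ⟨Subgroup.mul_mem _ ha hb, ?_⟩
        calc a * b * (a * b) = a * (b * a) * b := by group
          _ = a * (a * b) * b := by rw [h.ab ha hb]
          _ = (a * a) * (b * b) := by group
          _ = 1 := by rw [ha1, hb1, one_mul]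
      inv_mem' := by
        rintro a ⟨ha, ha1⟩
        refine ⟨Subgroup.inv_mem _ ha, ?_⟩
        rw [← mul_inv_rev, ha1, inv_one] }
  have h1 : E e r ≤ D := E_le fun i hi => ⟨e_mem hi, h.two i hi⟩
  exact (h1 hx).2

theorem Uni.regular [Finite P] {n r : ℕ} {s : P} (hpc : PC e n) (h : Uni e n r s) {x : P} (hx : x ∈ E e r) {i : ℕ} (hi : i < r)
    (hc : x⁻¹ * (s * x * s⁻¹) ∈ E e i) : x ∈ E e (i + 1) := by
  have hr := h.hr
  have hQ := h.qs h.hs
  -- descend
  have key : ∀ k, i + 1 ≤ k → k ≤ r → x ∈ E e k → x ∈ E e (i + 1) := by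
    intro k
    induction k with
    | zero => intro h1; omega
    | succ k ih =>
      intro h1 h2 hxk
      by_cases hk : i = k
      · rw [hk]; exact hxk
      · rcases (hpc.mem_succ (show k < n by omega)).1 hxk with h3 | h3
        · exact ih (by omega) (by omega) h3
        · exfalso
          obtain ⟨k, rfl⟩ : ∃ k', k = k' + 1 := ⟨k - 1, by omega⟩
          set t := (e (k + 1))⁻¹ * x with ht
          have h4 := Uni.act hpc hr hQ (show k < r by omega) h3
          have h5 := hQ (k + 1) (by omega)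
          have e1 : x⁻¹ * (s * x * s⁻¹) = t⁻¹ * ((e (k + 1))⁻¹ * (s * e (k + 1) * s⁻¹)) * (s * t * s⁻¹) := by rw [ht]; group
          have h6 : t⁻¹ * ((e (k + 1))⁻¹ * (s * e (k + 1) * s⁻¹)) = ((e (k + 1))⁻¹ * (s * e (k + 1) * s⁻¹)) * t⁻¹ :=
            h.ab (E_mono (by omega) (Subgroup.inv_mem _ h3)) (E_mono (by omega) h5)
          rw [e1, h6, mul_assoc] at hc
          have h7 := Subgroup.mul_mem _ (E_mono (show i ≤ k by omega) hc) (Subgroup.inv_mem _ h4)
          rw [mul_inv_cancel_right] at h7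
          exact h.reg k (by omega) h7
  exact key r (by omega) le_rfl hx

theorem Uni.norm [Finite P] {n r : ℕ} {s : P} (hpc : PC e n) (h : Uni e n r s) {g : P} (hg : ∀ x ∈ E e n, g⁻¹ * x * g ∈ E e n)
    (hgV : ∀ x ∈ E e r, g * x * g⁻¹ ∈ E e r) : ∀ i ≤ r, ∀ x ∈ E e i, g * x * g⁻¹ ∈ E e i := by
  intro i
  induction i with
  | zero =>
    intro _ x hx
    have : x = 1 := Subgroup.mem_bot.1 hx
    rw [this, mul_one, mul_inv_cancel]; exact Subgroup.one_mem _
  | succ i ih =>
    intro hi x hx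
    refine h.regular hpc (hgV x (E_mono hi hx)) (by omega) ?_
    have h1 := Uni.act hpc h.hr (h.qs (hg s h.hs)) (show i < r by omega) hx
    have h2 := ih (by omega) _ h1
    have e1 : g * (x⁻¹ * (g⁻¹ * s * g * x * (g⁻¹ * s * g)⁻¹)) * g⁻¹ = (g * x * g⁻¹)⁻¹ * (s * (g * x * g⁻¹) * s⁻¹) := by group
    rwa [e1] at h2

theorem Uni.cent [Finite P] {n r : ℕ} {s : P} (hpc : PC e n) (h : Uni e n r s) {g : P} (ho : ¬ 2 ∣ orderOf g)
    (hgE : ∀ i ≤ r, ∀ x ∈ E e i, g * x * g⁻¹ ∈ E e i) : ∀ x ∈ E e r, g * x = x * g := by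
  have hpow : ∀ k : ℕ, ∀ i ≤ r, ∀ x ∈ E e i, g ^ k * x * (g ^ k)⁻¹ ∈ E e i := by
    intro k
    induction k with
    | zero => intro i _ x hx; rw [pow_zero, one_mul, inv_one, mul_one]; exact hx
    | succ k ih =>
      intro i hi x hx
      have h1 := hgE i hi _ (ih i hi x hx)
      have e1 : g * (g ^ k * x * (g ^ k)⁻¹) * g⁻¹ = g ^ (k + 1) * x * (g ^ (k + 1))⁻¹ := by rw [pow_succ']; group
      rwa [e1] at h1
  have key : ∀ i ≤ r, ∀ x ∈ E e i, g * x = x * g := by
    intro i
    induction i with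
    | zero =>
      intro _ x hx
      have : x = 1 := Subgroup.mem_bot.1 hx
      rw [this, mul_one, one_mul]
    | succ i ih =>
      intro hi x hx
      by_cases hxi : x ∈ E e i
      · exact ih (by omega) x hxi
      · have hy := hgE (i + 1) hi x hx
        have hyi : g * x * g⁻¹ ∉ E e i := by
          intro h1
          have h2 := hpow (orderOf g - 1) i (by omega) _ h1
          rw [← inv_eq_pow'] at h2
          have e1 : g⁻¹ * (g * x * g⁻¹) * g⁻¹⁻¹ = x := by group
          rw [e1] at h2; exact hxi h2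
        have h1 : x⁻¹ * (g * x * g⁻¹) ∈ E e i := by
          have hr := h.hr
          rcases (hpc.mem_succ (show i < n by omega)).1 hx with h2 | h2
          · exact absurd h2 hxi
          rcases (hpc.mem_succ (show i < n by omega)).1 hy with h3 | h3
          · exact absurd h3 hyi
          have h4 := Subgroup.mul_mem _ (Subgroup.inv_mem _ h2) h3
          have e1 : ((e i)⁻¹ * x)⁻¹ * ((e i)⁻¹ * (g * x * g⁻¹)) = x⁻¹ * (g * x * g⁻¹) := by group
          rwa [e1] at h4
        set a := x⁻¹ * (g * x * g⁻¹) with ha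
        have hga := ih (by omega) a h1
        have haa : a * a = 1 := h.sq (E_mono (by omega) h1)
        have hgx : g * x = x * a * g := by rw [ha]; group
        have hk : ∀ k : ℕ, g ^ k * x = x * a ^ k * g ^ k := by
          intro k
          induction k with
          | zero => simp
          | succ k ihk =>
            have hgak : g * a ^ k = a ^ k * g := (Commute.pow_right (show Commute g a from hga) k).eq
            calc g ^ (k + 1) * x = g * (g ^ k * x) := by rw [pow_succ']; group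
              _ = g * x * a ^ k * g ^ k := by rw [ihk]; group
              _ = x * a * (g * a ^ k) * g ^ k := by rw [hgx]; group
              _ = x * (a * a ^ k) * (g * g ^ k) := by rw [hgak]; group
              _ = x * a ^ (k + 1) * g ^ (k + 1) := by rw [pow_succ' a, pow_succ' g]
        have h5 := hk (orderOf g)
        rw [pow_orderOf_eq_one, one_mul, mul_one] at h5
        have h6 : a ^ orderOf g = 1 := by
          have : x * 1 = x * a ^ orderOf g := by rw [mul_one]; exact h5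
          exact (mul_left_cancel this).symm
        have h7 : a = 1 := by
          have h8 : orderOf a ∣ 2 := orderOf_dvd_of_pow_eq_one (by rw [pow_two]; exact haa)
          have h9 : orderOf a ∣ orderOf g := orderOf_dvd_of_pow_eq_one h6
          rcases (Nat.dvd_prime Nat.prime_two).1 h8 with h10 | h10
          · exact orderOf_eq_one_iff.1 h10
          · exact absurd (h10 ▸ h9) ho
        rw [h7, mul_one] at hgx
        exact hgx
  exact key r le_rfl

end pc

/-! ### transfer from an ambient group -/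

theorem aut_of_pprime' {G : Type*} [Group G] [Finite G] {p : ℕ} [Fact p.Prime] (S : Sylow p G)
    (h : ∀ g, (∀ x ∈ (S : Subgroup G), g * x * g⁻¹ ∈ (S : Subgroup G)) → ¬ p ∣ orderOf g → ∀ x ∈ (S : Subgroup G), g * x = x * g) :
    IsPGroup p (autInducedBy ⊤ (S : Subgroup G)) := by
  refine aut_of_pprime S fun g hg => h g fun x hx => (Subgroup.mem_normalizer_iff.1 hg x).1 hx

/-- the criterion, with data in an ambient group -/
theorem simple_sub {P : Type*} [Group P] [Finite P] {p : ℕ} [Fact p.Prime] (G S₀ : Subgroup P) (hle : S₀ ≤ G) {k m : ℕ} (hk : k ≠ 0)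
    (hc : Nat.card S₀ = p ^ k) (hG : Nat.card G = p ^ k * m) (hm : ¬ p ∣ m)
    (hA : ∀ T : Subgroup P, T ≤ S₀ → (∀ x ∈ T, ∀ g ∈ G, g * x * g⁻¹ ∈ S₀ → g * x * g⁻¹ ∈ T) →
      (∃ z ∈ T, orderOf z = p ∧ ∀ s ∈ S₀, s * z = z * s) → S₀ ≤ T)
    (hB : ∀ g ∈ G, (∀ x ∈ S₀, g * x * g⁻¹ ∈ S₀) → ¬ p ∣ orderOf g → ∀ x ∈ S₀, g * x = x * g)
    (S : Sylow p G) : (groupFusionSystem (S : Subgroup G)).IsSimple p := by
  have hp : p.Prime := Fact.out
  have hcs : Nat.card (S₀.subgroupOf G) = p ^ k := by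
    rw [Nat.card_congr (Subgroup.subgroupOfEquivOfLe hle).toEquiv, hc]
  have hmul : Nat.card G = Nat.card (S₀.subgroupOf G) * (S₀.subgroupOf G).index := (Subgroup.card_mul_index _).symm
  have hidx : (S₀.subgroupOf G).index = m := by
    rw [hcs, hG] at hmul
    exact (Nat.eq_of_mul_eq_mul_left (pow_pos hp.pos k) hmul).symm
  have hPS : IsPGroup p (S₀.subgroupOf G) := IsPGroup.of_card hcs
  let R : Sylow p G := hPS.toSylow (by rw [hidx]; exact hm)
  have hR : (R : Subgroup G) = S₀.subgroupOf G := rfl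
  obtain ⟨c, hc1⟩ := MulAction.exists_smul_eq G S R
  have hc2 : (S : Subgroup G).map (MulAut.conj c).toMonoidHom = S₀.subgroupOf G := by
    rw [← hR, ← hc1]; rfl
  have hc3 : ∀ x, x ∈ (S : Subgroup G) ↔ ((c * x * c⁻¹ : G) : P) ∈ S₀ := by
    intro x
    rw [← Subgroup.mem_subgroupOf, ← hc2]
    constructor
    · intro hx; exact ⟨x, hx, rfl⟩
    · rintro ⟨y, hy, hyx⟩
      have h1 : c * y * c⁻¹ = c * x * c⁻¹ := hyx
      have h2 : y = x := by
        have := congrArg (fun t => c⁻¹ * t * c) h1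
        simpa [mul_assoc] using this
      rw [← h2]; exact hy
  refine simple_of S ?_ ?_ ?_
  · intro h0
    have h1 : S₀.subgroupOf G = ⊥ := by rw [← hc2, h0, Subgroup.map_bot]
    rw [h1, Subgroup.card_bot] at hcs
    exact (Nat.one_lt_pow hk hp.one_lt).ne hcs
  · refine aut_of_pprime' S fun g hg ho x hx => ?_
    have h1 := hB ((c * g * c⁻¹ : G) : P) (c * g * c⁻¹).2 ?_ ?_ ((c * x * c⁻¹ : G) : P) ((hc3 x).1 hx)
    · have h2 : c * g * c⁻¹ * (c * x * c⁻¹) = c * x * c⁻¹ * (c * g * c⁻¹) := Subtype.ext h1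
      have h3 := congrArg (fun t => c⁻¹ * t * c) h2
      simpa [mul_assoc] using h3
    · intro y hy
      have hyG : y ∈ G := hle hy
      have h2 : c⁻¹ * ⟨y, hyG⟩ * c ∈ (S : Subgroup G) := by
        rw [hc3]
        have e1 : c * (c⁻¹ * ⟨y, hyG⟩ * c) * c⁻¹ = (⟨y, hyG⟩ : G) := by group
        rw [e1]; exact hy
      have h3 := (hc3 _).1 (hg _ h2)
      have e1 : c * (g * (c⁻¹ * ⟨y, hyG⟩ * c) * g⁻¹) * c⁻¹ = (c * g * c⁻¹) * ⟨y, hyG⟩ * (c * g * c⁻¹)⁻¹ := by group
      rw [e1] at h3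
      exact h3
    · rw [Subgroup.orderOf_coe]
      have e1 : orderOf (c * g * c⁻¹) = orderOf g := by
        have := orderOf_injective (MulAut.conj c).toMonoidHom (MulAut.conj c).injective g
        exact this
      rw [e1]; exact ho
  · intro T hT hT1
    -- the conjugate in the ambient group
    let T' : Subgroup P := (T.map (MulAut.conj c).toMonoidHom).map G.subtype
    have hT' : ∀ x : G, (x : P) ∈ T' ↔ c⁻¹ * x * c ∈ T := by
      intro x
      constructor
      · rintro ⟨_, ⟨y, hy, rfl⟩, hyx⟩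
        have h1 : c * y * c⁻¹ = x := Subtype.ext hyx
        have h2 : c⁻¹ * x * c = y := by rw [← h1]; group
        rw [h2]; exact hy
      · intro hx
        refine ⟨x, ⟨c⁻¹ * x * c, hx, ?_⟩, rfl⟩
        show c * (c⁻¹ * x * c) * c⁻¹ = x
        group
    have hTG : T' ≤ G := by
      rintro _ ⟨y, -, rfl⟩; exact y.2
    have hTS : T' ≤ S₀ := by
      intro x hx
      have hxG := hTG hx
      have h1 := (hT' ⟨x, hxG⟩).1 hx
      have h2 := (hc3 _).1 (hT.1 h1)
      have e1 : c * (c⁻¹ * ⟨x, hxG⟩ * c) * c⁻¹ = (⟨x, hxG⟩ : G) := by group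
      rw [e1] at h2; exact h2
    have h1 : S₀ ≤ T' := by
      refine hA T' hTS ?_ ?_
      · intro x hx g hg hgx
        have hxG := hTG hx
        have h2 := (hT' ⟨x, hxG⟩).1 hx
        have h3 : (((⟨g, hg⟩ : G) * ⟨x, hxG⟩ * (⟨g, hg⟩ : G)⁻¹ : G) : P) ∈ T' := by
          rw [hT']
          have h4 := hT.2 _ h2 (c⁻¹ * ⟨g, hg⟩ * c) (by
            rw [hc3]
            have e1 : c * (c⁻¹ * ⟨g, hg⟩ * c * (c⁻¹ * ⟨x, hxG⟩ * c) * (c⁻¹ * ⟨g, hg⟩ * c)⁻¹) * c⁻¹ = (⟨g, hg⟩ : G) * ⟨x, hxG⟩ * (⟨g, hg⟩ : G)⁻¹ := by group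
            rw [e1]; exact hgx)
          have e1 : c⁻¹ * ⟨g, hg⟩ * c * (c⁻¹ * ⟨x, hxG⟩ * c) * (c⁻¹ * ⟨g, hg⟩ * c)⁻¹ = c⁻¹ * ((⟨g, hg⟩ : G) * ⟨x, hxG⟩ * (⟨g, hg⟩ : G)⁻¹) * c := by group
          rw [e1] at h4; exact h4
        exact h3
      · obtain ⟨z, hz, hz1, hz2⟩ := hT.exists_central S.isPGroup' hT1
        refine ⟨((c * z * c⁻¹ : G) : P), ?_, ?_, ?_⟩
        · rw [hT']
          have e1 : c⁻¹ * (c * z * c⁻¹) * c = z := by group
          rw [e1]; exact hz
        · rw [Subgroup.orderOf_coe]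
          have := orderOf_injective (MulAut.conj c).toMonoidHom (MulAut.conj c).injective z
          exact this.trans hz1
        · intro s hs
          have hsG := hle hs
          have h2 : c⁻¹ * ⟨s, hsG⟩ * c ∈ (S : Subgroup G) := by
            rw [hc3]
            have e1 : c * (c⁻¹ * ⟨s, hsG⟩ * c) * c⁻¹ = (⟨s, hsG⟩ : G) := by group
            rw [e1]; exact hs
          have h3 := hz2 _ h2
          have h4 : (⟨s, hsG⟩ : G) * (c * z * c⁻¹) = (c * z * c⁻¹) * ⟨s, hsG⟩ := by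
            calc (⟨s, hsG⟩ : G) * (c * z * c⁻¹) = c * (c⁻¹ * ⟨s, hsG⟩ * c * z) * c⁻¹ := by group
              _ = c * (z * (c⁻¹ * ⟨s, hsG⟩ * c)) * c⁻¹ := by rw [h3]
              _ = _ := by group
          exact congrArg Subtype.val h4
    refine le_antisymm hT.1 fun x hx => ?_
    have h2 := h1 ((hc3 x).1 hx)
    have h3 := (hT' (c * x * c⁻¹)).1 h2
    have e1 : c⁻¹ * (c * x * c⁻¹) * c = x := by group
    rw [e1] at h3; exact h3


end Cfsg.Agent.H8.MatA
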