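import Mathlib

set_option autoImplicit false

/-! Data for Sylow 2-subgroups of the large Mathieu groups. -/

namespace Cfsg.Agent.H8.MatData

def es : List ℕ := [0xba1474922b3398d85676a3cb218820, 0xba64d4562f83a87312d362caa18820, 0xb99b28523343aaa4b16f258a718820, 0xb9e086be3593a6952d94b10a618820, 0xbceadb48ab33a878290963e2410c20, 0xba2ac4c86f838f432a766ac4489420, 0xbbd5484a33b058d4d5663a064289c0, 0x41477ca369b9ac454cba246428837, 0x722ad4ca265de877aa76640a418801, 0x89ab484af3415ac4a96f3d9c408062]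
def bs : List ℕ := [0x10, 0x40010, 0x240410, 0x343490, 0x4, 0x20020, 0x2, 0x1, 0x4002, 0x804003]
def cj : List (List ℕ) := [[], [1], [1, 2], [1, 2, 4], [1, 2, 6, 9], [1, 2, 7, 10, 16], [1, 3, 4, 13, 32, 16], [1, 3, 5, 14, 32, 16, 64], [1, 2, 6, 11, 16, 32, 128, 64], [1, 2, 4, 12, 256, 448, 64, 112, 16]]
def tri : List (List ℕ) := [[0, 0, 0, 0, 0, 0, 0, 0, 0, 0], [0, 0, 0, 0, 0, 0, 1, 1, 0, 0], [0, 0, 0, 0, 2, 3, 0, 1, 2, 0], [0, 0, 0, 0, 1, 2, 5, 6, 3, 4]]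
def rg : List ℕ := [0, 1, 0]
def cv : List ℕ := [0, 0, 0, 0, 0, 0, 8, 4, 13, 14, 2, 10, 6, 7, 0, 9, 11, 0, 1, 15, 5, 3, 12, 0]
def crt : List (ℕ × ℕ) := [(0x5c6011, 0x159013), (0x49f002, 0x8ea003), (0xd4b004, 0x13e005), (0x6e3008, 0xa96009), (0x713021, 0x713021), (0xc75001, 0x49f002), (0xc75001, 0x13e005), (0xc75001, 0xc75001)]
def dlt : ℕ := 0x7dbfd0
def cs22 : List ℕ := [0xbdab49ca307b9ac5a928398a418820, 0xbbecc551d230e68aa4903acad10620, 0xbd12a24ca8b0aad7acf2619d018620, 0xba0e482c529852c7dab4335ca19620, 0xb98535c48c6850938e0fb5145955c0, 0xb8da82d08b8053331c51b3e4caa9c0, 0xba46d4284f851c1b14cb64c95944e0]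
def cs24 : List ℕ := [0xbdab49ca307b9ac5a928398a418820, 0x1d16f54c0793ac96188d85628286e2, 0x36064b06445e923cd75b3c4a74425, 0x2ac8fa3450b5d2ca990a91e3300c2e, 0xbaca6b1e43a1128146707b6ac081ca, 0xd983315d09d5a77d1688a54290097, 0x18a1830ef5caaab0e687262d15097, 0x20d6a3bda9806e032285ad9931464e, 0x134084986bbc8ec78674b38b0a922a, 0x5010680657490ae8be62b2d8369e95]
def sc : ℕ := 0xb9a545a8684858db120f3ce35115c0

end Cfsg.Agent.H8.MatData
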