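import Mathlib
import Cfsg.Agent.H8.MatA
import Cfsg.Agent.H8.MatData
import Cfsg.Agent.Lib.Golay.Misc
import Cfsg.Agent.Lib.Golay.SimpleM

set_option autoImplicit false
set_option linter.all false

/-! Sylow 2-subgroups of the large Mathieu groups. -/

namespace Cfsg.Agent.H8.MatB

open Cfsg Cfsg.Agent.Lib.Golay Cfsg.Agent.H8.MatA Cfsg.Agent.H8.MatData
open scoped Pointwise

theorem inv_app (g : Equiv.Perm GolayPt) (x : GolayPt) : g⁻¹ (g x) = x := Equiv.symm_apply_apply g x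
theorem app_inv (g : Equiv.Perm GolayPt) (x : GolayPt) : g (g⁻¹ x) = x := Equiv.apply_symm_apply g x

/-- word codes -/
def wc (l : List ℕ) (m : ℕ) : ℕ → ℕ
  | 0 => idc
  | k + 1 => if m.testBit k then comp (l.getD k 0) (wc l m k) else wc l m k

theorem wc_spec {l : List ℕ} {n : ℕ} (hv : ∀ i < n, valid (l.getD i 0) = true) (m : ℕ) : ∀ k ≤ n,
    valid (wc l m k) = true ∧ pm (wc l m k) = MatA.wd (fun i => pm (l.getD i 0)) m k := by
  intro k
  induction k with
  | zero => intro _; exact ⟨valid_idc, pm_idc⟩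
  | succ k ih =>
    intro hk
    obtain ⟨h1, h2⟩ := ih (by omega)
    have h3 := hv k (by omega)
    unfold wc MatA.wd
    split_ifs
    · exact ⟨valid_comp h3 h1, by rw [pm_comp h3 h1, h2]⟩
    · exact ⟨h1, h2⟩

/-- the generators -/
noncomputable def ee (i : ℕ) : Equiv.Perm GolayPt := pm (es.getD i 0)

theorem es_pres : ∀ i < 10, pres (es.getD i 0) = true := by decide +kernel
theorem es_sq : ∀ i < 10, comp (es.getD i 0) (es.getD i 0) = idc := by decide +kernel
theorem es_cj : ∀ i < 10, ∀ j < i, comp (es.getD i 0) (es.getD j 0) = comp (wc es ((cj.getD i []).getD j 0) i) (es.getD i 0) := by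
  decide +kernel
theorem es_bs : ∀ i < 10, (∀ j < i, act (es.getD j 0) (bs.getD i 0) = bs.getD i 0) ∧ act (es.getD i 0) (bs.getD i 0) ≠ bs.getD i 0 := by
  decide +kernel
theorem bs_lt : ∀ i < 10, bs.getD i 0 < 2 ^ 24 := by decide +kernel
theorem es_tri : ∀ i < 4, ∀ j < 10, comp (es.getD j 0) (es.getD i 0) =
    comp (comp (es.getD i 0) (wc es ((tri.getD i []).getD j 0) i)) (es.getD j 0) := by decide +kernel
theorem es_comm : ∀ i < 4, ∀ j < 4, comp (es.getD i 0) (es.getD j 0) = comp (es.getD j 0) (es.getD i 0) := by decide +kernel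
theorem sc_eq : wc es 82 7 = sc := by decide +kernel
theorem sc_reg : ∀ i < 3, comp sc (es.getD (i + 1) 0) =
    comp (comp (comp (es.getD (i + 1) 0) (es.getD i 0)) (wc es (rg.getD i 0) i)) sc := by decide +kernel
theorem es_oct : ∀ i < 10, act (es.getD i 0) oct0 = oct0 ∧ act (es.getD i 0) dlt = dlt := by decide +kernel
theorem es_fix : ∀ i < 4, fixesB (es.getD i 0) oct0 = true := by decide +kernel
theorem cv_ok : ∀ q < 24, dlt.testBit q = true → img (wc es (cv.getD q 0) 4) 4 = q := by decide +kernel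
theorem crt_ok : certOK [] crt dlt = true := by decide +kernel
theorem dlt_eq : oct0 ^^^ 0xffffff = dlt := by decide +kernel
theorem pc_dlt : pc dlt = 16 ∧ pc oct0 = 8 := by decide +kernel

theorem es_valid (i : ℕ) (hi : i < 10) : valid (es.getD i 0) = true := pres_valid (es_pres i hi)

theorem ee_mem {i : ℕ} (hi : i < 10) : ee i ∈ M24 := pm_mem_M24 (es_pres i hi)

theorem ee_sq {i : ℕ} (hi : i < 10) : ee i * ee i = 1 := by
  have h := es_valid i hi
  unfold ee
  rw [← pm_comp h h, es_sq i hi, pm_idc]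

theorem pmwc (m : ℕ) {k : ℕ} (hk : k ≤ 10) : valid (wc es m k) = true ∧ pm (wc es m k) ∈ E ee k := by
  obtain ⟨h1, h2⟩ := wc_spec es_valid m k hk
  exact ⟨h1, by rw [h2]; exact wd_mem m k⟩

theorem pce : PC ee 10 := by
  constructor
  · intro i hi
    rw [ee_sq hi]; exact Subgroup.one_mem _
  · intro i hi j hj
    have h1 := es_cj i hi j hj
    have h2 := es_valid i hi
    have h3 := es_valid j (by omega)
    obtain ⟨h4, h5⟩ := pmwc ((cj.getD i []).getD j 0) (show i ≤ 10 by omega)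
    have h6 := congrArg pm h1
    rw [pm_comp h2 h3, pm_comp h4 h2] at h6
    have h7 : ee i * ee j * (ee i)⁻¹ = pm (wc es ((cj.getD i []).getD j 0) i) := by
      unfold ee
      rw [h6]; group
    rw [h7]; exact h5
  · intro i hi hmem
    obtain ⟨h1, h2⟩ := es_bs i hi
    have h3 : E ee i ≤ MulAction.stabilizer (Equiv.Perm GolayPt) (st (bs.getD i 0)) := by
      refine E_le fun j hj => ?_
      rw [MulAction.mem_stabilizer_iff]
      unfold ee
      rw [pm_smul_st (es_valid j (by omega)), h1 j hj]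
    have h4 := MulAction.mem_stabilizer_iff.1 (h3 hmem)
    unfold ee at h4
    rw [pm_smul_st (es_valid i hi)] at h4
    refine h2 (st_inj ?_ (bs_lt i hi) h4)
    have h5 := mk_smul (es_valid i hi) (st (bs.getD i 0))
    rw [mk_st (bs_lt i hi)] at h5
    rw [← h5]; exact mk_lt _

theorem pce' {n : ℕ} (hn : n ≤ 10) : PC ee n :=
  ⟨fun i hi => pce.sq i (by omega), fun i hi => pce.cj i (by omega), fun i hi => pce.nm i (by omega)⟩

theorem uni {n : ℕ} (h7 : 7 ≤ n) (hn : n ≤ 10) : Uni ee n 4 (pm sc) := by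
  refine ⟨by omega, ?_, ?_, ?_, ?_, ?_⟩
  · intro i hi j hj
    have h1 := es_tri i hi j (by omega)
    have h2 := es_valid i (by omega)
    have h3 := es_valid j (by omega)
    obtain ⟨h4, h5⟩ := pmwc ((tri.getD i []).getD j 0) (show i ≤ 10 by omega)
    have h6 := congrArg pm h1
    rw [pm_comp h3 h2, pm_comp (valid_comp h2 h4) h3, pm_comp h2 h4] at h6
    have h7 : (ee i)⁻¹ * (ee j * ee i * (ee j)⁻¹) = pm (wc es ((tri.getD i []).getD j 0) i) := by
      unfold ee
      rw [h6]; group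
    rw [h7]; exact h5
  · rw [← sc_eq]
    exact E_mono h7 (pmwc 82 (by omega)).2
  · intro i hi hmem
    have hi' : i < 3 := by omega
    have h1 := sc_reg i hi'
    have h2 := es_valid i (by omega)
    have h3 := es_valid (i + 1) (by omega)
    have hs : valid sc = true := by rw [← sc_eq]; exact (pmwc 82 (by omega)).1
    obtain ⟨h4, h5⟩ := pmwc (rg.getD i 0) (show i ≤ 10 by omega)
    have h6 := congrArg pm h1
    rw [pm_comp hs h3, pm_comp (valid_comp (valid_comp h3 h2) h4) hs, pm_comp (valid_comp h3 h2) h4, pm_comp h3 h2] at h6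
    have h7 : (ee (i + 1))⁻¹ * (pm sc * ee (i + 1) * (pm sc)⁻¹) = ee i * pm (wc es (rg.getD i 0) i) := by
      unfold ee
      rw [h6]; group
    rw [h7] at hmem
    have h8 := Subgroup.mul_mem _ hmem (Subgroup.inv_mem _ h5)
    rw [mul_inv_cancel_right] at h8
    exact pce.nm i (by omega) h8
  · intro i hi; exact ee_sq (by omega)
  · intro i hi j hj
    have h1 := es_valid i (by omega)
    have h2 := es_valid j (by omega)
    unfold ee
    rw [← pm_comp h1 h2, es_comm i hi j hj, pm_comp h2 h1]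

theorem E_le_M24 {n : ℕ} (hn : n ≤ 10) : E ee n ≤ M24 := E_le fun i hi => ee_mem (by omega)

theorem E_smul_dlt {n : ℕ} (hn : n ≤ 10) {x : Equiv.Perm GolayPt} (hx : x ∈ E ee n) : x • st dlt = st dlt := by
  have h1 : E ee n ≤ MulAction.stabilizer (Equiv.Perm GolayPt) (st dlt) := by
    refine E_le fun j hj => ?_
    rw [MulAction.mem_stabilizer_iff]
    unfold ee
    rw [pm_smul_st (es_valid j (by omega)), (es_oct j (by omega)).2]
  exact MulAction.mem_stabilizer_iff.1 (h1 hx)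

theorem st_dlt : st dlt = (st oct0)ᶜ := by rw [← dlt_eq, st_compl]

theorem E_dlt {n : ℕ} (hn : n ≤ 10) {x : Equiv.Perm GolayPt} (hx : x ∈ E ee n) {q : GolayPt} : x q ∈ st dlt ↔ q ∈ st dlt := by
  have h := E_smul_dlt hn hx
  constructor
  · intro h1
    rw [← h, smul_mem_smul_iff'] at h1; exact h1
  · intro h1
    rw [← h, smul_mem_smul_iff']; exact h1

theorem E4_fix {x : Equiv.Perm GolayPt} (hx : x ∈ E ee 4) : Fixes x oct0 := by
  let D : Subgroup (Equiv.Perm GolayPt) :=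
    { carrier := {x | Fixes x oct0}
      one_mem' := fun p _ => rfl
      mul_mem' := fun {a b} ha hb p hp => by
        show a (b p) = p
        rw [hb p hp, ha p hp]
      inv_mem' := fun {a} ha p hp => by
        rw [Equiv.Perm.inv_eq_iff_eq]; exact (ha p hp).symm }
  have h1 : E ee 4 ≤ D := E_le fun i hi => by
    show Fixes (ee i) oct0
    exact (fixesB_iff (es_valid i (by omega)) oct0).1 (es_fix i hi)
  exact h1 hx

theorem mem_E4 {x : Equiv.Perm GolayPt} (hx : x ∈ M24) (hf : Fixes x oct0) : x ∈ E ee 4 := by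
  have h1 := ncard_fixOct
  have h2 : (E ee 4 : Set (Equiv.Perm GolayPt)) ⊆ {g | g ∈ M24 ∧ Fixes g oct0} :=
    fun y hy => ⟨E_le_M24 (by omega) hy, E4_fix hy⟩
  have h3 : (E ee 4 : Set (Equiv.Perm GolayPt)) = {g | g ∈ M24 ∧ Fixes g oct0} := by
    refine Set.eq_of_subset_of_ncard_le h2 ?_
    rw [h1]
    have h4 := pce.card (show 4 ≤ 10 by omega)
    have h5 : (E ee 4 : Set (Equiv.Perm GolayPt)).ncard = Nat.card (E ee 4) := rfl
    rw [h5, h4]
    norm_num
  have h4 : x ∈ {g | g ∈ M24 ∧ Fixes g oct0} := ⟨hx, hf⟩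
  rw [← h3] at h4
  exact h4

theorem p0_dlt : pt 4 ∈ st dlt := by rw [mem_st, ix_pt (by norm_num)]; decide +kernel

theorem trans_dlt {q : GolayPt} (hq : q ∈ st dlt) : ∃ v ∈ E ee 4, v (pt 4) = q := by
  rw [mem_st] at hq
  have h1 := cv_ok (ix q) (ix_lt q) hq
  obtain ⟨h2, h3⟩ := pmwc (cv.getD (ix q) 0) (show 4 ≤ 10 by omega)
  refine ⟨_, h3, ?_⟩
  rw [pm_pt h2 (by norm_num), h1, pt_ix]

theorem uni' : Uni ee 10 4 (pm sc) := uni (by omega) le_rfl

/-- elements commuting with the bottom group and preserving the large orbit -/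
theorem mem_of_cent {g : Equiv.Perm GolayPt} (hg : g ∈ M24) (hc : ∀ x ∈ E ee 4, g * x = x * g) (hp : g (pt 4) ∈ st dlt) : g ∈ E ee 4 := by
  obtain ⟨w, hw, hwp⟩ := trans_dlt hp
  have h1 : ∀ q ∈ st dlt, g q = w q := by
    intro q hq
    obtain ⟨v, hv, rfl⟩ := trans_dlt hq
    calc g (v (pt 4)) = (g * v) (pt 4) := rfl
      _ = v (g (pt 4)) := by rw [hc v hv]; rfl
      _ = (v * w) (pt 4) := by rw [← hwp]; rfl
      _ = w (v (pt 4)) := by rw [uni'.ab hv hw]; rfl
  have h2 : w⁻¹ * g = 1 := by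
    refine certOK_spec (I := []) (M24.mul_mem (M24.inv_mem (E_le_M24 (by omega) hw)) hg) (fun B hB => absurd hB (by simp)) crt (F := dlt) ?_ crt_ok
    intro q hq
    show w⁻¹ (g q) = q
    rw [h1 q hq, inv_app]
  have h3 : g = w := by
    rw [inv_mul_eq_one] at h2; exact h2.symm
  rw [h3]; exact hw

theorem conj_inv_mem {P : Type*} [Group P] [Finite P] {H : Subgroup P} {g : P} (h : ∀ x ∈ H, g * x * g⁻¹ ∈ H) :
    ∀ x ∈ H, g⁻¹ * x * g ∈ H := by
  have hpow : ∀ k : ℕ, ∀ x ∈ H, g ^ k * x * (g ^ k)⁻¹ ∈ H := by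
    intro k
    induction k with
    | zero => intro x hx; rw [pow_zero, one_mul, inv_one, mul_one]; exact hx
    | succ k ih =>
      intro x hx
      have h1 := h _ (ih x hx)
      have e1 : g * (g ^ k * x * (g ^ k)⁻¹) * g⁻¹ = g ^ (k + 1) * x * (g ^ (k + 1))⁻¹ := by rw [pow_succ']; group
      rwa [e1] at h1
  intro x hx
  have h1 := hpow (orderOf g - 1) x hx
  rw [← inv_eq_pow', inv_inv] at h1
  exact h1

/-- odd elements normalizing the Sylow subgroup are trivial -/
theorem odd_norm {n : ℕ} (h7 : 7 ≤ n) (hn : n ≤ 10) {g : Equiv.Perm GolayPt} (hg : g ∈ M24) (hgS : ∀ x ∈ E ee n, g * x * g⁻¹ ∈ E ee n)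
    (ho : ¬ 2 ∣ orderOf g) : g = 1 := by
  -- the large orbit is preserved
  have hd : ∀ q ∈ st dlt, g q ∈ st dlt := by
    by_contra hne
    push Not at hne
    obtain ⟨q, hq, hgq⟩ := hne
    have h1 : ∀ r ∈ st dlt, g r ∈ st oct0 := by
      intro r hr
      obtain ⟨v, hv, hvr⟩ := trans_dlt hr
      obtain ⟨w, hw, hwq⟩ := trans_dlt hq
      have h2 : g r = (g * (v * w⁻¹) * g⁻¹) (g q) := by
        rw [← hvr, ← hwq]
        show g (v (pt 4)) = g (v (w⁻¹ (g⁻¹ (g (w (pt 4))))))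
        rw [inv_app, inv_app]
      have h3 := hgS _ (E_mono (show 4 ≤ n by omega) (Subgroup.mul_mem _ hv (Subgroup.inv_mem _ hw)))
      have h4 := (E_dlt hn h3 (q := g q)).not.2 hgq
      rw [← h2, st_dlt, Finset.mem_compl, not_not] at h4
      exact h4
    have h2 : ((st dlt).image g).card ≤ (st oct0).card := Finset.card_le_card (by
      intro y hy
      obtain ⟨r, hr, rfl⟩ := Finset.mem_image.1 hy
      exact h1 r hr)
    rw [Finset.card_image_of_injective _ g.injective, card_st, card_st, pc_dlt.1, pc_dlt.2] at h2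
    omega
  have hsm : g • st dlt = st dlt := by
    apply Finset.eq_of_subset_of_card_le
    · intro y hy
      rw [mem_smul_iff] at hy
      have := hd _ hy
      rwa [Equiv.apply_symm_apply] at this
    · rw [Finset.card_smul_finset]
  have hoc : ∀ q ∈ st oct0, g⁻¹ q ∈ st oct0 := by
    intro q hq
    by_contra h1
    have h2 : g⁻¹ q ∈ st dlt := by rw [st_dlt, Finset.mem_compl]; exact h1
    have h3 := hd _ h2
    rw [app_inv, st_dlt, Finset.mem_compl] at h3
    exact h3 hq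
  have hV : ∀ x ∈ E ee 4, g * x * g⁻¹ ∈ E ee 4 := by
    intro x hx
    have h1 := hgS x (E_mono (show 4 ≤ n by omega) hx)
    refine mem_E4 (E_le_M24 hn h1) ?_
    intro q hq
    show g (x (g⁻¹ q)) = q
    rw [E4_fix hx _ (hoc q hq), app_inv]
  have h1 := (uni h7 hn).norm (pce' hn) (conj_inv_mem hgS) hV
  have h2 := (uni h7 hn).cent (pce' hn) ho h1
  have h3 := mem_of_cent hg h2 (hd _ p0_dlt)
  have h4 := uni'.sq h3
  have h5 : orderOf g ∣ 2 := orderOf_dvd_of_pow_eq_one (by rw [pow_two]; exact h4)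
  rcases (Nat.dvd_prime Nat.prime_two).1 h5 with h6 | h6
  · exact orderOf_eq_one_iff.1 h6
  · exact absurd (dvd_of_eq h6.symm) ho

/-- the central involution -/
theorem central_eq {n : ℕ} (h7 : 7 ≤ n) (hn : n ≤ 10) {z : Equiv.Perm GolayPt} (hz : z ∈ E ee n) (hc : ∀ s ∈ E ee n, s * z = z * s)
    (h1 : z ≠ 1) : z = ee 0 := by
  have h2 : z ∈ E ee 4 := mem_of_cent (E_le_M24 hn hz) (fun x hx => (hc x (E_mono (by omega) hx)).symm) ((E_dlt hn hz).2 p0_dlt)
  have h3 := (uni h7 hn).regular (pce' hn) h2 (i := 0) (by omega) (by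
    rw [hc _ (uni h7 hn).hs]
    have : z⁻¹ * (z * pm sc * (pm sc)⁻¹) = 1 := by group
    rw [this]; exact Subgroup.one_mem _)
  rcases (pce.mem_succ (show 0 < 10 by omega)).1 h3 with h4 | h4
  · exact absurd (Subgroup.mem_bot.1 h4) h1
  · have h5 : (ee 0)⁻¹ * z = 1 := Subgroup.mem_bot.1 h4
    rw [inv_mul_eq_one] at h5; exact h5.symm

theorem main (G : Subgroup (Equiv.Perm GolayPt)) (hG : G ≤ M24) {n m : ℕ} (h7 : 7 ≤ n) (hn : n ≤ 10) (hcard : Nat.card G = 2 ^ n * m)
    (hm : ¬ 2 ∣ m) (cs : List ℕ) (hcs : ∀ i < n, pm (cs.getD i 0) ∈ G ∧ valid (cs.getD i 0) = true ∧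
      comp (cs.getD i 0) (es.getD 0 0) = comp (es.getD i 0) (cs.getD i 0)) (he : ∀ i < n, ee i ∈ G)
    (S : Sylow 2 G) : (groupFusionSystem (S : Subgroup G)).IsSimple 2 := by
  refine simple_sub (p := 2) G (E ee n) (E_le he) (k := n) (m := m) (by omega) (pce.card hn) hcard hm ?_ ?_ S
  · intro T hT hsc ⟨z, hz, hz1, hz2⟩
    have h1 : z = ee 0 := central_eq h7 hn (hT hz) hz2 (by rintro rfl; rw [orderOf_one] at hz1; omega)
    subst h1
    refine E_le fun i hi => ?_
    obtain ⟨h3, h4, h5⟩ := hcs i hi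
    have h6 := congrArg pm h5
    rw [pm_comp h4 (es_valid 0 (by omega)), pm_comp (es_valid i (by omega)) h4] at h6
    have h7 : pm (cs.getD i 0) * ee 0 * (pm (cs.getD i 0))⁻¹ = ee i := by
      unfold ee
      rw [h6]; group
    have h8 := hsc _ hz _ h3 (by rw [h7]; exact e_mem hi)
    rwa [h7] at h8
  · intro g hg hgS ho x hx
    rw [odd_norm h7 hn (hG hg) hgS ho, one_mul, mul_one]

theorem cs24_ok : ∀ i < 10, pres (cs24.getD i 0) = true ∧
      comp (cs24.getD i 0) (es.getD 0 0) = comp (es.getD i 0) (cs24.getD i 0) := by decide +kernel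

theorem cs22_ok : ∀ i < 7, pres (cs22.getD i 0) = true ∧
      comp (cs22.getD i 0) (es.getD 0 0) = comp (es.getD i 0) (cs22.getD i 0) ∧ img (cs22.getD i 0) 23 = 23 ∧ img (cs22.getD i 0) 0 = 0 := by
  decide +kernel

theorem es22_ok : ∀ i < 7, img (es.getD i 0) 23 = 23 ∧ img (es.getD i 0) 0 = 0 := by
  decide +kernel

theorem m24_simple (S : Sylow 2 M24) : (groupFusionSystem (S : Subgroup M24)).IsSimple 2 :=
  main M24 le_rfl (n := 10) (m := 239085) (by omega) le_rfl (by rw [card_M24]; norm_num) (by norm_num) cs24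
    (fun i hi => ⟨pm_mem_M24 (cs24_ok i hi).1, pres_valid (cs24_ok i hi).1, (cs24_ok i hi).2⟩) (fun i hi => ee_mem hi) S

theorem mem_m22 {c : ℕ} (h : pres c = true) (h1 : img c 23 = 23) (h2 : img c 0 = 0) : pm c ∈ m22 := by
  refine ⟨⟨pm_mem_M24 h, ?_⟩, ?_⟩
  · exact (pm_mem_stab (pres_valid h) (by norm_num)).1 (by rw [h1]; rfl)
  · exact (pm_mem_stab (pres_valid h) (by norm_num)).1 (by rw [h2]; rfl)

theorem mem_m23 {c : ℕ} (h : pres c = true) (h1 : img c 23 = 23) : pm c ∈ m23 :=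
  ⟨pm_mem_M24 h, (pm_mem_stab (pres_valid h) (by norm_num)).1 (by rw [h1]; rfl)⟩

theorem m22_simple (S : Sylow 2 m22) : (groupFusionSystem (S : Subgroup m22)).IsSimple 2 :=
  main m22 (fun x hx => hx.1.1) (n := 7) (m := 3465) le_rfl (by omega) (by rw [card_m22]; norm_num) (by norm_num) cs22
    (fun i hi => ⟨mem_m22 (cs22_ok i hi).1 (cs22_ok i hi).2.2.1 (cs22_ok i hi).2.2.2, pres_valid (cs22_ok i hi).1, (cs22_ok i hi).2.1⟩)
    (fun i hi => mem_m22 (es_pres i (by omega)) (es22_ok i hi).1 (es22_ok i hi).2) S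

theorem m23_simple (S : Sylow 2 m23) : (groupFusionSystem (S : Subgroup m23)).IsSimple 2 :=
  main m23 (fun x hx => hx.1) (n := 7) (m := 79695) le_rfl (by omega) (by rw [card_m23]; norm_num) (by norm_num) cs22
    (fun i hi => ⟨mem_m23 (cs22_ok i hi).1 (cs22_ok i hi).2.2.1, pres_valid (cs22_ok i hi).1, (cs22_ok i hi).2.1⟩)
    (fun i hi => mem_m23 (es_pres i (by omega)) (es22_ok i hi).1) S

end Cfsg.Agent.H8.MatB
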