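import Mathlib

set_option autoImplicit false

/-! Data for Sylow 2-subgroups of the small Mathieu groups. -/

namespace Cfsg.Agent.H8.MatData2

def es11 : List ℕ := [0xbae957b6289ba44b1cd0524ac18820, 0x8aa6fa22f2a96093ac8db31c618820, 0x2d0eab11c95dd90abe469b62810c20, 0x8da6fac2f2a390c59ccd524a410c20]
def sq11 : List ℕ := [0, 1, 2, 0]
def cj11 : List (List ℕ) := [[], [1], [1, 2], [1, 3, 6]]
def kn11 : List ℕ := [0xbae957b6289ba44b1cd0524ac18820, 0x8da6fac2f2a390c59ccd524a410c20, 0xb9eb47b6309964652c88b31c910c20, 0x89df3ac2eda150655992591c918820, 0x8aa6fa22f2a96093ac8db31c618820, 0x752cb3a4a455cd0acdac7ca2818820, 0x2d0eab11c95dd90abe469b62810c20]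
def km11 : List ℕ := [1, 8, 10, 3, 2, 14, 4]
def pg11 : List (ℕ × ℕ × ℕ) := [(0, 0, 0xb5eb3a2170795a38a8d23a5c261020), (0, 0, 0xa3ac75b2a4544c32ce497b6e282020), (1, 2, 1), (1, 3, 0), (0, 4, 0x2ceb4b36295ba4c79e06522e418440), (1, 5, 1)]
def ix11 : List ℕ := [0, 4, 6, 1]
def es12 : List ℕ := [0x5aaaf74a24a4d2cbd9a238cb032020, 0x55eb37b22375112b2c493c0a623401, 0xb2cb37c8e37504c55d0d8c2a622420, 0x9d0b7502225d88173e063a6a868e4c, 0x73e36bcaad52c8c9d206288e940c20, 0x5daae7b0e39d132ba9a8890a680820]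
def sq12 : List ℕ := [0, 1, 1, 2, 1, 0]
def cj12 : List (List ℕ) := [[], [1], [1, 2], [1, 2, 5], [1, 2, 5, 12], [1, 3, 5, 11, 20]]
def kn12 : List ℕ := [0x5aaaf74a24a4d2cbd9a238cb032020, 0x5daae7b0e39d132ba9a8890a680820, 0x52cb4732247cd12b5c4d39ab01a420, 0x5d8b3a4a2673d2cba9a83c2a320801, 0xba8f4704b07cd205d9a8a8e2430a4c, 0x55caea48e69bd0cb2c49892a383420, 0x52e2e786a69d040b5d092c0e32364c, 0x73cea5b0a9b5c929d206aa22d10c01, 0x55eb37b22375112b2c493c0a623401, 0xb2cb37c8e37504c55d0d8c2a622420, 0x9bcf7b4aa25aa0c750862b62848c01, 0x9d0b7502225d88173e063a6a868e4c, 0x9bcf7b4aa25aa0c750862b62848c01, 0x73e36bcaad52c8c9d206288e940c20]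
def km12 : List ℕ := [1, 32, 37, 38, 63, 5, 58, 22, 2, 4, 51, 8, 51, 16]
def pg12 : List (ℕ × ℕ × ℕ) := [(0, 0, 0x9bacb38ab2bc4c87d0902b54c48c20), (0, 0, 0x9a8f6286295d50375db2a11e2830c0), (0, 0, 0xa3ecb2a0e0bd6029b8c38a5416924c), (0, 0, 0xaba91b116c2a9283cdb279ae018602), (1, 1, 2), (1, 5, 4), (0, 6, 0x5d4b671222bbd013cd92a0d50499a0), (1, 3, 2), (1, 0, 5), (1, 2, 7), (1, 10, 4), (1, 2, 7), (1, 12, 3)]
def ix12 : List ℕ := [0, 8, 9, 11, 13, 1]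

end Cfsg.Agent.H8.MatData2
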