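import Mathlib
import Cfsg.Agent.H8.MatB
import Cfsg.Agent.H8.MatData2
import Cfsg.Agent.Lib.Golay.SimpleD


set_option autoImplicit false
set_option linter.all false

/-! Sylow 2-subgroups of the small Mathieu groups. -/

namespace Cfsg.Agent.H8.MatC

open Cfsg Cfsg.Agent.Lib.Golay Cfsg.Agent.H8.MatA Cfsg.Agent.H8.MatB Cfsg.Agent.H8.MatData2
open scoped Pointwise

/-! ### general lemmas -/

section gen

variable {P : Type*} [Group P] {e : ℕ → P}

theorem pc_of_step {n : ℕ} (hsq : ∀ i < n, e i * e i ∈ E e i) (hcj : ∀ i < n, ∀ j < i, e i * e j * (e i)⁻¹ ∈ E e i)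
    (hnm : ∀ i < n, PC e i → e i ∉ E e i) : PC e n := by
  have key : ∀ k ≤ n, PC e k := by
    intro k
    induction k with
    | zero => intro _; exact ⟨fun i hi => by omega, fun i hi => by omega, fun i hi => by omega⟩
    | succ k ih =>
      intro hk
      have ih := ih (by omega)
      refine ⟨fun i hi => hsq i (by omega), fun i hi => hcj i (by omega), fun i hi => ?_⟩
      by_cases h : i = k
      · subst h; exact hnm i (by omega) ih
      · exact ih.nm i (by omega)
  exact key n le_rfl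

theorem inv_chain {n : ℕ} {g : P} (step : ∀ i < n, (∀ x ∈ E e i, g * x * g⁻¹ ∈ E e i) → g * e i * g⁻¹ ∈ E e (i + 1)) :
    ∀ i ≤ n, ∀ x ∈ E e i, g * x * g⁻¹ ∈ E e i := by
  intro i
  induction i with
  | zero =>
    intro _ x hx
    have : x = 1 := Subgroup.mem_bot.1 hx
    rw [this, mul_one, mul_inv_cancel]; exact Subgroup.one_mem _
  | succ i ih =>
    intro hi
    have ih := ih (by omega)
    have h1 : E e (i + 1) ≤ (E e (i + 1)).comap (MulAut.conj g).toMonoidHom := by
      refine sup_le (fun x hx => E_le_succ i (ih x hx)) ?_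
      rw [Subgroup.zpowers_le]
      exact step i (by omega) ih
    exact fun x hx => h1 hx

/-- odd elements stabilizing the chain centralize it -/
theorem cent_chain [Finite P] {n : ℕ} (hpc : PC e n) {g : P} (ho : ¬ 2 ∣ orderOf g)
    (hgE : ∀ i ≤ n, ∀ x ∈ E e i, g * x * g⁻¹ ∈ E e i) : ∀ x ∈ E e n, g * x = x * g := by
  have hpow : ∀ k : ℕ, ∀ i ≤ n, ∀ x ∈ E e i, g ^ k * x * (g ^ k)⁻¹ ∈ E e i := by
    intro k
    induction k with
    | zero => intro i _ x hx; rw [pow_zero, one_mul, inv_one, mul_one]; exact hx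
    | succ k ih =>
      intro i hi x hx
      have h1 := hgE i hi _ (ih i hi x hx)
      have e1 : g * (g ^ k * x * (g ^ k)⁻¹) * g⁻¹ = g ^ (k + 1) * x * (g ^ (k + 1))⁻¹ := by rw [pow_succ']; group
      rwa [e1] at h1
  have key : ∀ i ≤ n, ∀ x ∈ E e i, g * x = x * g := by
    intro i
    induction i with
    | zero =>
      intro _ x hx
      have : x = 1 := Subgroup.mem_bot.1 hx
      rw [this, mul_one, one_mul]
    | succ i ih =>
      intro hi x hx
      by_cases hxi : x ∈ E e i
      · exact ih (by omega) x hxi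
      · have hy := hgE (i + 1) hi x hx
        have hyi : g * x * g⁻¹ ∉ E e i := by
          intro h1
          have h2 := hpow (orderOf g - 1) i (by omega) _ h1
          rw [← inv_eq_pow'] at h2
          have e1 : g⁻¹ * (g * x * g⁻¹) * g⁻¹⁻¹ = x := by group
          rw [e1] at h2; exact hxi h2
        have h1 : x⁻¹ * (g * x * g⁻¹) ∈ E e i := by
          rcases (hpc.mem_succ (show i < n by omega)).1 hx with h2 | h2
          · exact absurd h2 hxi
          rcases (hpc.mem_succ (show i < n by omega)).1 hy with h3 | h3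
          · exact absurd h3 hyi
          have h4 := Subgroup.mul_mem _ (Subgroup.inv_mem _ h2) h3
          have e1 : ((e i)⁻¹ * x)⁻¹ * ((e i)⁻¹ * (g * x * g⁻¹)) = x⁻¹ * (g * x * g⁻¹) := by group
          rwa [e1] at h4
        set a := x⁻¹ * (g * x * g⁻¹) with ha
        have hga := ih (by omega) a h1
        have hgx : g * x = x * a * g := by rw [ha]; group
        have hk : ∀ k : ℕ, g ^ k * x = x * a ^ k * g ^ k := by
          intro k
          induction k with
          | zero => simp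
          | succ k ihk =>
            have hgak : g * a ^ k = a ^ k * g := (Commute.pow_right (show Commute g a from hga) k).eq
            calc g ^ (k + 1) * x = g * (g ^ k * x) := by rw [pow_succ']; group
              _ = g * x * a ^ k * g ^ k := by rw [ihk]; group
              _ = x * a * (g * a ^ k) * g ^ k := by rw [hgx]; group
              _ = x * (a * a ^ k) * (g * g ^ k) := by rw [hgak]; group
              _ = x * a ^ (k + 1) * g ^ (k + 1) := by rw [pow_succ' a, pow_succ' g]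
        have h5 := hk (orderOf g)
        rw [pow_orderOf_eq_one, one_mul, mul_one] at h5
        have h6 : a ^ orderOf g = 1 := by
          have : x * 1 = x * a ^ orderOf g := by rw [mul_one]; exact h5
          exact (mul_left_cancel this).symm
        have h7 : a = 1 := by
          have h8 : orderOf a ∣ 2 ^ i := by
            have h9 := Subgroup.orderOf_dvd_natCard (E e i) h1
            rwa [hpc.card (by omega)] at h9
          have h9 : orderOf a ∣ orderOf g := orderOf_dvd_of_pow_eq_one h6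
          obtain ⟨k, -, hk⟩ := (Nat.dvd_prime_pow Nat.prime_two).1 h8
          rcases Nat.eq_zero_or_pos k with h0 | h0
          · rw [h0, pow_zero] at hk
            exact orderOf_eq_one_iff.1 hk
          · exact absurd ((hk ▸ dvd_pow_self 2 h0.ne').trans h9) ho
        rw [h7, mul_one] at hgx
        exact hgx
  exact key n le_rfl

end gen

/-! ### codes -/

/-- two codes are different somewhere -/
def diff (c d : ℕ) : Bool := (List.range 24).any (fun j => img c j != img d j)

theorem ne_of_diff {c d : ℕ} (hc : valid c = true) (hd : valid d = true) (h : diff c d = true) : pm c ≠ pm d := by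
  intro he
  unfold diff at h
  rw [List.any_eq_true] at h
  obtain ⟨j, hj, h1⟩ := h
  rw [List.mem_range] at hj
  rw [bne_iff_ne] at h1
  apply h1
  have h2 := congrArg (fun f : Equiv.Perm GolayPt => f (pt j)) he
  have h2 : pm c (pt j) = pm d (pt j) := h2
  rw [pm_pt hc hj, pm_pt hd hj] at h2
  exact pt_inj (valid_lt hc hj) (valid_lt hd hj) h2

section codes

variable {l : List ℕ} {n : ℕ}

/-- the elements attached to a list of codes -/
noncomputable def el (l : List ℕ) (i : ℕ) : Equiv.Perm GolayPt := pm (l.getD i 0)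

/-- boolean check of the polycyclic relations -/
def chk (l : List ℕ) (sq : List ℕ) (cj : List (List ℕ)) (n : ℕ) : Bool :=
  (List.range n).all (fun i => valid (l.getD i 0) && (comp (l.getD i 0) (l.getD i 0) == wc l (sq.getD i 0) i) &&
    (List.range i).all (fun j => comp (l.getD i 0) (l.getD j 0) == comp (wc l ((cj.getD i []).getD j 0) i) (l.getD i 0)) &&
    (List.range (2 ^ i)).all (fun m => diff (wc l m i) (l.getD i 0)))

theorem wc_mem (hv : ∀ i < n, valid (l.getD i 0) = true) (m : ℕ) {k : ℕ} (hk : k ≤ n) :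
    valid (wc l m k) = true ∧ pm (wc l m k) ∈ E (el l) k := by
  obtain ⟨h1, h2⟩ := wc_spec hv m k hk
  refine ⟨h1, ?_⟩
  rw [h2]; exact wd_mem m k

theorem wc_succ (m k : ℕ) : wc l m (k + 1) = if m.testBit k then comp (l.getD k 0) (wc l m k) else wc l m k := rfl

theorem wc_congr (m m' : ℕ) (k : ℕ) (h : ∀ i < k, m.testBit i = m'.testBit i) : wc l m k = wc l m' k := by
  induction k with
  | zero => rfl
  | succ k ih =>
    rw [wc_succ, wc_succ, h k (by omega), ih fun i hi => h i (by omega)]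

theorem enum (hv : ∀ i < n, valid (l.getD i 0) = true) (hpc : PC (el l) n) : ∀ k ≤ n, ∀ x ∈ E (el l) k, ∃ m < 2 ^ k, x = pm (wc l m k) := by
  intro k
  induction k with
  | zero => intro _ x hx; exact ⟨0, by norm_num, by rw [Subgroup.mem_bot.1 hx]; exact pm_idc.symm⟩
  | succ k ih =>
    intro hk x hx
    rcases (hpc.mem_succ (show k < n by omega)).1 hx with h1 | h1
    · obtain ⟨m, hm, rfl⟩ := ih (by omega) x h1
      refine ⟨m, by rw [pow_succ]; omega, ?_⟩
      rw [wc_succ, if_neg]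
      rw [Nat.testBit_lt_two_pow hm]; decide
    · obtain ⟨m, hm, h2⟩ := ih (by omega) _ h1
      have hb : ∀ i < k, (2 ^ k + m).testBit i = m.testBit i := fun i hi => Nat.testBit_two_pow_add_gt hi m
      refine ⟨2 ^ k + m, by rw [pow_succ]; omega, ?_⟩
      rw [wc_succ, if_pos, wc_congr _ m k hb, pm_comp (hv k (by omega)) (wc_mem hv m (by omega)).1, ← h2]
      · show x = el l k * ((el l k)⁻¹ * x)
        rw [mul_inv_cancel_left]
      · rw [Nat.testBit_two_pow_add_eq, Nat.testBit_lt_two_pow hm]; rfl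

theorem pc_of_chk {sq : List ℕ} {cj : List (List ℕ)} (h : chk l sq cj n = true) :
    (∀ i < n, valid (l.getD i 0) = true) ∧ PC (el l) n := by
  unfold chk at h
  rw [List.all_eq_true] at h
  simp only [Bool.and_eq_true, beq_iff_eq, List.all_eq_true, List.mem_range] at h
  have hv : ∀ i < n, valid (l.getD i 0) = true := fun i hi => (h i hi).1.1.1
  refine ⟨hv, pc_of_step ?_ ?_ ?_⟩
  · intro i hi
    have h1 := (h i hi).1.1.2
    show pm _ * pm _ ∈ _
    rw [← pm_comp (hv i hi) (hv i hi), h1]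
    exact (wc_mem hv _ (by omega)).2
  · intro i hi j hj
    have h1 := (h i hi).1.2 j hj
    have h4 := wc_mem hv ((cj.getD i []).getD j 0) (show i ≤ n by omega)
    have h6 := congrArg pm h1
    rw [pm_comp (hv i hi) (hv j (by omega)), pm_comp h4.1 (hv i hi)] at h6
    have h7 : el l i * el l j * (el l i)⁻¹ = pm (wc l ((cj.getD i []).getD j 0) i) := by
      unfold el
      rw [h6]; group
    rw [h7]; exact h4.2
  · intro i hi hpc hmem
    obtain ⟨m, hm, h1⟩ := enum (fun j hj => hv j (by omega)) hpc i le_rfl _ hmem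
    have h2 := (h i hi).2 m (by omega)
    exact ne_of_diff (wc_mem hv m (by omega)).1 (hv i hi) h2 h1.symm

/-- running a straight-line program of products and conjugations -/
theorem slp {kn : List ℕ} {pg : List (ℕ × ℕ × ℕ)} {S T : Subgroup (Equiv.Perm GolayPt)} {G : Subgroup (Equiv.Perm GolayPt)}
    (hT : ∀ x ∈ T, ∀ g ∈ G, g * x * g⁻¹ ∈ S → g * x * g⁻¹ ∈ T) (h0 : pm (kn.getD 0 0) ∈ T)
    (hS : ∀ k ≤ pg.length, pm (kn.getD k 0) ∈ S)
    (hk : ∀ k < pg.length, ((pg.getD k (0, 0, 0)).1 = 0 ∧ (pg.getD k (0, 0, 0)).2.1 ≤ k ∧ valid (pg.getD k (0, 0, 0)).2.2 = true ∧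
        pm (pg.getD k (0, 0, 0)).2.2 ∈ G ∧ valid (kn.getD (pg.getD k (0, 0, 0)).2.1 0) = true ∧ valid (kn.getD (k + 1) 0) = true ∧
        comp (pg.getD k (0, 0, 0)).2.2 (kn.getD (pg.getD k (0, 0, 0)).2.1 0) = comp (kn.getD (k + 1) 0) (pg.getD k (0, 0, 0)).2.2) ∨
      ((pg.getD k (0, 0, 0)).2.1 ≤ k ∧ (pg.getD k (0, 0, 0)).2.2 ≤ k ∧ valid (kn.getD (pg.getD k (0, 0, 0)).2.1 0) = true ∧
        valid (kn.getD (pg.getD k (0, 0, 0)).2.2 0) = true ∧
        comp (kn.getD (pg.getD k (0, 0, 0)).2.1 0) (kn.getD (pg.getD k (0, 0, 0)).2.2 0) = kn.getD (k + 1) 0)) :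
    ∀ k ≤ pg.length, pm (kn.getD k 0) ∈ T := by
  intro k
  induction k using Nat.strong_induction_on with
  | _ k ih =>
  intro hkl
  rcases Nat.eq_zero_or_pos k with h | h
  · rw [h]; exact h0
  · obtain ⟨k, rfl⟩ : ∃ k', k = k' + 1 := ⟨k - 1, by omega⟩
    rcases hk k (by omega) with ⟨-, h1, h2, h3, h4, h5, h6⟩ | ⟨h1, h2, h3, h4, h5⟩
    · have h7 := ih _ (show (pg.getD k (0, 0, 0)).2.1 < k + 1 by omega) (by omega)
      have h8 := congrArg pm h6
      rw [pm_comp h2 h4, pm_comp h5 h2] at h8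
      have h9 : pm (pg.getD k (0, 0, 0)).2.2 * pm (kn.getD (pg.getD k (0, 0, 0)).2.1 0) * (pm (pg.getD k (0, 0, 0)).2.2)⁻¹ = pm (kn.getD (k + 1) 0) := by
        rw [h8]; group
      have h10 := hT _ h7 _ h3 (by rw [h9]; exact hS _ hkl)
      rwa [h9] at h10
    · have h6 := ih _ (show (pg.getD k (0, 0, 0)).2.1 < k + 1 by omega) (by omega)
      have h7 := ih _ (show (pg.getD k (0, 0, 0)).2.2 < k + 1 by omega) (by omega)
      rw [← h5, pm_comp h3 h4]
      exact T.mul_mem h6 h7

theorem wc_low {m k : ℕ} (hm : m < 2 ^ k) : ∀ n, k ≤ n → wc l m n = wc l m k := by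
  intro n
  induction n with
  | zero => intro hk; rw [Nat.le_zero.1 hk]
  | succ n ih =>
    intro hk
    rcases Nat.lt_or_ge n k with h | h
    · rw [show n + 1 = k by omega]
    · rw [wc_succ, if_neg, ih h]
      rw [Nat.testBit_lt_two_pow (lt_of_lt_of_le hm (Nat.pow_le_pow_right (by norm_num) h))]; decide

theorem low_mem (hv : ∀ i < n, valid (l.getD i 0) = true) {m k : ℕ} (hk : k ≤ n) (hm : m < 2 ^ k) : pm (wc l m n) ∈ E (el l) k := by
  rw [wc_low hm n hk]; exact (wc_mem hv m hk).2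

/-- commuting up to the central involution with the generators -/
def com1 (l : List ℕ) (n c : ℕ) : Bool :=
  (List.range n).all (fun j => !(diff (comp (l.getD j 0) c) (comp c (l.getD j 0))) ||
    !(diff (comp (l.getD j 0) c) (comp (comp c (l.getD j 0)) (l.getD 0 0))))

/-- commuting with the generators -/
def com0 (l : List ℕ) (n c : ℕ) : Bool :=
  (List.range n).all (fun j => !(diff (comp (l.getD j 0) c) (comp c (l.getD j 0))))

theorem com0_of (hv : ∀ i < n, valid (l.getD i 0) = true) {c : ℕ} (hc : valid c = true)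
    (h : ∀ s ∈ E (el l) n, s * pm c = pm c * s) : com0 l n c = true := by
  unfold com0
  rw [List.all_eq_true]
  intro j hj
  rw [List.mem_range] at hj
  rw [Bool.not_eq_true']
  by_contra h1
  rw [Bool.not_eq_false] at h1
  have h2 := ne_of_diff (valid_comp (hv j hj) hc) (valid_comp hc (hv j hj)) h1
  rw [pm_comp (hv j hj) hc, pm_comp hc (hv j hj)] at h2
  exact h2 (h _ (e_mem hj))

theorem com1_of (hn : 0 < n) (hv : ∀ i < n, valid (l.getD i 0) = true) {c : ℕ} (hc : valid c = true)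
    (h : ∀ s ∈ E (el l) n, s * pm c = pm c * s ∨ s * pm c = pm c * s * el l 0) : com1 l n c = true := by
  unfold com1
  rw [List.all_eq_true]
  intro j hj
  rw [List.mem_range] at hj
  rw [Bool.or_eq_true, Bool.not_eq_true', Bool.not_eq_true']
  rcases h _ (e_mem (e := el l) hj) with h1 | h1
  · left
    by_contra h2
    rw [Bool.not_eq_false] at h2
    have h3 := ne_of_diff (valid_comp (hv j hj) hc) (valid_comp hc (hv j hj)) h2
    rw [pm_comp (hv j hj) hc, pm_comp hc (hv j hj)] at h3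
    exact h3 h1
  · right
    by_contra h2
    rw [Bool.not_eq_false] at h2
    have h3 := ne_of_diff (valid_comp (hv j hj) hc) (valid_comp (valid_comp hc (hv j hj)) (hv 0 hn)) h2
    rw [pm_comp (hv j hj) hc, pm_comp (valid_comp hc (hv j hj)) (hv 0 hn), pm_comp hc (hv j hj)] at h3
    exact h3 h1

/-- the centre, by computation -/
theorem central_E1 (hn : 1 ≤ n) (hv : ∀ i < n, valid (l.getD i 0) = true) (hpc : PC (el l) n)
    (hch : ∀ m < 2 ^ n, com0 l n (wc l m n) = true → m < 2) {x : Equiv.Perm GolayPt} (hx : x ∈ E (el l) n)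
    (hc : ∀ s ∈ E (el l) n, s * x = x * s) : x ∈ E (el l) 1 := by
  obtain ⟨m, hm, rfl⟩ := enum hv hpc n le_rfl x hx
  exact low_mem hv hn (hch m hm (com0_of hv (wc_mem hv m le_rfl).1 hc))

theorem mem_E1 {e : ℕ → Equiv.Perm GolayPt} {n : ℕ} (hn : 1 ≤ n) (hpc : PC e n) {x : Equiv.Perm GolayPt} (hx : x ∈ E e 1) : x = 1 ∨ x = e 0 := by
  rcases (hpc.mem_succ (show 0 < n by omega)).1 hx with h | h
  · exact Or.inl (Subgroup.mem_bot.1 h)
  · right
    have h1 : (e 0)⁻¹ * x = 1 := Subgroup.mem_bot.1 h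
    rw [inv_mul_eq_one] at h1; exact h1.symm

/-- conjugates of an element commuting modulo the centre -/
theorem com1_conj (hn : 1 ≤ n) (hv : ∀ i < n, valid (l.getD i 0) = true) (hpc : PC (el l) n) {g x : Equiv.Perm GolayPt}
    (hgS : ∀ x ∈ E (el l) n, g * x * g⁻¹ ∈ E (el l) n) (hz : g * el l 0 * g⁻¹ = el l 0) (hx : x ∈ E (el l) n)
    (hc : ∀ s ∈ E (el l) n, s * x = x * s ∨ s * x = x * s * el l 0) :
    ∃ m < 2 ^ n, g * x * g⁻¹ = pm (wc l m n) ∧ com1 l n (wc l m n) = true := by
  obtain ⟨m, hm, h1⟩ := enum hv hpc n le_rfl _ (hgS x hx)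
  refine ⟨m, hm, h1, com1_of (by omega) hv (wc_mem hv m le_rfl).1 ?_⟩
  intro s hs
  rw [← h1]
  rcases hc _ (conj_inv_mem hgS s hs) with h2 | h2
  · left
    calc s * (g * x * g⁻¹) = g * (g⁻¹ * s * g * x) * g⁻¹ := by group
      _ = g * (x * (g⁻¹ * s * g)) * g⁻¹ := by rw [h2]
      _ = _ := by group
  · right
    calc s * (g * x * g⁻¹) = g * (g⁻¹ * s * g * x) * g⁻¹ := by group
      _ = g * (x * (g⁻¹ * s * g) * el l 0) * g⁻¹ := by rw [h2]
      _ = g * x * g⁻¹ * s * (g * el l 0 * g⁻¹) := by group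
      _ = _ := by rw [hz]

/-- the commutation of a generator modulo the centre -/
theorem com1_gen (hv : ∀ i < n, valid (l.getD i 0) = true) (hpc : PC (el l) n) {k : ℕ} (hk : k < n)
    (hch : ∀ m < 2 ^ n, comp (wc l m n) (l.getD k 0) = comp (l.getD k 0) (wc l m n) ∨
      comp (wc l m n) (l.getD k 0) = comp (comp (l.getD k 0) (wc l m n)) (l.getD 0 0)) :
    ∀ s ∈ E (el l) n, s * el l k = el l k * s ∨ s * el l k = el l k * s * el l 0 := by
  intro s hs
  obtain ⟨m, hm, rfl⟩ := enum hv hpc n le_rfl s hs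
  have h1 := (wc_mem hv m le_rfl).1
  unfold el
  rcases hch m hm with h2 | h2
  · left; rw [← pm_comp h1 (hv k hk), h2, pm_comp (hv k hk) h1]
  · right; rw [← pm_comp h1 (hv k hk), h2, pm_comp (valid_comp (hv k hk) h1) (hv 0 (by omega)), pm_comp (hv k hk) h1]

end codes

/-! ### the group of degree 11 -/

theorem chk11 : chk es11 sq11 cj11 4 = true := by decide +kernel

theorem hv11 : ∀ i < 4, valid (es11.getD i 0) = true := (pc_of_chk chk11).1
theorem pc11 : PC (el es11) 4 := (pc_of_chk chk11).2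

theorem c11_central : ∀ m < 2 ^ 4, com0 es11 4 (wc es11 m 4) = true → m < 2 := by decide +kernel
theorem c11_com : ∀ m < 2 ^ 4, com1 es11 4 (wc es11 m 4) = true → m < 4 := by decide +kernel
theorem c11_gen : ∀ m < 2 ^ 4, comp (wc es11 m 4) (es11.getD 1 0) = comp (es11.getD 1 0) (wc es11 m 4) ∨
      comp (wc es11 m 4) (es11.getD 1 0) = comp (comp (es11.getD 1 0) (wc es11 m 4)) (es11.getD 0 0) := by decide +kernel
theorem c11_ord : ∀ m < 2 ^ 4, comp (comp (wc es11 m 4) (wc es11 m 4)) (comp (wc es11 m 4) (wc es11 m 4)) = idc ∨ m < 8 := by decide +kernel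
theorem c11_four : diff (comp (comp (es11.getD 2 0) (es11.getD 2 0)) (comp (es11.getD 2 0) (es11.getD 2 0))) idc = true := by decide +kernel
theorem c11_gens : ∀ i < 4, pres (es11.getD i 0) = true ∧ act (es11.getD i 0) dodU = dodU ∧ img (es11.getD i 0) 0 = 0 := by decide +kernel
theorem c11_slp : ∀ k < 6, ((pg11.getD k (0, 0, 0)).1 = 0 ∧ (pg11.getD k (0, 0, 0)).2.1 ≤ k ∧ pres (pg11.getD k (0, 0, 0)).2.2 = true ∧
        act (pg11.getD k (0, 0, 0)).2.2 dodU = dodU ∧ img (pg11.getD k (0, 0, 0)).2.2 0 = 0 ∧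
        valid (kn11.getD (pg11.getD k (0, 0, 0)).2.1 0) = true ∧ valid (kn11.getD (k + 1) 0) = true ∧
        comp (pg11.getD k (0, 0, 0)).2.2 (kn11.getD (pg11.getD k (0, 0, 0)).2.1 0) = comp (kn11.getD (k + 1) 0) (pg11.getD k (0, 0, 0)).2.2) ∨
      ((pg11.getD k (0, 0, 0)).2.1 ≤ k ∧ (pg11.getD k (0, 0, 0)).2.2 ≤ k ∧ valid (kn11.getD (pg11.getD k (0, 0, 0)).2.1 0) = true ∧
        valid (kn11.getD (pg11.getD k (0, 0, 0)).2.2 0) = true ∧
        comp (kn11.getD (pg11.getD k (0, 0, 0)).2.1 0) (kn11.getD (pg11.getD k (0, 0, 0)).2.2 0) = kn11.getD (k + 1) 0) := by decide +kernel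
theorem c11_km : ∀ k < 7, kn11.getD k 0 = wc es11 (km11.getD k 0) 4 := by decide +kernel
theorem c11_ix : ∀ i < 4, ix11.getD i 0 < 7 ∧ kn11.getD (ix11.getD i 0) 0 = es11.getD i 0 := by decide +kernel

theorem mem_m12 {c : ℕ} (h : pres c = true) (h1 : act c dodU = dodU) : pm c ∈ m12 :=
  ⟨pm_mem_M24 h, (pm_mem_stabSet (pres_valid h) (by decide)).1 (by rw [h1]; exact beq_self_eq_true _)⟩

theorem mem_m11 {c : ℕ} (h : pres c = true) (h1 : act c dodU = dodU) (h2 : img c 0 = 0) : pm c ∈ m11 :=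
  ⟨mem_m12 h h1, (pm_mem_stab (pres_valid h) (by norm_num)).1 (by rw [h2]; rfl)⟩

theorem el11_mem : ∀ i < 4, el es11 i ∈ m11 := fun i hi => mem_m11 (c11_gens i hi).1 (c11_gens i hi).2.1 (c11_gens i hi).2.2

theorem conj_z {l : List ℕ} {n : ℕ} (hn : 1 ≤ n) (hpc : PC (el l) n) (hcen : ∀ x ∈ E (el l) n, (∀ s ∈ E (el l) n, s * x = x * s) → x ∈ E (el l) 1)
    (hz : ∀ s ∈ E (el l) n, s * el l 0 = el l 0 * s)
    {g : Equiv.Perm GolayPt} (hgS : ∀ x ∈ E (el l) n, g * x * g⁻¹ ∈ E (el l) n) : g * el l 0 * g⁻¹ = el l 0 := by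
  have h1 : g * el l 0 * g⁻¹ ∈ E (el l) 1 := by
    refine hcen _ (hgS _ (e_mem (by omega))) fun s hs => ?_
    have h2 := hz _ (conj_inv_mem hgS s hs)
    calc s * (g * el l 0 * g⁻¹) = g * (g⁻¹ * s * g * el l 0) * g⁻¹ := by group
      _ = g * (el l 0 * (g⁻¹ * s * g)) * g⁻¹ := by rw [h2]
      _ = _ := by group
  rcases mem_E1 hn hpc h1 with h2 | h2
  · exfalso
    have h3 : el l 0 = 1 := by
      have := congrArg (fun t => g⁻¹ * t * g) h2
      simpa [mul_assoc] using this
    exact hpc.nm 0 (by omega) (by rw [h3]; exact Subgroup.one_mem _)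
  · exact h2

theorem z11 : ∀ s ∈ E (el es11) 4, s * el es11 0 = el es11 0 * s := by
  intro s hs
  have h1 : E (el es11) 4 ≤ Subgroup.centralizer {el es11 0} := by
    refine E_le fun j hj => ?_
    rw [Subgroup.mem_centralizer_iff]
    intro y hy
    rw [Set.mem_singleton_iff] at hy
    subst hy
    have h2 : ∀ j < 4, comp (es11.getD 0 0) (es11.getD j 0) = comp (es11.getD j 0) (es11.getD 0 0) := by decide +kernel
    unfold el
    rw [← pm_comp (hv11 0 (by omega)) (hv11 j hj), h2 j hj, pm_comp (hv11 j hj) (hv11 0 (by omega))]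
  exact (Subgroup.mem_centralizer_iff.1 (h1 hs) _ rfl).symm

theorem four_conj {g x : Equiv.Perm GolayPt} : (g * x * g⁻¹) * (g * x * g⁻¹) * ((g * x * g⁻¹) * (g * x * g⁻¹)) = g * (x * x * (x * x)) * g⁻¹ := by group

theorem norm11 {g : Equiv.Perm GolayPt} (hgS : ∀ x ∈ E (el es11) 4, g * x * g⁻¹ ∈ E (el es11) 4) :
    ∀ i ≤ 4, ∀ x ∈ E (el es11) i, g * x * g⁻¹ ∈ E (el es11) i := by
  have hz := conj_z (by omega) pc11 (fun x hx hc => central_E1 (by omega) hv11 pc11 c11_central hx hc) z11 hgS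
  refine inv_chain ?_
  intro i hi ih
  interval_cases i
  · rw [hz]; exact e_mem (by omega)
  · obtain ⟨m, hm, h1, h2⟩ := com1_conj (by omega) hv11 pc11 hgS hz (e_mem (show 1 < 4 by omega)) (com1_gen hv11 pc11 (by omega) c11_gen)
    rw [h1]; exact low_mem hv11 (by omega) (c11_com m hm h2)
  · obtain ⟨m, hm, h1⟩ := enum hv11 pc11 4 le_rfl _ (hgS _ (e_mem (show 2 < 4 by omega)))
    have hw := (wc_mem hv11 m (le_refl 4)).1
    rw [h1]
    refine low_mem hv11 (by omega) ?_
    rcases c11_ord m hm with h2 | h2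
    · exfalso
      have h3 := congrArg pm h2
      rw [pm_comp (valid_comp hw hw) (valid_comp hw hw), pm_comp hw hw, pm_idc, ← h1, four_conj] at h3
      have h4 : el es11 2 * el es11 2 * (el es11 2 * el es11 2) = 1 := by
        have := congrArg (fun t => g⁻¹ * t * g) h3
        simpa [mul_assoc] using this
      have h5 := hv11 2 (by omega)
      have h6 := ne_of_diff (valid_comp (valid_comp h5 h5) (valid_comp h5 h5)) valid_idc c11_four
      rw [pm_comp (valid_comp h5 h5) (valid_comp h5 h5), pm_comp h5 h5, pm_idc] at h6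
      exact h6 h4
    · exact h2
  · exact hgS _ (e_mem (by omega))

theorem m11_simple (S : Sylow 2 m11) : (groupFusionSystem (S : Subgroup m11)).IsSimple 2 := by
  refine simple_sub (p := 2) m11 (E (el es11) 4) (E_le el11_mem) (k := 4) (m := 495) (by omega) (pc11.card le_rfl) (by rw [card_m11]; norm_num) (by norm_num) ?_ ?_ S
  · intro T hT hsc ⟨z, hz, hz1, hz2⟩
    have h1 := central_E1 (by omega) hv11 pc11 c11_central (hT hz) hz2
    have h2 : z = el es11 0 := by
      rcases mem_E1 (by omega) pc11 h1 with h | h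
      · rw [h, orderOf_one] at hz1; omega
      · exact h
    subst h2
    have h3 := slp (kn := kn11) (pg := pg11) (G := m11) hsc (by
        have := (c11_ix 0 (by omega)).2
        rw [show ix11.getD 0 0 = 0 from rfl] at this
        rw [this]; exact hz) (by
        intro k hk
        have hk' : k < 7 := lt_of_le_of_lt hk (by decide)
        rw [c11_km k hk']
        exact (wc_mem hv11 _ le_rfl).2) (by
        intro k hk
        have hk' : k < 6 := lt_of_lt_of_le hk (by decide)
        rcases c11_slp k hk' with ⟨a1, a2, a3, a4, a5, a6, a7, a8⟩ | h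
        · exact Or.inl ⟨a1, a2, pres_valid a3, mem_m11 a3 a4 a5, a6, a7, a8⟩
        · exact Or.inr h)
    refine E_le fun i hi => ?_
    have h4 := h3 (ix11.getD i 0) (by
      have := (c11_ix i hi).1
      have h5 : pg11.length = 6 := rfl
      omega)
    rw [(c11_ix i hi).2] at h4
    exact h4
  · intro g hg hgS ho x hx
    exact cent_chain pc11 ho (norm11 hgS) x hx

/-! ### the group of degree 12 -/

theorem chk12 : chk es12 sq12 cj12 6 = true := by decide +kernel

theorem hv12 : ∀ i < 6, valid (es12.getD i 0) = true := (pc_of_chk chk12).1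
theorem pc12 : PC (el es12) 6 := (pc_of_chk chk12).2

/-- the complementary dodecad -/
def dodUc : ℕ := 0xfacca0

/-- fixes a point inside the mask `a` and none inside the mask `b` -/
def fxp (a b c : ℕ) : Bool := (List.range 24).any (fun i => a.testBit i && img c i == i) &&
  (List.range 24).all (fun i => !(b.testBit i) || img c i != i)

def Fxp (a b : ℕ) (x : Equiv.Perm GolayPt) : Prop := (∃ p ∈ st a, x p = p) ∧ ∀ p ∈ st b, x p ≠ p

theorem fxp_iff {a b c : ℕ} (hc : valid c = true) : fxp a b c = true ↔ Fxp a b (pm c) := by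
  unfold fxp Fxp
  rw [Bool.and_eq_true, List.any_eq_true, List.all_eq_true]
  simp only [List.mem_range, Bool.and_eq_true, beq_iff_eq, Bool.or_eq_true, Bool.not_eq_true', bne_iff_ne]
  constructor
  · rintro ⟨⟨i, hi, h1, h2⟩, h3⟩
    refine ⟨⟨pt i, by rw [mem_st, ix_pt hi]; exact h1, by rw [pm_pt hc hi, h2]⟩, fun p hp hpp => ?_⟩
    rcases h3 (ix p) (ix_lt p) with h4 | h4
    · rw [mem_st] at hp; rw [hp] at h4; exact absurd h4 (by decide)
    · exact h4 (by rw [← ix_pm hc, hpp])
  · rintro ⟨⟨p, hp, h1⟩, h3⟩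
    refine ⟨⟨ix p, ix_lt p, mem_st.1 hp, by rw [← ix_pm hc, h1]⟩, fun i hi => ?_⟩
    by_cases hb : b.testBit i = true
    · right
      intro h4
      exact h3 (pt i) (by rw [mem_st, ix_pt hi]; exact hb) (by rw [pm_pt hc hi, h4])
    · left; simpa using hb

theorem Fxp.conj {a b : ℕ} {x g : Equiv.Perm GolayPt} (h : Fxp a b x) (ha : ∀ p ∈ st a, g p ∈ st a) (hb : ∀ p ∈ st b, g⁻¹ p ∈ st b) :
    Fxp a b (g * x * g⁻¹) := by
  obtain ⟨⟨p, hp, h1⟩, h2⟩ := h
  refine ⟨⟨g p, ha p hp, ?_⟩, fun q hq hqq => ?_⟩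
  · show g (x (g⁻¹ (g p))) = g p
    rw [inv_app, h1]
  · apply h2 _ (hb q hq)
    have h3 : g (x (g⁻¹ q)) = q := hqq
    have h4 := congrArg (fun t => g⁻¹ t) h3
    simp only [inv_app] at h4
    exact h4

theorem m12_U {g : Equiv.Perm GolayPt} (hg : g ∈ m12) : ∀ p ∈ st dodU, g p ∈ st dodU := by
  intro p hp
  have h1 := MulAction.mem_stabilizer_iff.1 hg.2
  rw [← h1, smul_mem_smul_iff']; exact hp

theorem m12_W {g : Equiv.Perm GolayPt} (hg : g ∈ m12) : ∀ p ∈ st dodUc, g p ∈ st dodUc := by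
  have e : st dodUc = (st dodU)ᶜ := by
    rw [← st_compl]
    have : dodU ^^^ 0xffffff = dodUc := by decide +kernel
    rw [this]
  intro p hp
  rw [e, Finset.mem_compl] at hp ⊢
  intro h1
  apply hp
  have h2 := MulAction.mem_stabilizer_iff.1 hg.2
  rw [← h2, smul_mem_smul_iff'] at h1
  exact h1

theorem c12_central : ∀ m < 2 ^ 6, com0 es12 6 (wc es12 m 6) = true → m < 2 := by decide +kernel
theorem c12_com : ∀ m < 2 ^ 6, com1 es12 6 (wc es12 m 6) = true → m < 8 := by decide +kernel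
theorem c12_com' : ∀ m < 2 ^ 6, com1 es12 6 (wc es12 m 6) = true → fxp dodUc dodU (wc es12 m 6) = true → m < 4 := by decide +kernel
theorem c12_gen1 : ∀ m < 2 ^ 6, comp (wc es12 m 6) (es12.getD 1 0) = comp (es12.getD 1 0) (wc es12 m 6) ∨
      comp (wc es12 m 6) (es12.getD 1 0) = comp (comp (es12.getD 1 0) (wc es12 m 6)) (es12.getD 0 0) := by decide +kernel
theorem c12_gen2 : ∀ m < 2 ^ 6, comp (wc es12 m 6) (es12.getD 2 0) = comp (es12.getD 2 0) (wc es12 m 6) ∨
      comp (wc es12 m 6) (es12.getD 2 0) = comp (comp (es12.getD 2 0) (wc es12 m 6)) (es12.getD 0 0) := by decide +kernel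
/-- the fourth power -/
def c4 (c : ℕ) : ℕ := comp (comp c c) (comp c c)
theorem c12_t6 : ∀ m < 2 ^ 6, fxp dodUc dodU (wc es12 m 6) = true → c4 (wc es12 m 6) = idc ∨ m < 16 := by decide +kernel
theorem c12_t2 : ∀ m < 2 ^ 6, fxp dodU dodUc (wc es12 m 6) = true → diff (c4 (wc es12 m 6)) idc = true ∨ m < 32 := by decide +kernel
theorem c12_data : fxp dodUc dodU (es12.getD 1 0) = true ∧ fxp dodUc dodU (es12.getD 3 0) = true ∧ diff (c4 (es12.getD 3 0)) idc = true ∧
    fxp dodU dodUc (es12.getD 4 0) = true ∧ c4 (es12.getD 4 0) = idc := by decide +kernel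
theorem c12_gens : ∀ i < 6, pres (es12.getD i 0) = true ∧ act (es12.getD i 0) dodU = dodU := by decide +kernel
theorem c12_slp : ∀ k < 13, ((pg12.getD k (0, 0, 0)).1 = 0 ∧ (pg12.getD k (0, 0, 0)).2.1 ≤ k ∧ pres (pg12.getD k (0, 0, 0)).2.2 = true ∧
        act (pg12.getD k (0, 0, 0)).2.2 dodU = dodU ∧
        valid (kn12.getD (pg12.getD k (0, 0, 0)).2.1 0) = true ∧ valid (kn12.getD (k + 1) 0) = true ∧
        comp (pg12.getD k (0, 0, 0)).2.2 (kn12.getD (pg12.getD k (0, 0, 0)).2.1 0) = comp (kn12.getD (k + 1) 0) (pg12.getD k (0, 0, 0)).2.2) ∨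
      ((pg12.getD k (0, 0, 0)).2.1 ≤ k ∧ (pg12.getD k (0, 0, 0)).2.2 ≤ k ∧ valid (kn12.getD (pg12.getD k (0, 0, 0)).2.1 0) = true ∧
        valid (kn12.getD (pg12.getD k (0, 0, 0)).2.2 0) = true ∧
        comp (kn12.getD (pg12.getD k (0, 0, 0)).2.1 0) (kn12.getD (pg12.getD k (0, 0, 0)).2.2 0) = kn12.getD (k + 1) 0) := by decide +kernel
theorem c12_km : ∀ k < 14, kn12.getD k 0 = wc es12 (km12.getD k 0) 6 := by decide +kernel
theorem c12_ix : ∀ i < 6, ix12.getD i 0 < 14 ∧ kn12.getD (ix12.getD i 0) 0 = es12.getD i 0 := by decide +kernel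
theorem c12_z : ∀ j < 6, comp (es12.getD 0 0) (es12.getD j 0) = comp (es12.getD j 0) (es12.getD 0 0) := by decide +kernel

theorem el12_mem : ∀ i < 6, el es12 i ∈ m12 := fun i hi => mem_m12 (c12_gens i hi).1 (c12_gens i hi).2

theorem z12 : ∀ s ∈ E (el es12) 6, s * el es12 0 = el es12 0 * s := by
  intro s hs
  have h1 : E (el es12) 6 ≤ Subgroup.centralizer {el es12 0} := by
    refine E_le fun j hj => ?_
    rw [Subgroup.mem_centralizer_iff]
    intro y hy
    rw [Set.mem_singleton_iff] at hy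
    subst hy
    unfold el
    rw [← pm_comp (hv12 0 (by omega)) (hv12 j hj), c12_z j hj, pm_comp (hv12 j hj) (hv12 0 (by omega))]
  exact (Subgroup.mem_centralizer_iff.1 (h1 hs) _ rfl).symm

theorem pm_c4 {c : ℕ} (hc : valid c = true) : valid (c4 c) = true ∧ pm (c4 c) = pm c * pm c * (pm c * pm c) := by
  have h1 := valid_comp hc hc
  exact ⟨valid_comp h1 h1, by rw [c4, pm_comp h1 h1, pm_comp hc hc]⟩

theorem conj_one {P : Type*} [Group P] {g x : P} : g * x * g⁻¹ = 1 ↔ x = 1 := by
  constructor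
  · intro h
    have := congrArg (fun t => g⁻¹ * t * g) h
    simpa [mul_assoc] using this
  · rintro rfl; group

theorem norm12' {g : Equiv.Perm GolayPt} (hg : g ∈ m12) (hgS : ∀ x ∈ E (el es12) 6, g * x * g⁻¹ ∈ E (el es12) 6) :
    ∀ i ≤ 6, ∀ x ∈ E (el es12) i, g * x * g⁻¹ ∈ E (el es12) i := by
  have hz := conj_z (by omega) pc12 (fun x hx hc => central_E1 (by omega) hv12 pc12 c12_central hx hc) z12 hgS
  have hU := m12_U hg
  have hU' := m12_U (m12.inv_mem hg)
  have hW := m12_W hg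
  have hW' := m12_W (m12.inv_mem hg)
  refine inv_chain ?_
  intro i hi ih
  interval_cases i
  · rw [hz]; exact e_mem (by omega)
  · obtain ⟨m, hm, h1, h2⟩ := com1_conj (by omega) hv12 pc12 hgS hz (e_mem (show 1 < 6 by omega)) (com1_gen hv12 pc12 (by omega) c12_gen1)
    have h3 : Fxp dodUc dodU (g * el es12 1 * g⁻¹) := ((fxp_iff (hv12 1 (by omega))).1 c12_data.1).conj hW hU'
    rw [h1] at h3 ⊢
    have hw := (wc_mem hv12 m (le_refl 6)).1
    exact low_mem hv12 (by omega) (c12_com' m hm h2 ((fxp_iff hw).2 h3))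
  · obtain ⟨m, hm, h1, h2⟩ := com1_conj (by omega) hv12 pc12 hgS hz (e_mem (show 2 < 6 by omega)) (com1_gen hv12 pc12 (by omega) c12_gen2)
    rw [h1]; exact low_mem hv12 (by omega) (c12_com m hm h2)
  · obtain ⟨m, hm, h1⟩ := enum hv12 pc12 6 le_rfl _ (hgS _ (e_mem (show 3 < 6 by omega)))
    have hw := (wc_mem hv12 m (le_refl 6)).1
    have h3 : Fxp dodUc dodU (g * el es12 3 * g⁻¹) := ((fxp_iff (hv12 3 (by omega))).1 c12_data.2.1).conj hW hU'
    rw [h1] at h3 ⊢
    refine low_mem hv12 (by omega) ?_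
    rcases c12_t6 m hm ((fxp_iff hw).2 h3) with h2 | h2
    · exfalso
      have h4 := congrArg pm h2
      rw [(pm_c4 hw).2, pm_idc, ← h1, four_conj, conj_one] at h4
      have h5 := hv12 3 (by omega)
      have h6 := ne_of_diff (pm_c4 h5).1 valid_idc c12_data.2.2.1
      rw [(pm_c4 h5).2, pm_idc] at h6
      exact h6 h4
    · exact h2
  · obtain ⟨m, hm, h1⟩ := enum hv12 pc12 6 le_rfl _ (hgS _ (e_mem (show 4 < 6 by omega)))
    have hw := (wc_mem hv12 m (le_refl 6)).1
    have h3 : Fxp dodU dodUc (g * el es12 4 * g⁻¹) := ((fxp_iff (hv12 4 (by omega))).1 c12_data.2.2.2.1).conj hU hW'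
    rw [h1] at h3 ⊢
    refine low_mem hv12 (by omega) ?_
    rcases c12_t2 m hm ((fxp_iff hw).2 h3) with h2 | h2
    · exfalso
      have h6 := ne_of_diff (pm_c4 hw).1 valid_idc h2
      rw [(pm_c4 hw).2, pm_idc, ← h1, four_conj] at h6
      apply h6
      rw [conj_one]
      have h4 := congrArg pm c12_data.2.2.2.2
      rw [(pm_c4 (hv12 4 (by omega))).2, pm_idc] at h4
      exact h4
    · exact h2
  · exact hgS _ (e_mem (by omega))

theorem m12_simple (S : Sylow 2 m12) : (groupFusionSystem (S : Subgroup m12)).IsSimple 2 := by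
  refine simple_sub (p := 2) m12 (E (el es12) 6) (E_le el12_mem) (k := 6) (m := 1485) (by omega) (pc12.card le_rfl) (by rw [card_m12]; norm_num) (by norm_num) ?_ ?_ S
  · intro T hT hsc ⟨z, hz, hz1, hz2⟩
    have h1 := central_E1 (by omega) hv12 pc12 c12_central (hT hz) hz2
    have h2 : z = el es12 0 := by
      rcases mem_E1 (by omega) pc12 h1 with h | h
      · rw [h, orderOf_one] at hz1; omega
      · exact h
    subst h2
    have h3 := slp (kn := kn12) (pg := pg12) (G := m12) hsc (by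
        have := (c12_ix 0 (by omega)).2
        rw [show ix12.getD 0 0 = 0 from rfl] at this
        rw [this]; exact hz) (by
        intro k hk
        have hk' : k < 14 := lt_of_le_of_lt hk (by decide)
        rw [c12_km k hk']
        exact (wc_mem hv12 _ le_rfl).2) (by
        intro k hk
        have hk' : k < 13 := lt_of_lt_of_le hk (by decide)
        rcases c12_slp k hk' with ⟨a1, a2, a3, a4, a6, a7, a8⟩ | h
        · exact Or.inl ⟨a1, a2, pres_valid a3, mem_m12 a3 a4, a6, a7, a8⟩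
        · exact Or.inr h)
    refine E_le fun i hi => ?_
    have h4 := h3 (ix12.getD i 0) (by
      have := (c12_ix i hi).1
      have h5 : pg12.length = 13 := rfl
      omega)
    rw [(c12_ix i hi).2] at h4
    exact h4
  · intro g hg hgS ho x hx
    exact cent_chain pc12 ho (norm12' hg hgS) x hx

end Cfsg.Agent.H8.MatC
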