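import Mathlib
import Cfsg.Agent.H8.SpecSP
import Cfsg.Agent.Lib.BForm8

set_option autoImplicit false
set_option linter.all false

/-! Classes of involutions of `PSp_2m(q)`, `q` odd. -/

namespace Cfsg.Agent.H8.NIso

open Polynomial
open Cfsg.Agent.H8.SpecSP

section Cp
variable {F : Type*} [Field F]

theorem charpoly_mul_neg {ι : Type*} [Fintype ι] [DecidableEq ι] {A : Matrix ι ι F} {ε : F} (h : A * A = Matrix.scalar ι ε) :
    A.charpoly * (-A).charpoly = (X ^ 2 - C ε) ^ Fintype.card ι := by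
  unfold Matrix.charpoly
  rw [← Matrix.det_mul]
  have h1 : Matrix.charmatrix A * Matrix.charmatrix (-A) = Matrix.scalar ι (X ^ 2 - C ε) := by
    unfold Matrix.charmatrix
    rw [map_neg, sub_neg_eq_add]
    have hc : Commute (Matrix.scalar ι (X : F[X])) (C.mapMatrix A) := Matrix.scalar_commute _ (fun r' => Commute.all _ _) _
    rw [← hc.mul_self_sub_mul_self_eq', ← map_mul, ← map_mul, h, map_sub, pow_two]
    congr 1
    ext i j
    simp [Matrix.scalar_apply, Matrix.diagonal_apply]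
    split_ifs <;> simp
  rw [h1, Matrix.scalar_apply, Matrix.det_diagonal, Finset.prod_const, Finset.card_univ]

end Cp

section Sp
variable {F : Type*} [Field F] {m : ℕ}

local notation "SM" => Matrix (Fin m ⊕ Fin m) (Fin m ⊕ Fin m) F

theorem charpoly_inv_sp (g : Matrix.symplecticGroup (Fin m) F) : (g⁻¹).1.charpoly = g.1.charpoly := by
  have h3 : Matrix.J (Fin m) F * (-Matrix.J (Fin m) F) = 1 := by
    rw [mul_neg, Matrix.J_squared, neg_neg]
  rw [SymplecticGroup.coe_inv, Matrix.charpoly_mul_comm, ← mul_assoc, h3, one_mul, Matrix.charpoly_transpose]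

/-- the possible characteristic polynomials -/
noncomputable def phi (m : ℕ) (F : Type*) [Field F] (k : ℕ) : F[X] :=
  if k = 0 then (X ^ 2 + 1) ^ m else (X - C 1) ^ (2 * m - 2 * k) * (X - C (-1)) ^ (2 * k)

/-- the colour -/
def PP (m : ℕ) (F : Type*) [Field F] (k : ℕ) (y : Cfsg.PSp m F) : Prop :=
  ∃ s : Matrix.symplecticGroup (Fin m) F, (s : Cfsg.PSp m F) = y ∧ s ^ 4 = 1 ∧ s.1.charpoly = phi m F k

theorem PP_conj [Fintype F] {p : ℕ} [Fact p.Prime] [CharP F p] (hp2 : p ≠ 2) {k : ℕ} {y y' : Cfsg.PSp m F} (h : PP m F k y) (h' : PP m F k y') :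
    IsConj y y' := by
  obtain ⟨s, rfl, hs4, hs⟩ := h
  obtain ⟨t, rfl, ht4, ht⟩ := h'
  have h4 : Nat.Coprime 4 p := by
    have : Nat.Coprime 2 p := (Nat.coprime_primes Nat.prime_two Fact.out).2 (Ne.symm hp2)
    exact Nat.Coprime.pow_left 2 this
  obtain ⟨k, hk⟩ := Cfsg.Agent.Lib.RCF.exists_equiv_of_charpoly (p := p) (A := s.1) (B := t.1) h4 (congrArg Subtype.val hs4) (congrArg Subtype.val ht4)
    (by rw [hs, ht])
  have h1 := Cfsg.Agent.Lib.BForm.sp_conj (p := p) (g := s) (h := t) (Nat.Coprime.coprime_dvd_left (orderOf_dvd_of_pow_eq_one hs4) h4) k hk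
  exact MonoidHom.map_isConj (QuotientGroup.mk' (Subgroup.center (Matrix.symplecticGroup (Fin m) F))) h1

theorem shape (h2 : (2 : F) ≠ 0) (hm : 1 ≤ m) {s : Matrix.symplecticGroup (Fin m) F} (hs : s.1 * s.1 = 1) (h1 : s.1 ≠ 1) :
    ∃ k, 1 ≤ k ∧ k ≤ m ∧ s.1.charpoly = (X - C 1) ^ (2 * m - 2 * k) * (X - C (-1)) ^ (2 * k) := by
  have e1 : s.1.charpoly * (-s.1).charpoly = (X ^ 2 - C 1) ^ Fintype.card (Fin m ⊕ Fin m) := charpoly_mul_neg (by rw [hs]; simp)
  set χ := s.1.charpoly with hχ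
  have hχm : χ.Monic := Matrix.charpoly_monic _
  have hχd : χ.natDegree = 2 * m := by
    rw [hχ, Matrix.charpoly_natDegree_eq_dim, Fintype.card_sum, Fintype.card_fin]; ring
  have hcd : Fintype.card (Fin m ⊕ Fin m) = 2 * m := by rw [Fintype.card_sum, Fintype.card_fin]; ring
  have hfac : (X ^ 2 - C 1 : F[X]) = (X - C 1) * (X - C (-1)) := by simp only [C_1, C_neg]; ring
  have hpal : χ.reverse = χ := Cfsg.Agent.Lib.BForm.sp_reverse_charpoly s
  obtain ⟨k, hk⟩ := Cfsg.Agent.Lib.BForm.even_mult h2 hχm.ne_zero hχd hpal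
  obtain ⟨h, hh, hnd⟩ := Polynomial.exists_eq_pow_rootMultiplicity_mul_and_not_dvd χ hχm.ne_zero (-1)
  rw [hk] at hh
  have hdvd : h ∣ (X - C 1) ^ (2 * m) := by
    have h3 : h ∣ (X - C 1) ^ (2 * m) * (X - C (-1)) ^ (2 * m) := by
      rw [← mul_pow, ← hfac, ← hcd, ← e1, hh, mul_assoc, mul_left_comm]
      exact Dvd.intro _ rfl
    have h4 : IsCoprime ((X - C (-1)) ^ (2 * m)) h := ((irreducible_X_sub_C (-1 : F)).coprime_iff_not_dvd.2 hnd).pow_left
    exact h4.symm.dvd_of_dvd_mul_right h3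
  obtain ⟨a, -, ha⟩ := (dvd_prime_pow (irreducible_X_sub_C (1 : F)).prime _).1 hdvd
  have hhm : h.Monic := by
    have h5 : ((X - C (-1 : F)) ^ (k + k) * h).Monic := by rw [← hh]; exact hχm
    exact Monic.of_mul_monic_left ((monic_X_sub_C _).pow _) h5
  have hha : h = (X - C 1) ^ a := eq_of_monic_of_associated hhm ((monic_X_sub_C _).pow _) ha
  rw [hha] at hh
  have hdeg : k + k + a = 2 * m := by
    rw [← hχd, hh, natDegree_mul (pow_ne_zero _ (X_sub_C_ne_zero _)) (pow_ne_zero _ (X_sub_C_ne_zero _)), natDegree_pow, natDegree_pow,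
      natDegree_X_sub_C, natDegree_X_sub_C, mul_one, mul_one]
  refine ⟨k, ?_, by omega, ?_⟩
  · by_contra hk0
    have hk0' : k = 0 := by omega
    subst hk0'
    have ha2 : a = 2 * m := by omega
    rw [ha2, add_zero, pow_zero, one_mul] at hh
    have h6 : (s.1 - 1) ^ (2 * m) = 0 := by
      have := Matrix.aeval_self_charpoly s.1
      rw [← hχ, hh, map_pow, map_sub, aeval_X, C_1, map_one] at this
      exact this
    have h7 : ∀ j : ℕ, (s.1 - 1) ^ (j + 1) = (-2 : F) ^ j • (s.1 - 1) := by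
      intro j
      induction j with
      | zero => rw [zero_add, pow_one, pow_zero, one_smul]
      | succ j ih =>
        rw [pow_succ, ih, smul_mul_assoc]
        have h8 : (s.1 - 1) * (s.1 - 1) = (-2 : F) • (s.1 - 1) := by
          rw [sub_mul, mul_sub, hs, mul_one, one_mul]
          module
        rw [h8, smul_smul, pow_succ]
    have h9 := h7 (2 * m - 1)
    rw [Nat.sub_add_cancel (by omega), h6] at h9
    have h10 := (smul_eq_zero.1 h9.symm).resolve_left (pow_ne_zero _ (neg_ne_zero.2 h2))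
    exact h1 (sub_eq_zero.1 h10)
  · rw [hh, mul_comm, show a = 2 * m - 2 * k by omega, two_mul k]

theorem PP_exists [Fintype F] (h2 : (2 : F) ≠ 0) (hm : 1 ≤ m) (y : Cfsg.PSp m F) (hy : orderOf y = 2) :
    ∃ k, k ≤ m / 2 ∧ PP m F k y := by
  obtain ⟨s, rfl⟩ := QuotientGroup.mk_surjective y
  have hy1 : (s : Cfsg.PSp m F) ≠ 1 := by
    intro h
    have h' : orderOf (s : Cfsg.PSp m F) = 2 := hy
    rw [h, orderOf_one] at h'; omega
  have hsq : (s : Cfsg.PSp m F) ^ 2 = 1 := by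
    have h' : orderOf (s : Cfsg.PSp m F) = 2 := hy
    rw [← h']; exact pow_orderOf_eq_one _
  rw [pmk_pow] at hsq
  have hne : ¬ (s.1 = 1 ∨ s.1 = -1) := fun h => hy1 ((pmk_one_iff hm s).2 h)
  push Not at hne
  have hcd : Fintype.card (Fin m ⊕ Fin m) = 2 * m := by rw [Fintype.card_sum, Fintype.card_fin]; ring
  rcases (pmk_one_iff hm _).1 hsq with h | h
  · -- involutions of `Sp`
    have hss : s.1 * s.1 = 1 := by rw [← pow_two]; exact h
    have hs4 : s ^ 4 = 1 := by
      apply Subtype.ext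
      show s.1 ^ 4 = 1
      rw [show 4 = 2 * 2 by norm_num, pow_mul, pow_two s.1, hss, one_pow]
    obtain ⟨k, hk1, hkm, hk⟩ := shape h2 hm hss hne.1
    let t : Matrix.symplecticGroup (Fin m) F := ⟨-s.1, (mem_iff_sst _).2 (by
      have h3 := (mem_iff_sst _).1 s.2
      have h4 : sst (-s.1) = -sst s.1 := by
        have := sst_sub (0 : SM) s.1
        rwa [sst_zero, zero_sub, zero_sub] at this
      rw [h4, neg_mul_neg, h3])⟩
    have htt : t.1 * t.1 = 1 := by show (-s.1) * (-s.1) = 1; rw [neg_mul_neg, hss]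
    obtain ⟨l, hl1, hlm, hl⟩ := shape h2 hm htt (by
      show -s.1 ≠ 1
      intro h5; apply hne.2; rw [← h5, neg_neg])
    have hts : (t : Cfsg.PSp m F) = (s : Cfsg.PSp m F) := by
      rw [QuotientGroup.eq]
      have h5 : ((t⁻¹ * s : Matrix.symplecticGroup (Fin m) F) : Cfsg.PSp m F) = 1 := by
        refine (pmk_one_iff hm _).2 (Or.inr ?_)
        have h6 : t⁻¹ = t := by
          rw [inv_eq_iff_mul_eq_one]; exact Subtype.ext htt
        rw [h6]
        show (-s.1) * s.1 = -1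
        rw [neg_mul, hss]
      exact (QuotientGroup.eq_one_iff _).1 h5
    have ht4 : t ^ 4 = 1 := by
      apply Subtype.ext
      show t.1 ^ 4 = 1
      rw [show 4 = 2 * 2 by norm_num, pow_mul, pow_two t.1, htt, one_pow]
    -- relation between `k` and `l`
    have e1 : s.1.charpoly * (-s.1).charpoly = (X ^ 2 - C 1) ^ Fintype.card (Fin m ⊕ Fin m) := charpoly_mul_neg (by rw [hss]; simp)
    have hl' : (-s.1).charpoly = (X - C 1) ^ (2 * m - 2 * l) * (X - C (-1)) ^ (2 * l) := hl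
    have hkl : 2 * k + 2 * l = 2 * m := by
      have hfac : (X ^ 2 - C 1 : F[X]) = (X - C 1) * (X - C (-1)) := by simp only [C_1, C_neg]; ring
      rw [hk, hl', hfac, hcd] at e1
      have e2 := congrArg (rootMultiplicity (-1)) e1
      have hne1 : (-1 : F) ≠ 1 := by
        intro h; apply h2; linear_combination -h
      have r1 : ∀ j : ℕ, rootMultiplicity (-1) ((X - C (1 : F)) ^ j) = 0 := by
        intro j
        apply rootMultiplicity_eq_zero
        rw [IsRoot, eval_pow, eval_sub, eval_X, eval_C]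
        exact pow_ne_zero _ (sub_ne_zero.2 hne1)
      have n1 : ∀ j : ℕ, (X - C (1 : F)) ^ j ≠ 0 := fun j => pow_ne_zero _ (X_sub_C_ne_zero _)
      have n2 : ∀ j : ℕ, (X - C (-1 : F)) ^ j ≠ 0 := fun j => pow_ne_zero _ (X_sub_C_ne_zero _)
      rw [mul_pow, rootMultiplicity_mul (mul_ne_zero (mul_ne_zero (n1 _) (n2 _)) (mul_ne_zero (n1 _) (n2 _))),
        rootMultiplicity_mul (mul_ne_zero (n1 _) (n2 _)), rootMultiplicity_mul (mul_ne_zero (n1 _) (n2 _)),
        rootMultiplicity_mul (mul_ne_zero (n1 _) (n2 _)), r1, r1, r1, rootMultiplicity_X_sub_C_pow, rootMultiplicity_X_sub_C_pow,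
        rootMultiplicity_X_sub_C_pow] at e2
      omega
    rcases Nat.lt_or_ge (m / 2) k with h6 | h6
    · refine ⟨l, by omega, t, hts, ht4, ?_⟩
      rw [phi, if_neg (by omega)]; exact hl
    · refine ⟨k, h6, s, rfl, hs4, ?_⟩
      rw [phi, if_neg (by omega)]; exact hk
  · -- square `-1`
    have hss : s.1 * s.1 = -1 := by rw [← pow_two]; exact h
    have hs4 : s ^ 4 = 1 := by
      apply Subtype.ext
      show s.1 ^ 4 = 1
      rw [show 4 = 2 * 2 by norm_num, pow_mul, pow_two s.1, hss]; simp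
    refine ⟨0, Nat.zero_le _, s, rfl, hs4, ?_⟩
    have e1 : s.1.charpoly * (-s.1).charpoly = (X ^ 2 - C (-1)) ^ Fintype.card (Fin m ⊕ Fin m) := charpoly_mul_neg (by
      rw [hss, map_neg, map_one])
    have e2 : s⁻¹.1 = -s.1 := by
      have h5 : s⁻¹.1 * s.1 = 1 := congrArg Subtype.val (inv_mul_cancel s)
      calc s⁻¹.1 = s⁻¹.1 * (s.1 * (-s.1)) := by rw [mul_neg, hss, neg_neg, mul_one]
        _ = -s.1 := by rw [← mul_assoc, h5, one_mul]
    rw [← e2, charpoly_inv_sp, hcd, ← pow_two, pow_mul'] at e1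
    rw [phi, if_pos rfl]
    have e3 : (X ^ 2 - C (-1) : F[X]) = X ^ 2 + 1 := by rw [C_neg, C_1, sub_neg_eq_add]
    rw [e3] at e1
    have m1 : s.1.charpoly.Monic := Matrix.charpoly_monic _
    have m2 : ((X ^ 2 + 1 : F[X]) ^ m).Monic := by
      apply Monic.pow
      have := monic_X_pow_add_C (1 : F) (n := 2) (by norm_num)
      rwa [C_1] at this
    rcases sq_eq_sq_iff_eq_or_eq_neg.1 e1 with h5 | h5
    · exact h5
    · exfalso
      have h6 := congrArg leadingCoeff h5
      rw [leadingCoeff_neg, m1.leadingCoeff, m2.leadingCoeff] at h6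
      apply h2; linear_combination h6

end Sp

end Cfsg.Agent.H8.NIso
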