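import Mathlib
import Cfsg.Agent.H8.NIso1
import Cfsg.Agent.H8.Ort12

set_option autoImplicit false
set_option linter.all false

/-! Classes of involutions of `PΩ_{2m+1}(q)`, `q` odd. -/

namespace Cfsg.Agent.H8.NIso

open Cfsg.Agent.Lib.Orth QuadraticMap Module
open scoped commutatorElement

section Abs
variable {F V : Type*} [Field F] [AddCommGroup V] [Module F V] [FiniteDimensional F V] {Q : QuadraticForm F V}

/-- product of the first `r` reflections -/
def pr (Q : QuadraticForm F V) (w : ℕ → V) : ℕ → ↥(O Q)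
  | 0 => 1
  | r + 1 => pr Q w r * rf Q (w r)

variable {w : ℕ → V} {N : ℕ}

theorem pr_orth {r : ℕ} {x : V} (h : ∀ t < r, polar Q x (w t) = 0) : (pr Q w r).1 x = x := by
  induction r with
  | zero => rfl
  | succ r ih =>
    show (pr Q w r).1 (refl Q (w r) x) = x
    rw [refl_of_orth (h r (by omega))]
    exact ih fun t ht => h t (by omega)

theorem pr_w (ho : ∀ i < N, ∀ j < N, i ≠ j → polar Q (w i) (w j) = 0) (hq : ∀ i < N, Q (w i) ≠ 0) {r : ℕ} (hr : r ≤ N) {t : ℕ} (ht : t < r) :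
    (pr Q w r).1 (w t) = -w t := by
  induction r with
  | zero => omega
  | succ r ih =>
    show (pr Q w r).1 (refl Q (w r) (w t)) = -w t
    rcases Nat.lt_or_ge t r with h | h
    · rw [refl_of_orth (ho t (by omega) r (by omega) (by omega))]
      exact ih (by omega) h
    · have : t = r := by omega
      subst this
      rw [refl_self (hq t (by omega)), map_neg, pr_orth]
      intro t' ht'
      exact ho t (by omega) t' (by omega) (by omega)

theorem pr_sq (ho : ∀ i < N, ∀ j < N, i ≠ j → polar Q (w i) (w j) = 0) {r : ℕ} (hr : r ≤ N) : pr Q w r * pr Q w r = 1 := by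
  induction r with
  | zero => exact one_mul 1
  | succ r ih =>
    have h1 : pr Q w r * rf Q (w r) * (pr Q w r)⁻¹ = rf Q (w r) := by
      rw [conj_rf, pr_orth]
      intro t ht
      exact ho r (by omega) t (by omega) (by omega)
    have h2 : pr Q w r * rf Q (w r) = rf Q (w r) * pr Q w r := by rwa [mul_inv_eq_iff_eq_mul] at h1
    show pr Q w r * rf Q (w r) * (pr Q w r * rf Q (w r)) = 1
    calc pr Q w r * rf Q (w r) * (pr Q w r * rf Q (w r)) = rf Q (w r) * pr Q w r * (pr Q w r * rf Q (w r)) := by rw [h2]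
      _ = rf Q (w r) * (pr Q w r * pr Q w r) * rf Q (w r) := by simp only [mul_assoc]
      _ = 1 := by rw [ih (by omega), mul_one, rf_mul_self]

theorem mem_fx_pr (h2 : (2 : F) ≠ 0) (ho : ∀ i < N, ∀ j < N, i ≠ j → polar Q (w i) (w j) = 0) (hq : ∀ i < N, Q (w i) ≠ 0) {r : ℕ} (hr : r ≤ N) {x : V} :
    x ∈ fx (pr Q w r).1 ↔ ∀ t < r, polar Q x (w t) = 0 := by
  constructor
  · intro h t ht
    rw [mem_fx] at h
    have h1 := polar_map (pr Q w r).2 x (w t)
    rw [h, pr_w ho hq hr ht, QuadraticMap.polar_neg_right] at h1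
    have h3 : (2 : F) * polar Q x (w t) = 0 := by linear_combination -h1
    exact (mul_eq_zero.1 h3).resolve_left h2
  · intro h
    exact mem_fx.2 (pr_orth h)

theorem fx_lt (h2 : (2 : F) ≠ 0) (ho : ∀ i < N, ∀ j < N, i ≠ j → polar Q (w i) (w j) = 0) (hq : ∀ i < N, Q (w i) ≠ 0) {r r' : ℕ} (hr : r < r')
    (hr' : r' ≤ N) : fx (pr Q w r').1 < fx (pr Q w r).1 := by
  refine lt_of_le_of_ne ?_ ?_
  · intro x hx
    rw [mem_fx_pr h2 ho hq (by omega)] at hx ⊢
    exact fun t ht => hx t (by omega)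
  · intro h
    have h1 : w r ∈ fx (pr Q w r).1 := by
      rw [mem_fx_pr h2 ho hq (by omega)]
      exact fun t ht => ho r (by omega) t (by omega) (by omega)
    rw [← h, mem_fx_pr h2 ho hq hr'] at h1
    have h3 := h1 r hr
    rw [polar_self'] at h3
    exact hq r (by omega) ((mul_eq_zero.1 h3).resolve_left h2)

theorem pr_comm [Finite F] (hQ : ND Q) (hq : ∀ i < 2 * N, Q (w i) ≠ 0) (he : ∀ i < N, Q (w (2 * i)) = Q (w (2 * i + 1)))
    {k : ℕ} (hk : k ≤ N) : pr Q w (2 * k) ∈ commutator ↥(O Q) := by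
  induction k with
  | zero => exact Subgroup.one_mem _
  | succ k ih =>
    have h1 : pr Q w (2 * (k + 1)) = pr Q w (2 * k) * (rf Q (w (2 * k)) * rf Q (w (2 * k + 1))) := by
      show pr Q w (2 * k) * rf Q (w (2 * k)) * rf Q (w (2 * k + 1)) = _
      rw [mul_assoc]
    rw [h1]
    refine Subgroup.mul_mem _ (ih (by omega)) ?_
    obtain ⟨g, hg⟩ := exists_conj_rf hQ (u := w (2 * k)) (v := w (2 * k + 1)) (hq _ (by omega)) (hq _ (by omega)) (a := 1) (by
      rw [he k (by omega)]; ring)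
    have h2 : rf Q (w (2 * k)) * rf Q (w (2 * k + 1)) = ⁅g, rf Q (w (2 * k + 1))⁆ := by
      have h3 : (rf Q (w (2 * k + 1)))⁻¹ = rf Q (w (2 * k + 1)) := inv_eq_of_mul_eq_one_left (rf_mul_self _)
      rw [commutatorElement_def, h3, ← hg]
    rw [h2]
    exact Subgroup.commutator_mem_commutator (Subgroup.mem_top _) (Subgroup.mem_top _)

theorem fx_conj (g h : ↥(O Q)) : finrank F (fx (g * h * g⁻¹).1) = finrank F (fx h.1) := by
  have h1 : fx (g * h * g⁻¹).1 = (fx h.1).map (g.1 : V →ₗ[F] V) := by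
    ext x
    rw [mem_fx, Submodule.mem_map]
    constructor
    · intro hx
      refine ⟨g.1.symm x, ?_, g.1.apply_symm_apply x⟩
      rw [mem_fx]
      apply g.1.injective
      rw [g.1.apply_symm_apply]
      exact hx
    · rintro ⟨y, hy, rfl⟩
      rw [mem_fx] at hy
      show g.1 (h.1 (g.1.symm (g.1 y))) = g.1 y
      rw [g.1.symm_apply_apply, hy]
  rw [h1]
  exact LinearEquiv.finrank_map_eq g.1 _

end Abs

section Vec
variable {F : Type*} [Field F] {m : ℕ}

/-- vectors of norm `1` -/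
def va (m : ℕ) (F : Type*) [Field F] (t : ℕ) : Unit ⊕ (Fin m ⊕ Fin m) → F :=
  Sum.elim (fun _ => if t = 0 then 1 else 0) (Sum.elim (fun i => if i.1 + 1 = t then 1 else 0) (fun i => if i.1 + 1 = t then 1 else 0))

/-- vectors of norm `-1` -/
def vb (m : ℕ) (F : Type*) [Field F] (t : ℕ) : Unit ⊕ (Fin m ⊕ Fin m) → F :=
  Sum.elim (fun _ => 0) (Sum.elim (fun i => if i.1 = t then 1 else 0) (fun i => if i.1 = t then -1 else 0))

theorem Q_va {t : ℕ} (ht : t ≤ m) : qOdd m F (va m F t) = 1 := by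
  rw [qOdd_apply]
  unfold Cfsg.quadFormOdd va
  simp only [Sum.elim_inl, Sum.elim_inr]
  rcases Nat.eq_zero_or_pos t with rfl | h
  · simp
  · rw [if_neg (by omega), Finset.sum_eq_single (⟨t - 1, by omega⟩ : Fin m)]
    · rw [if_pos (by show t - 1 + 1 = t; omega)]; ring
    · intro j _ hj
      rw [if_neg, zero_mul]
      intro h'; apply hj; apply Fin.ext; show j.1 = t - 1; omega
    · intro h'; exact absurd (Finset.mem_univ _) h'

theorem Q_vb {t : ℕ} (ht : t < m) : qOdd m F (vb m F t) = -1 := by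
  rw [qOdd_apply]
  unfold Cfsg.quadFormOdd vb
  simp only [Sum.elim_inl, Sum.elim_inr]
  rw [Finset.sum_eq_single (⟨t, ht⟩ : Fin m)]
  · simp
  · intro j _ hj
    rw [if_neg, zero_mul]
    intro h'; exact hj (Fin.ext h')
  · intro h'; exact absurd (Finset.mem_univ _) h'

theorem P_aa {s t : ℕ} (h : s ≠ t) : polar (qOdd m F) (va m F s) (va m F t) = 0 := by
  rw [polar_qOdd]
  unfold va
  simp only [Sum.elim_inl, Sum.elim_inr]
  rw [Finset.sum_eq_zero]
  · by_cases h1 : s = 0
    · rw [if_neg (c := t = 0) (by omega)]; ring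
    · rw [if_neg h1]; ring
  · intro i _
    by_cases h1 : i.1 + 1 = s
    · rw [if_neg (c := i.1 + 1 = t) (by omega)]; ring
    · rw [if_neg h1]; ring

theorem P_bb {s t : ℕ} (h : s ≠ t) : polar (qOdd m F) (vb m F s) (vb m F t) = 0 := by
  rw [polar_qOdd]
  unfold vb
  simp only [Sum.elim_inl, Sum.elim_inr]
  rw [Finset.sum_eq_zero]
  · ring
  · intro i _
    by_cases h1 : i.1 = s
    · rw [if_neg (c := i.1 = t) (by omega), if_neg (c := i.1 = t) (by omega)]; ring
    · rw [if_neg h1, if_neg h1]; ring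

theorem P_ab (s t : ℕ) : polar (qOdd m F) (va m F s) (vb m F t) = 0 := by
  rw [polar_qOdd]
  unfold va vb
  simp only [Sum.elim_inl, Sum.elim_inr]
  rw [Finset.sum_eq_zero]
  · ring
  · intro i _
    by_cases h1 : i.1 = t
    · rw [if_pos h1, if_pos h1]
      split_ifs <;> ring
    · rw [if_neg h1, if_neg h1]; ring

/-- the orthogonal sequence -/
def ww (m : ℕ) (F : Type*) [Field F] (t : ℕ) : Unit ⊕ (Fin m ⊕ Fin m) → F :=
  if t < 2 * ((m + 1) / 2) then va m F t else vb m F (t - 2 * ((m + 1) / 2))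

theorem ww_orth (i : ℕ) (hi : i < 2 * m) (j : ℕ) (hj : j < 2 * m) (h : i ≠ j) : polar (qOdd m F) (ww m F i) (ww m F j) = 0 := by
  unfold ww
  split_ifs with h1 h2 h2
  · exact P_aa h
  · exact P_ab _ _
  · rw [QuadraticMap.polar_comm]; exact P_ab _ _
  · exact P_bb (by omega)

theorem ww_ne (i : ℕ) (hi : i < 2 * m) : qOdd m F (ww m F i) ≠ 0 := by
  unfold ww
  split_ifs with h1
  · rw [Q_va (by omega)]; exact one_ne_zero
  · rw [Q_vb (by omega)]; exact neg_ne_zero.2 one_ne_zero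

theorem ww_eq (i : ℕ) (hi : i < m) : qOdd m F (ww m F (2 * i)) = qOdd m F (ww m F (2 * i + 1)) := by
  unfold ww
  by_cases h1 : 2 * i < 2 * ((m + 1) / 2)
  · rw [if_pos h1, if_pos (by omega), Q_va (by omega), Q_va (by omega)]
  · rw [if_neg h1, if_neg (by omega), Q_vb (by omega), Q_vb (by omega)]

end Vec

section Om
variable {F : Type*} [Field F] {m : ℕ}

theorem map_comm' {G H : Type*} [Group G] [Group H] (f : G →* H) {x : G} (hx : x ∈ commutator G) : f x ∈ commutator H := by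
  have h1 : (commutator G).map f ≤ commutator H := by
    rw [commutator_def, commutator_def, Subgroup.map_commutator]
    exact Subgroup.commutator_mono le_top le_top
  exact h1 ⟨x, hx, rfl⟩

/-- involutions of `Ω` -/
theorem exists_inv [Finite F] (h2 : (2 : F) ≠ 0) (hm : 1 ≤ m) (k : ℕ) (hk : k ≤ m) :
    ∃ g : Cfsg.Omega F ⇑(qOdd m F), isoO (qOdd m F) g.1 = pr (qOdd m F) (ww m F) (2 * k) := by
  have h1 := pr_comm (nd_odd (F := F) (m := m) h2) (N := m) (w := ww m F) ww_ne ww_eq hk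
  refine ⟨⟨(isoO (qOdd m F)).symm (pr (qOdd m F) (ww m F) (2 * k)), map_comm' (isoO (qOdd m F)).symm.toMonoidHom h1⟩, ?_⟩
  exact (isoO (qOdd m F)).apply_symm_apply _

theorem exists_inv' [Finite F] (h2 : (2 : F) ≠ 0) (hm : 1 ≤ m) :
    ∃ g : ℕ → Cfsg.Omega F (Cfsg.quadFormOdd m F), (∀ k, 1 ≤ k → k ≤ m → orderOf (g k) = 2) ∧
      ∀ k l, k < l → l ≤ m → ¬ IsConj (g k) (g l) := by
  rw [← coe_qOdd]
  have hex : ∀ k, ∃ g : Cfsg.Omega F ⇑(qOdd m F), k ≤ m → isoO (qOdd m F) g.1 = pr (qOdd m F) (ww m F) (2 * k) := by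
    intro k
    by_cases hk : k ≤ m
    · obtain ⟨g, hg⟩ := exists_inv h2 hm k hk
      exact ⟨g, fun _ => hg⟩
    · exact ⟨1, fun h => absurd h hk⟩
  choose g hg using hex
  refine ⟨g, ?_, ?_⟩
  · intro k hk1 hk
    apply orderOf_eq_prime
    · apply Subtype.ext
      apply (isoO (qOdd m F)).injective
      show isoO (qOdd m F) ((g k).1 ^ 2) = isoO (qOdd m F) 1
      rw [map_pow, hg k hk, pow_two, map_one]
      exact pr_sq ww_orth (by omega)
    · intro h
      have h3 := hg k hk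
      rw [h] at h3
      have h4 : (1 : ↥(O (qOdd m F))) = pr (qOdd m F) (ww m F) (2 * k) := by
        rw [← h3]; exact (map_one (isoO (qOdd m F))).symm
      have h5 := pr_w (w := ww m F) ww_orth ww_ne (r := 2 * k) (by omega) (t := 0) (by omega)
      rw [← h4] at h5
      have h6 : ww m F 0 = -ww m F 0 := h5
      have h7 : (2 : F) • ww m F 0 = 0 := by
        rw [two_smul]; nth_rewrite 1 [h6]; exact neg_add_cancel _
      have h8 := (smul_eq_zero.1 h7).resolve_left h2
      apply ww_ne (F := F) (m := m) 0 (by omega)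
      rw [h8, QuadraticMap.map_zero]
  · intro k l hkl hl hc
    obtain ⟨c, hc⟩ := isConj_iff.1 hc
    have h3 := congrArg (fun x : Cfsg.Omega F ⇑(qOdd m F) => isoO (qOdd m F) x.1) hc
    have h4 : isoO (qOdd m F) c.1 * isoO (qOdd m F) (g k).1 * (isoO (qOdd m F) c.1)⁻¹ = isoO (qOdd m F) (g l).1 := by
      rw [← map_inv, ← map_mul, ← map_mul]; exact h3
    have h5 := fx_conj (isoO (qOdd m F) c.1) (isoO (qOdd m F) (g k).1)
    rw [h4, hg k (by omega), hg l hl] at h5
    have h6 := Submodule.finrank_lt_finrank_of_lt (fx_lt (w := ww m F) h2 ww_orth ww_ne (show 2 * k < 2 * l by omega) (by omega))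
    omega

end Om

theorem main {F : Type*} [Field F] [Fintype F] (hodd : Odd (Fintype.card F)) (m : ℕ) (hm : 3 ≤ m) :
    IsEmpty (Cfsg.PSp m F ≃* Cfsg.POmega F (Cfsg.quadFormOdd m F)) := by
  constructor
  intro e
  obtain ⟨p, hchar⟩ := CharP.exists F
  haveI : CharP F p := hchar
  have hp : p.Prime := CharP.char_is_prime F p
  haveI : Fact p.Prime := ⟨hp⟩
  have hp2 : p ≠ 2 := by
    rintro rfl
    obtain ⟨n, -, hn⟩ := FiniteField.card F 2
    rw [hn] at hodd
    exact (Nat.not_odd_iff_even.2 (Nat.even_pow.2 ⟨even_two, n.2.ne'⟩)) hodd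
  have h2 : (2 : F) ≠ 0 := by
    intro h
    have h1 : ((2 : ℕ) : F) = 0 := by exact_mod_cast h
    rw [CharP.cast_eq_zero_iff F p] at h1
    exact hp2 ((Nat.prime_dvd_prime_iff_eq hp Nat.prime_two).1 h1)
  have e2 : Cfsg.POmega F (Cfsg.quadFormOdd m F) ≃* Cfsg.Omega F (Cfsg.quadFormOdd m F) :=
    (QuotientGroup.quotientMulEquivOfEq (Cfsg.Agent.H8.Ort.center_bot h2 hm)).trans QuotientGroup.quotientBot
  let f := e.trans e2
  obtain ⟨g, hg1, hg2⟩ := exists_inv' (F := F) (m := m) h2 (by omega)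
  have hcol : ∀ k : Fin m, ∃ c : Fin (m / 2 + 1), PP m F c.1 (f.symm (g (k.1 + 1))) := by
    intro k
    obtain ⟨c, hc, hc2⟩ := PP_exists h2 (by omega) (f.symm (g (k.1 + 1))) (by
      rw [← hg1 (k.1 + 1) (by omega) (by omega)]
      exact orderOf_injective f.symm.toMonoidHom f.symm.injective _)
    exact ⟨⟨c, by omega⟩, hc2⟩
  choose c hc using hcol
  obtain ⟨k, l, hkl, hcc⟩ := Fintype.exists_ne_map_eq_of_card_lt c (by rw [Fintype.card_fin, Fintype.card_fin]; omega)
  have key : ∀ k l : Fin m, k.1 < l.1 → c k = c l → False := by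
    intro k l hkl hcc
    have h3 := PP_conj (p := p) hp2 (hc k) (by rw [hcc]; exact hc l)
    have h4 := MonoidHom.map_isConj f.toMonoidHom h3
    have h5 : IsConj (g (k.1 + 1)) (g (l.1 + 1)) := by
      have e3 : f.toMonoidHom (f.symm (g (k.1 + 1))) = g (k.1 + 1) := f.apply_symm_apply _
      have e4 : f.toMonoidHom (f.symm (g (l.1 + 1))) = g (l.1 + 1) := f.apply_symm_apply _
      rw [e3, e4] at h4
      exact h4
    exact hg2 _ _ (by omega) (by omega) h5
  rcases Nat.lt_or_ge k.1 l.1 with h | h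
  · exact key k l h hcc
  · exact key l k (lt_of_le_of_ne h (fun h' => hkl (Fin.ext h'.symm))) hcc.symm

end Cfsg.Agent.H8.NIso
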