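import Mathlib
import Cfsg.Agent.H8.FSim5
import Cfsg.Agent.Lib.AutPSL4
import Cfsg.Agent.Lib.SLn

set_option autoImplicit false
set_option linter.all false

/-! The defining-characteristic fusion system of `PSL_n(q)`, `n ≥ 3`. -/

namespace Cfsg.Agent.H8.PslFus

open Matrix Cfsg.Agent.Lib.AutPSL Cfsg.Agent.H8.FSim Cfsg

variable {n : ℕ} {F : Type*} [Field F]

local notation "SL" => Matrix.SpecialLinearGroup (Fin n) F
local notation "PSL" => Matrix.ProjectiveSpecialLinearGroup (Fin n) F
local notation "Mat" => Matrix (Fin n) (Fin n) F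

theorem E_apply (a b : Fin n) : (E a : Fin n → F) b = if b = a then 1 else 0 := by
  by_cases h : b = a
  · subst h; simp
  · simp [h]

theorem inv_mul_coe (s : SL) : ((s⁻¹ : SL) : Mat) * (s : Mat) = 1 := by
  have : ((s⁻¹ * s : SL) : Mat) = 1 := by rw [inv_mul_cancel]; rfl
  exact this

theorem mul_inv_coe (s : SL) : (s : Mat) * ((s⁻¹ : SL) : Mat) = 1 := by
  have : ((s * s⁻¹ : SL) : Mat) = 1 := by rw [mul_inv_cancel]; rfl
  exact this

theorem conj_inc (s : SL) {v w : Fin n → F} (h : w ⬝ᵥ v = 0) :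
    (w ᵥ* ((s⁻¹ : SL) : Mat)) ⬝ᵥ ((s : Mat) *ᵥ v) = 0 := by
  rw [Matrix.dotProduct_mulVec, Matrix.vecMul_vecMul, inv_mul_coe, Matrix.vecMul_one, h]

theorem conj_tv (s : SL) {v w : Fin n → F} (h : w ⬝ᵥ v = 0) :
    s * tv v w * s⁻¹ = tv ((s : Mat) *ᵥ v) (w ᵥ* ((s⁻¹ : SL) : Mat)) := by
  apply Subtype.ext
  show (s : Mat) * ((tv v w : SL) : Mat) * ((s⁻¹ : SL) : Mat) = _
  rw [tv_coe h, tv_coe (conj_inc s h), Matrix.mul_add, Matrix.add_mul, Matrix.mul_one, mul_inv_coe,
    Matrix.mul_vecMulVec, Matrix.vecMulVec_mul]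

/-- elements normalizing the unitriangular group are upper triangular -/
theorem flag (hn : 2 ≤ n) (s : SL) (h : ∀ u ∈ UU n F, mk (s⁻¹ * u * s) ∈ PU n F) :
    ∀ k : ℕ, ∀ x : Fin n → F, (∀ i : Fin n, k ≤ i.1 → x i = 0) → ∀ i : Fin n, k ≤ i.1 → ((s : Mat) *ᵥ x) i = 0 := by
  intro k
  induction k with
  | zero =>
    intro x hx i _
    have : x = 0 := funext fun i => hx i (Nat.zero_le _)
    rw [this, Matrix.mulVec_zero]; rfl
  | succ k ih =>
    intro x hx j hj
    by_contra hne
    have hkn : k < n := by omega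
    set i₀ : Fin n := ⟨k, hkn⟩ with hi₀
    have hij : i₀ < j := by rw [Fin.lt_def]; show k < j.1; omega
    have h0 : (E j : Fin n → F) ⬝ᵥ (E i₀) = 0 := E_inc hij.ne
    have ht : tv (E i₀ : Fin n → F) (E j) ∈ UU n F := by
      have := isUT_tv (F := F) hij 1
      rwa [one_smul] at this
    obtain ⟨u, hu, hum⟩ := mem_PU.1 (h _ ht)
    obtain ⟨ρ, hρ⟩ := (mk_eq_iff _ _).1 hum
    have h1 := conj_tv s⁻¹ h0
    rw [inv_inv] at h1
    rw [h1, tv_coe (by have := conj_inc s⁻¹ h0; rwa [inv_inv] at this)] at hρ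
    set v : Fin n → F := ((s⁻¹ : SL) : Mat) *ᵥ E i₀ with hv
    set w : Fin n → F := E j ᵥ* (s : Mat) with hw
    have hent : ∀ a b : Fin n, (1 : Mat) a b + v a * w b = ρ * (u : Mat) a b := fun a b => by
      have := congrFun (congrFun hρ a) b
      simpa [vecMulVec_apply] using this
    have hρ1 : ρ = 1 := by
      by_contra hρ1
      have hd : ∀ a, v a * w a = ρ - 1 := fun a => by
        have := hent a a
        rw [hu a a le_rfl, Matrix.one_apply_eq, mul_one] at this
        linear_combination this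
      have h2 := hent ⟨1, by omega⟩ ⟨0, by omega⟩
      have hlt : (⟨0, by omega⟩ : Fin n) < ⟨1, by omega⟩ := by rw [Fin.lt_def]; norm_num
      rw [hu _ _ hlt.le, Matrix.one_apply_ne hlt.ne', mul_zero, zero_add] at h2
      have hne1 : ρ - 1 ≠ 0 := sub_ne_zero.2 hρ1
      rcases mul_eq_zero.1 h2 with h3 | h3
      · exact hne1 (by rw [← hd ⟨1, by omega⟩, h3, zero_mul])
      · exact hne1 (by rw [← hd ⟨0, by omega⟩, h3, mul_zero])
    rw [hρ1, one_smul] at hρ
    -- `M x - x`
    have hwx : w ⬝ᵥ x = ((s : Mat) *ᵥ x) j := by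
      rw [hw, ← Matrix.dotProduct_mulVec, single_one_dotProduct]
    have hMx : ∀ i : Fin n, k ≤ i.1 → v i = 0 := by
      intro i hi
      have h2 : ((u : Mat) *ᵥ x) i = x i := by
        rw [Matrix.mulVec, dotProduct, Finset.sum_eq_single i]
        · rw [hu i i le_rfl, Matrix.one_apply_eq, one_mul]
        · intro b _ hb
          rcases lt_or_gt_of_ne hb with h3 | h3
          · rw [hu i b h3.le, Matrix.one_apply_ne hb.symm, zero_mul]
          · rw [hx b (by have := Fin.lt_def.1 h3; omega), mul_zero]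
        · intro h3; exact absurd (Finset.mem_univ i) h3
      rw [← hρ, Matrix.add_mulVec, Matrix.one_mulVec, Pi.add_apply, Matrix.vecMulVec_mulVec] at h2
      have h3 : (v i) * (w ⬝ᵥ x) = 0 := by
        have h4 : x i + (v i) * (w ⬝ᵥ x) = x i := by
          simpa [mul_comm] using h2
        linear_combination h4
      rw [hwx] at h3
      exact (mul_eq_zero.1 h3).resolve_right hne
    have h5 := ih v hMx i₀ le_rfl
    rw [hv, Matrix.mulVec_mulVec, mul_inv_coe, Matrix.one_mulVec] at h5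
    simp at h5

/-- column elements -/
theorem col_mem (K : Subgroup SL) (hK : ∀ i j : Fin n, i < j → ∀ a : F, tv (a • (E i : Fin n → F)) (E j) ∈ K) (j : Fin n)
    (v : Fin n → F) (hv : ∀ i, j ≤ i → v i = 0) : tv v (E j) ∈ K := by
  have key : ∀ A : Finset (Fin n), (∀ i ∈ A, i < j) → tv (∑ i ∈ A, v i • (E i : Fin n → F)) (E j) ∈ K := by
    intro A
    induction A using Finset.induction_on with
    | empty => intro _; rw [Finset.sum_empty, tv_zero_left]; exact K.one_mem
    | insert i A hi ih =>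
      intro hA
      rw [Finset.sum_insert hi, ← tv_mul_left]
      · exact K.mul_mem (hK i j (hA i (Finset.mem_insert_self _ _)) _) (ih fun k hk => hA k (Finset.mem_insert_of_mem hk))
      · rw [dotProduct_smul, E_inc (hA i (Finset.mem_insert_self _ _)).ne, smul_zero]
      · rw [dotProduct_sum]
        refine Finset.sum_eq_zero fun k hk => ?_
        rw [dotProduct_smul, E_inc (hA k (Finset.mem_insert_of_mem hk)).ne, smul_zero]
  have h1 : v = ∑ i ∈ Finset.univ.filter (· < j), v i • (E i : Fin n → F) := by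
    funext k
    rw [Finset.sum_apply]
    by_cases hk : k < j
    · rw [Finset.sum_eq_single k]
      · simp
      · intro b _ hb; simp [hb.symm]
      · intro h2; exact absurd (Finset.mem_filter.2 ⟨Finset.mem_univ _, hk⟩ : k ∈ Finset.univ.filter (· < j)) h2
    · rw [hv k (not_lt.1 hk), Finset.sum_eq_zero]
      intro b hb
      have hb' := (Finset.mem_filter.1 hb).2
      have : k ≠ b := by rintro rfl; exact hk hb'
      simp [this]
  rw [h1]
  exact key _ fun i hi => (Finset.mem_filter.1 hi).2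

/-- the unitriangular group is generated by its elementary transvections -/
theorem UU_le (K : Subgroup SL) (hK : ∀ i j : Fin n, i < j → ∀ a : F, tv (a • (E i : Fin n → F)) (E j) ∈ K) : UU n F ≤ K := by
  have key : ∀ k : ℕ, ∀ u ∈ UU n F, (∀ i j : Fin n, k ≤ j.1 → i ≠ j → (u : Mat) i j = 0) → u ∈ K := by
    intro k
    induction k with
    | zero =>
      intro u hu h
      have : u = 1 := by
        apply Subtype.ext
        ext i j
        show (u : Mat) i j = (1 : Mat) i j
        by_cases hij : i = j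
        · subst hij; exact hu i i le_rfl
        · rw [h i j (Nat.zero_le _) hij, Matrix.one_apply_ne hij]
      rw [this]; exact K.one_mem
    | succ k ih =>
      intro u hu h
      by_cases hkn : k < n
      · set j₀ : Fin n := ⟨k, hkn⟩ with hj₀
        let v : Fin n → F := fun i => if i < j₀ then (u : Mat) i j₀ else 0
        have hv : ∀ i, j₀ ≤ i → v i = 0 := fun i hi => if_neg (not_lt.2 hi)
        have hrow : ∀ j, (u : Mat) j₀ j = (1 : Mat) j₀ j := by
          intro j
          rcases le_or_gt j j₀ with h1 | h1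
          · exact hu j₀ j h1
          · rw [h j₀ j (by have := Fin.lt_def.1 h1; simp only [hj₀] at this; omega) h1.ne, Matrix.one_apply_ne h1.ne]
        have hinc : (E j₀ : Fin n → F) ⬝ᵥ (-v) = 0 := by
          rw [single_one_dotProduct, Pi.neg_apply, hv j₀ le_rfl, neg_zero]
        have h1 : tv v (E j₀) ∈ K := col_mem K hK j₀ v hv
        have h2 : ((tv (-v) (E j₀) * u : SL) : Mat) = fun i j => (u : Mat) i j - v i * (1 : Mat) j₀ j := by
          show ((tv (-v) (E j₀) : SL) : Mat) * (u : Mat) = _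
          rw [tv_coe hinc, Matrix.add_mul, Matrix.one_mul, Matrix.vecMulVec_mul, Matrix.single_one_vecMul]
          ext i j
          simp only [Matrix.add_apply, vecMulVec_apply, Matrix.row_apply, Pi.neg_apply]
          rw [hrow]; ring
        have h3 : tv (-v) (E j₀) * u ∈ K := by
          refine ih _ ?_ ?_
          · intro i j hji
            rw [h2]
            simp only
            rw [hu i j hji]
            by_cases hj : j₀ = j
            · rw [hv i (hj ▸ hji), zero_mul, sub_zero]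
            · rw [Matrix.one_apply_ne hj, mul_zero, sub_zero]
          · intro i j hj hij
            rw [h2]
            simp only
            by_cases hjj : j₀ = j
            · subst hjj
              rw [Matrix.one_apply_eq, mul_one]
              by_cases hi : i < j₀
              · show _ - (if i < j₀ then (u : Mat) i j₀ else 0) = 0
                rw [if_pos hi, sub_self]
              · rw [hv i (not_lt.1 hi), sub_zero, hu i j₀ (not_lt.1 hi), Matrix.one_apply_ne hij]
            · have hj' : k + 1 ≤ j.1 := by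
                have : j₀.1 ≠ j.1 := fun h => hjj (Fin.ext h)
                simp only [hj₀] at this; omega
              rw [Matrix.one_apply_ne hjj, mul_zero, sub_zero, h i j hj' hij]
        have h4 : tv v (E j₀) * tv (-v) (E j₀) = 1 := by
          rw [tv_mul_left (by rw [single_one_dotProduct, hv j₀ le_rfl]) hinc, add_neg_cancel, tv_zero_left]
        have h5 : u = tv v (E j₀) * (tv (-v) (E j₀) * u) := by rw [← mul_assoc, h4, one_mul]
        rw [h5]
        exact K.mul_mem h1 h3
      · refine ih u hu fun i j hj => ?_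
        have := j.2
        omega
  intro u hu
  exact key n u hu fun i j hj => by have := j.2; omega

/-! ### the two local subgroups -/

theorem tv_eq_transvection {i j : Fin n} (hij : i ≠ j) (a : F) :
    (tv (a • (E i : Fin n → F)) (E j) : SL) = Matrix.SpecialLinearGroup.transvection hij a := by
  apply Subtype.ext
  rw [tv_coe (smul_inc (E_inc hij) a), Matrix.SpecialLinearGroup.transvection_coe]
  congr 1
  ext k l
  rw [vecMulVec_apply, Matrix.single_apply]
  by_cases h1 : i = k
  · by_cases h2 : j = l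
    · subst h1; subst h2; simp
    · rw [if_neg (by tauto)]
      have : l ≠ j := fun h => h2 h.symm
      simp [this]
  · rw [if_neg (by tauto)]
    have : k ≠ i := fun h => h1 h.symm
    simp [this]

/-- first local subgroup -/
def R1 (z : Fin n) : Subgroup PSL where
  carrier := {x | ∃ w : Fin n → F, w z = 0 ∧ x = mk (tv (E z) w)}
  one_mem' := ⟨0, rfl, by rw [tv_zero_right]; rfl⟩
  mul_mem' := by
    rintro _ _ ⟨w, hw, rfl⟩ ⟨w', hw', rfl⟩
    refine ⟨w + w', by rw [Pi.add_apply, hw, hw', add_zero], ?_⟩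
    rw [← mk_mul, tv_mul_right]
    · rw [dotProduct_single_one]; exact hw
    · rw [dotProduct_single_one]; exact hw'
  inv_mem' := by
    rintro _ ⟨w, hw, rfl⟩
    refine ⟨-w, by rw [Pi.neg_apply, hw, neg_zero], ?_⟩
    have h0 : w ⬝ᵥ (E z : Fin n → F) = 0 := by rw [dotProduct_single_one]; exact hw
    rw [← mk_inv, tv_inv h0]
    have := tv_smul_comm (E z : Fin n → F) w (a := (-1 : F)) (by simp)
    rw [neg_one_smul, neg_one_smul] at this
    rw [this]

/-- second local subgroup -/
def R2 (l : Fin n) : Subgroup PSL where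
  carrier := {x | ∃ v : Fin n → F, v l = 0 ∧ x = mk (tv v (E l))}
  one_mem' := ⟨0, rfl, by rw [tv_zero_left]; rfl⟩
  mul_mem' := by
    rintro _ _ ⟨w, hw, rfl⟩ ⟨w', hw', rfl⟩
    refine ⟨w + w', by rw [Pi.add_apply, hw, hw', add_zero], ?_⟩
    rw [← mk_mul, tv_mul_left]
    · rw [single_one_dotProduct]; exact hw
    · rw [single_one_dotProduct]; exact hw'
  inv_mem' := by
    rintro _ ⟨w, hw, rfl⟩
    refine ⟨-w, by rw [Pi.neg_apply, hw, neg_zero], ?_⟩
    have h0 : (E l : Fin n → F) ⬝ᵥ w = 0 := by rw [single_one_dotProduct]; exact hw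
    rw [← mk_inv, tv_inv h0]

theorem R1_conj {z : Fin n} {s : SL} {c : F} (hc : c ≠ 0) (hs : (s : Mat) *ᵥ E z = c • (E z : Fin n → F)) {x : PSL} (hx : x ∈ R1 z) :
    mk s * x * (mk s)⁻¹ ∈ R1 z := by
  obtain ⟨w, hw, rfl⟩ := hx
  have h0 : w ⬝ᵥ (E z : Fin n → F) = 0 := by rw [dotProduct_single_one]; exact hw
  have h1 := conj_inc s h0
  rw [hs, dotProduct_smul, dotProduct_single_one, smul_eq_mul] at h1
  have h2 := (mul_eq_zero.1 h1).resolve_left hc
  refine ⟨c • (w ᵥ* ((s⁻¹ : SL) : Mat)), by rw [Pi.smul_apply, h2, smul_zero], ?_⟩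
  rw [← mk_inv, ← mk_mul, ← mk_mul, conj_tv s h0, hs, tv_smul_comm _ _ hc]

theorem R2_conj {l : Fin n} {s : SL} {c : F} (hc : c ≠ 0) (hs : E l ᵥ* ((s⁻¹ : SL) : Mat) = c • (E l : Fin n → F)) {x : PSL} (hx : x ∈ R2 l) :
    mk s * x * (mk s)⁻¹ ∈ R2 l := by
  obtain ⟨v, hv, rfl⟩ := hx
  have h0 : (E l : Fin n → F) ⬝ᵥ v = 0 := by rw [single_one_dotProduct]; exact hv
  have h1 := conj_inc s h0
  rw [hs, smul_dotProduct, single_one_dotProduct, smul_eq_mul] at h1
  have h2 := (mul_eq_zero.1 h1).resolve_left hc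
  refine ⟨c • ((s : Mat) *ᵥ v), by rw [Pi.smul_apply, h2, smul_zero], ?_⟩
  rw [← mk_inv, ← mk_mul, ← mk_mul, conj_tv s h0, hs, tv_smul_comm _ _ hc]

theorem comm_entry {s : SL} {v w : Fin n → F} (hn : 1 ≤ n) (h : w ⬝ᵥ v = 0) (hc : mk s * mk (tv v w) = mk (tv v w) * mk s) :
    vecMulVec ((s : Mat) *ᵥ v) w = vecMulVec v (w ᵥ* (s : Mat)) := by
  have h1 : mk (s * tv v w * s⁻¹) = mk (tv v w) := by
    rw [mk_mul, mk_mul, hc, mk_inv, mul_inv_cancel_right]
  rw [conj_tv s h] at h1
  have h2 := mk_tv_eq hn (conj_inc s h) h h1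
  have h3 := congrArg (fun M : Mat => M * (s : Mat)) h2
  simp only [Matrix.vecMulVec_mul, Matrix.vecMul_vecMul, inv_mul_coe, Matrix.vecMul_one] at h3
  exact h3

theorem R1_cent (hn : 2 ≤ n) (z : Fin n) {x : PSL} (hx : ∀ r ∈ R1 z, x * r = r * x) : x ∈ R1 z := by
  obtain ⟨s, rfl⟩ := mk_surj x
  have hent : ∀ j k m : Fin n, j ≠ z → (s : Mat) k z * (if m = j then 1 else 0) = (if k = z then 1 else 0) * (s : Mat) j m := by
    intro j k m hj
    have h0 : (E j : Fin n → F) ⬝ᵥ (E z) = 0 := E_inc hj.symm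
    have h1 := comm_entry (by omega) h0 (hx _ ⟨E j, by simp [hj.symm], rfl⟩)
    have h2 := congrFun (congrFun h1 k) m
    simp only [vecMulVec_apply, Matrix.mulVec_single_one, Matrix.single_one_vecMul, Matrix.col_apply, Matrix.row_apply] at h2
    rw [E_apply, E_apply] at h2
    exact h2
  obtain ⟨j₀, hj₀⟩ : ∃ j : Fin n, j ≠ z := by
    by_cases hz : z = ⟨0, by omega⟩
    · exact ⟨⟨1, by omega⟩, by rw [hz]; simp [Fin.ext_iff]⟩
    · exact ⟨⟨0, by omega⟩, fun h => hz h.symm⟩
  set c := (s : Mat) z z with hcd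
  have hcol : ∀ k, k ≠ z → (s : Mat) k z = 0 := by
    intro k hk
    have := hent j₀ k j₀ hj₀
    simpa [hk] using this
  have hdiag : ∀ j m, j ≠ z → (s : Mat) j m = if m = j then c else 0 := by
    intro j m hj
    have := hent j z m hj
    rw [if_pos rfl, one_mul] at this
    rw [← this]
    by_cases h : m = j <;> simp [h, hcd]
  have hc0 : c ≠ 0 := by
    intro h0
    have h1 : (s : Mat).det = 0 := Matrix.det_eq_zero_of_column_eq_zero z fun i => by
      by_cases hi : i = z
      · rw [hi]; exact h0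
      · exact hcol i hi
    rw [s.det_coe] at h1
    exact one_ne_zero h1
  let w : Fin n → F := fun j => if j = z then 0 else c⁻¹ * (s : Mat) z j
  have hwz : w z = 0 := if_pos rfl
  have h0 : w ⬝ᵥ (E z : Fin n → F) = 0 := by rw [dotProduct_single_one]; exact hwz
  refine ⟨w, hwz, ?_⟩
  symm
  rw [mk_eq_iff]
  refine ⟨c, ?_⟩
  rw [tv_coe h0]
  ext i j
  rw [Matrix.smul_apply, Matrix.add_apply, vecMulVec_apply, smul_eq_mul]
  by_cases hi : i = z
  · subst hi
    rw [E_apply, if_pos rfl, one_mul]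
    by_cases hj : j = i
    · subst hj; rw [Matrix.one_apply_eq, hwz, add_zero, mul_one]
    · rw [Matrix.one_apply_ne (fun h => hj h.symm)]
      show _ = c * (0 + (if j = i then 0 else c⁻¹ * (s : Mat) i j))
      rw [if_neg hj, zero_add, mul_inv_cancel_left₀ hc0]
  · rw [hdiag i j hi, E_apply, if_neg hi, zero_mul, add_zero]
    by_cases hj : j = i
    · subst hj; rw [if_pos rfl, Matrix.one_apply_eq, mul_one]
    · rw [if_neg hj, Matrix.one_apply_ne (fun h => hj h.symm), mul_zero]

theorem R2_cent (hn : 2 ≤ n) (l : Fin n) {x : PSL} (hx : ∀ r ∈ R2 l, x * r = r * x) : x ∈ R2 l := by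
  obtain ⟨s, rfl⟩ := mk_surj x
  have hent : ∀ j k m : Fin n, j ≠ l → (s : Mat) k j * (if m = l then 1 else 0) = (if k = j then 1 else 0) * (s : Mat) l m := by
    intro j k m hj
    have h0 : (E l : Fin n → F) ⬝ᵥ (E j) = 0 := E_inc hj
    have h1 := comm_entry (by omega) h0 (hx _ ⟨E j, by simp [hj.symm], rfl⟩)
    have h2 := congrFun (congrFun h1 k) m
    simp only [vecMulVec_apply, Matrix.mulVec_single_one, Matrix.single_one_vecMul, Matrix.col_apply, Matrix.row_apply] at h2
    rw [E_apply, E_apply] at h2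
    exact h2
  obtain ⟨j₀, hj₀⟩ : ∃ j : Fin n, j ≠ l := by
    by_cases hz : l = ⟨0, by omega⟩
    · exact ⟨⟨1, by omega⟩, by rw [hz]; simp [Fin.ext_iff]⟩
    · exact ⟨⟨0, by omega⟩, fun h => hz h.symm⟩
  set c := (s : Mat) l l with hcd
  have hrow : ∀ m, m ≠ l → (s : Mat) l m = 0 := by
    intro m hm
    have := hent j₀ j₀ m hj₀
    simpa [hm] using this.symm
  have hdiag : ∀ j k, j ≠ l → (s : Mat) k j = if k = j then c else 0 := by
    intro j k hj
    have := hent j k l hj
    rw [if_pos rfl, mul_one] at this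
    rw [this]
    by_cases h : k = j <;> simp [h, hcd]
  have hc0 : c ≠ 0 := by
    intro h0
    have h1 : (s : Mat).det = 0 := Matrix.det_eq_zero_of_row_eq_zero l fun i => by
      by_cases hi : i = l
      · rw [hi]; exact h0
      · exact hrow i hi
    rw [s.det_coe] at h1
    exact one_ne_zero h1
  let v : Fin n → F := fun j => if j = l then 0 else c⁻¹ * (s : Mat) j l
  have hvl : v l = 0 := if_pos rfl
  have h0 : (E l : Fin n → F) ⬝ᵥ v = 0 := by rw [single_one_dotProduct]; exact hvl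
  refine ⟨v, hvl, ?_⟩
  symm
  rw [mk_eq_iff]
  refine ⟨c, ?_⟩
  rw [tv_coe h0]
  ext i j
  rw [Matrix.smul_apply, Matrix.add_apply, vecMulVec_apply, smul_eq_mul]
  by_cases hj : j = l
  · subst hj
    rw [E_apply, if_pos rfl, mul_one]
    by_cases hi : i = j
    · subst hi; rw [Matrix.one_apply_eq, hvl, add_zero, mul_one]
    · rw [Matrix.one_apply_ne hi]
      show _ = c * (0 + (if i = j then 0 else c⁻¹ * (s : Mat) i j))
      rw [if_neg hi, zero_add, mul_inv_cancel_left₀ hc0]
  · rw [hdiag j i hj, E_apply, if_neg hj, mul_zero, add_zero]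
    by_cases hi : i = j
    · subst hi; rw [if_pos rfl, Matrix.one_apply_eq, mul_one]
    · rw [if_neg hi, Matrix.one_apply_ne hi, mul_zero]

/-! ### diagonal elements -/

/-- diagonal element -/
def dg (D : Fin n → F) (hD : (Matrix.diagonal D).det = 1) : SL := ⟨Matrix.diagonal D, hD⟩

theorem diag_conj (D : Fin n → F) (hD : (Matrix.diagonal D).det = 1) (i j : Fin n) (u : SL) :
    (((dg D hD) * u * (dg D hD)⁻¹ : SL) : Mat) i j = D i * (u : Mat) i j * (D j)⁻¹ := by
  have h0 : ∀ i, D i ≠ 0 := Matrix.SpecialLinearGroup.diagonal_neZero D hD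
  set d : SL := dg D hD with hd
  have h1 : ((d * u * d⁻¹ : SL) : Mat) * (d : Mat) = (d : Mat) * (u : Mat) := by
    have : d * u * d⁻¹ * d = d * u := by group
    exact congrArg Subtype.val this
  have h2 : (((d * u * d⁻¹ : SL) : Mat) * Matrix.diagonal D) i j = (Matrix.diagonal D * (u : Mat)) i j := congrFun (congrFun h1 i) j
  rw [Matrix.mul_diagonal, Matrix.diagonal_mul] at h2
  rw [← h2, mul_inv_cancel_right₀ (h0 j)]

theorem diag_UU (D : Fin n → F) (hD : (Matrix.diagonal D).det = 1) {u : SL} (hu : u ∈ UU n F) :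
    (dg D hD) * u * (dg D hD)⁻¹ ∈ UU n F := by
  have h0 : ∀ i, D i ≠ 0 := Matrix.SpecialLinearGroup.diagonal_neZero D hD
  intro i j hij
  rw [diag_conj, hu i j hij]
  by_cases h : i = j
  · subst h; rw [Matrix.one_apply_eq, mul_one, mul_inv_cancel₀ (h0 i)]
  · rw [Matrix.one_apply_ne h, mul_zero, zero_mul]

theorem diag_tv (D : Fin n → F) (hD : (Matrix.diagonal D).det = 1) {i j : Fin n} (hij : i ≠ j) (a : F) :
    (dg D hD) * tv (a • (E i : Fin n → F)) (E j) * (dg D hD)⁻¹ =
      tv ((D i * a * (D j)⁻¹) • (E i : Fin n → F)) (E j) := by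
  have h0 : ∀ i, D i ≠ 0 := Matrix.SpecialLinearGroup.diagonal_neZero D hD
  apply Subtype.ext
  ext k m
  rw [diag_conj, tv_coe (smul_inc (E_inc hij) _), tv_coe (smul_inc (E_inc hij) _), Matrix.add_apply, Matrix.add_apply,
    vecMulVec_apply, vecMulVec_apply, Pi.smul_apply, Pi.smul_apply, smul_eq_mul, smul_eq_mul, E_apply, E_apply]
  by_cases hk : k = i
  · subst hk
    by_cases hm : m = j
    · subst hm
      rw [if_pos rfl, if_pos rfl, Matrix.one_apply_ne hij]; ring
    · rw [if_neg hm, mul_zero, mul_zero, add_zero]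
      try rw [add_zero]
      by_cases hkm : k = m
      · subst hkm; rw [Matrix.one_apply_eq, mul_one, mul_inv_cancel₀ (h0 k)]
      · rw [Matrix.one_apply_ne hkm]; ring
  · rw [if_neg hk]
    by_cases hkm : k = m
    · subst hkm; rw [Matrix.one_apply_eq]; simp [mul_inv_cancel₀ (h0 k)]
    · rw [Matrix.one_apply_ne hkm]; ring

/-! ### strongly closed subgroups -/

section Fin
variable [Fintype F] {p : ℕ} [hp : Fact p.Prime] [CharP F p]

include hp in
variable (p) in
theorem sc_top (hn : 3 ≤ n) {T : Subgroup PSL} (hT : SC (PU n F) T) (h1 : T ≠ ⊥) : PU n F ≤ T := by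
  obtain ⟨x, hxT, hxo, hxc⟩ := SC.exists_central (isPGroup_PU (p := p) (by omega)) hT h1
  set z : Fin n := ⟨0, by omega⟩ with hz
  set l : Fin n := ⟨n - 1, by omega⟩ with hl
  have hzl : z ≠ l := by
    intro h
    have := congrArg Fin.val h
    simp only [hz, hl] at this
    omega
  have hx1 : x ∈ X (E z) (E l) := by
    rw [← center_PU (by omega)]
    exact Subgroup.mem_inf.2 ⟨hT.1 hxT, Subgroup.mem_centralizer_iff.2 hxc⟩
  rw [mem_X] at hx1
  obtain ⟨a, hxa⟩ := hx1
  rw [hxa] at hxT hxo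
  have ha : a ≠ 0 := by
    rintro rfl
    rw [zero_smul, tv_zero_left, mk_one, orderOf_one] at hxo
    exact hp.out.one_lt.ne hxo
  have key : ∀ i j : Fin n, i < j → ∀ b : F, mk (tv (b • (E i : Fin n → F)) (E j)) ∈ T := by
    intro i j hij b
    by_cases hb : b = 0
    · rw [hb, zero_smul, tv_zero_left]; exact T.one_mem
    obtain ⟨s, c, hc, hs⟩ := exists_s_pair (F := F) hzl (E_ne_zero i) (E_ne_zero j) (E_inc hij.ne)
    -- a third index
    obtain ⟨k, hki, hkj⟩ : ∃ k : Fin n, k ≠ i ∧ k ≠ j := by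
      by_contra hcon
      push Not at hcon
      have h3 : (Finset.univ : Finset (Fin n)) ⊆ {i, j} := fun k _ => by
        by_cases h : k = i
        · simp [h]
        · simp [hcon k h]
      have h4 := Finset.card_le_card h3
      rw [Finset.card_univ, Fintype.card_fin] at h4
      have := Finset.card_le_two (a := i) (b := j)
      omega
    have hlam : b * (a * c)⁻¹ ≠ 0 := mul_ne_zero hb (inv_ne_zero (mul_ne_zero ha hc))
    set D : Fin n → F := fun m => if m = i then b * (a * c)⁻¹ else if m = k then (b * (a * c)⁻¹)⁻¹ else 1 with hD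
    set d : SL := Matrix.SpecialLinearGroup.diag2n hki.symm (b * (a * c)⁻¹) hlam with hd
    have hDdet : (Matrix.diagonal D).det = 1 := d.2
    have hdD : d = dg D hDdet := rfl
    have h2 : d * s * tv (a • (E z : Fin n → F)) (E l) * (d * s)⁻¹ = tv (b • (E i : Fin n → F)) (E j) := by
      have h3 : d * s * tv (a • (E z : Fin n → F)) (E l) * (d * s)⁻¹ = d * (s * tv (a • (E z : Fin n → F)) (E l) * s⁻¹) * d⁻¹ := by
        group
      rw [h3]
      have h4 : s * tv (a • (E z : Fin n → F)) (E l) * s⁻¹ = tv ((a * c) • (E i : Fin n → F)) (E j) := hs a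
      rw [h4, hdD, diag_tv D hDdet hij.ne]
      congr 2
      have h5 : D i = b * (a * c)⁻¹ := if_pos rfl
      have h6 : D j = 1 := by rw [hD]; simp only; rw [if_neg hij.ne', if_neg hkj.symm]
      rw [h5, h6, inv_one, mul_one, inv_mul_cancel_right₀ (mul_ne_zero ha hc)]
    have h3 : mk (d * s) * mk (tv (a • (E z : Fin n → F)) (E l)) * (mk (d * s))⁻¹ = mk (tv (b • (E i : Fin n → F)) (E j)) := by
      rw [← mk_inv, ← mk_mul, ← mk_mul, h2]
    rw [← h3]
    refine hT.2 _ hxT _ ?_
    rw [h3]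
    exact ⟨_, isUT_tv hij b, rfl⟩
  have h4 : UU n F ≤ T.comap (QuotientGroup.mk' _) := UU_le _ fun i j hij b => key i j hij b
  rintro _ ⟨u, hu, rfl⟩
  exact h4 hu

/-! ### the normalizer -/

theorem tv_pow (v w : Fin n → F) (a : F) (k : ℕ) : tv (a • v) w ^ k = tv (((k : F) * a) • v) w := by
  induction k with
  | zero => rw [pow_zero, Nat.cast_zero, zero_mul, zero_smul, tv_zero_left]
  | succ k ih =>
    rw [pow_succ, ih, tv_smul_mul]
    congr 2
    push_cast; ring

theorem tv_order (v w : Fin n → F) (a : F) : ∃ k : ℕ, orderOf (mk (tv (a • v) w)) = p ^ k := by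
  have h1 : mk (tv (a • v) w) ^ p = 1 := by
    have : mk (tv (a • v) w ^ p) = 1 := by
      rw [tv_pow, CharP.cast_eq_zero, zero_mul, zero_smul, tv_zero_left]; rfl
    exact this
  rcases (Nat.dvd_prime hp.out).1 (orderOf_dvd_of_pow_eq_one h1) with h2 | h2
  · exact ⟨0, by rw [h2, pow_zero]⟩
  · exact ⟨1, by rw [h2, pow_one]⟩

theorem diag_normPU {D : Fin n → F} (hD : (Matrix.diagonal D).det = 1) : ∀ x ∈ PU n F,
    mk (dg D hD) * x * (mk (dg D hD))⁻¹ ∈ PU n F := by
  rintro _ ⟨u, hu, rfl⟩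
  exact ⟨_, diag_UU D hD hu, rfl⟩

theorem R1_le {z : Fin n} (hz : z.1 = 0) : R1 (F := F) z ≤ PU n F := by
  rintro _ ⟨w, hw, rfl⟩
  refine ⟨_, ?_, rfl⟩
  intro i j hij
  rw [tv_coe (by rw [dotProduct_single_one]; exact hw), Matrix.add_apply, vecMulVec_apply, E_apply]
  by_cases hi : i = z
  · have : j = z := by
      subst hi
      apply Fin.ext
      have := Fin.le_def.1 hij
      omega
    rw [this, hw, mul_zero, add_zero]
  · rw [if_neg hi, zero_mul, add_zero]

theorem R2_le {l : Fin n} (hl : l.1 = n - 1) : R2 (F := F) l ≤ PU n F := by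
  rintro _ ⟨v, hv, rfl⟩
  refine ⟨_, ?_, rfl⟩
  intro i j hij
  rw [tv_coe (by rw [single_one_dotProduct]; exact hv), Matrix.add_apply, vecMulVec_apply, E_apply]
  by_cases hj : j = l
  · have : i = l := by
      subst hj
      apply Fin.ext
      have := Fin.le_def.1 hij
      have := i.2
      omega
    rw [this, hv, zero_mul, add_zero]
  · rw [if_neg hj, mul_zero, add_zero]

theorem UU_mulVec {z : Fin n} (hz : z.1 = 0) {u : SL} (hu : u ∈ UU n F) : (u : Mat) *ᵥ (E z) = (1 : F) • (E z : Fin n → F) := by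
  rw [one_smul]
  funext i
  simp only [Matrix.mulVec_single_one, Matrix.col_apply]
  rw [hu i z (Fin.le_def.2 (by omega)), E_apply]
  by_cases hi : i = z
  · subst hi; simp
  · simp [Matrix.one_apply, hi]

theorem UU_vecMul {l : Fin n} (hl : l.1 = n - 1) {u : SL} (hu : u ∈ UU n F) : (E l) ᵥ* (u : Mat) = (1 : F) • (E l : Fin n → F) := by
  rw [one_smul]
  funext i
  simp only [Matrix.single_one_vecMul, Matrix.row_apply]
  rw [hu l i (Fin.le_def.2 (by have := i.2; omega)), E_apply]
  by_cases hi : i = l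
  · subst hi; simp
  · simp [Matrix.one_apply, hi, Ne.symm hi]

theorem R1_norm {z : Fin n} (hz : z.1 = 0) : ∀ s ∈ PU n F, ∀ r ∈ R1 (F := F) z, s * r * s⁻¹ ∈ R1 z := by
  rintro _ ⟨u, hu, rfl⟩ r hr
  exact R1_conj one_ne_zero (UU_mulVec hz hu) hr

theorem R2_norm {l : Fin n} (hl : l.1 = n - 1) : ∀ s ∈ PU n F, ∀ r ∈ R2 (F := F) l, s * r * s⁻¹ ∈ R2 l := by
  rintro _ ⟨u, hu, rfl⟩ r hr
  exact R2_conj one_ne_zero (UU_vecMul hl ((UU n F).inv_mem hu)) hr

theorem tr_pel1 {z : Fin n} {i j : Fin n} (hij : i ≠ j) (hj : j ≠ z) (a : F) :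
    mk (Matrix.SpecialLinearGroup.transvection hij a : SL) ∈ pel p (R1 (F := F) z) := by
  rw [← tv_eq_transvection]
  refine ⟨fun r hr => R1_conj one_ne_zero ?_ hr, tv_order _ _ _⟩
  rw [tv_coe (smul_inc (E_inc hij) _), Matrix.add_mulVec, Matrix.one_mulVec, Matrix.vecMulVec_mulVec, one_smul]
  have : (E j : Fin n → F) ⬝ᵥ E z = 0 := E_inc hj.symm
  rw [this]
  simp

theorem tr_pel2 {l : Fin n} {i j : Fin n} (hij : i ≠ j) (hi : i ≠ l) (a : F) :
    mk (Matrix.SpecialLinearGroup.transvection hij a : SL) ∈ pel p (R2 (F := F) l) := by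
  rw [← tv_eq_transvection]
  refine ⟨fun r hr => R2_conj one_ne_zero ?_ hr, tv_order _ _ _⟩
  rw [tv_inv (smul_inc (E_inc hij) _), ← neg_smul, tv_coe (smul_inc (E_inc hij) _), Matrix.vecMul_add, Matrix.vecMul_one, one_smul,
    Matrix.vecMul_vecMulVec]
  have : (E l : Fin n → F) ⬝ᵥ (-a • E i) = 0 := by rw [dotProduct_smul, E_inc hi, smul_zero]
  rw [this, zero_smul, add_zero]

theorem diag_NGs (hn : 3 ≤ n) {i j : Fin n} (hij : i ≠ j) (h1 : j.1 = 1) (a : F) (ha : a ≠ 0) :
    mk (Matrix.SpecialLinearGroup.diag2n hij a ha : SL) ∈ NGs p (PU n F) := by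
  set z : Fin n := ⟨0, by omega⟩ with hz
  set l : Fin n := ⟨n - 1, by omega⟩ with hl
  refine ⟨fun x hx => diag_normPU _ x hx, ?_⟩
  have hjz : j ≠ z := fun h => by rw [h] at h1; simp [hz] at h1
  have hjl : j ≠ l := fun h => by rw [h] at h1; simp only [hl] at h1; omega
  by_cases hi : i = z
  · have hil : i ≠ l := by rw [hi]; intro h; have := congrArg Fin.val h; simp only [hz, hl] at this; omega
    refine ⟨R2 l, R2_le rfl, R2_norm rfl, fun x hx => R2_cent (by omega) l hx, ?_⟩
    rw [Cfsg.Agent.Lib.SLn.diag2n_eq_prod]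
    have key : ∀ b : F, mk (Matrix.SpecialLinearGroup.transvection hij b : SL) ∈ Subgroup.closure (pel p (R2 (F := F) l)) :=
      fun b => Subgroup.subset_closure (tr_pel2 hij hil b)
    have key' : ∀ b : F, mk (Matrix.SpecialLinearGroup.transvection hij.symm b : SL) ∈ Subgroup.closure (pel p (R2 (F := F) l)) :=
      fun b => Subgroup.subset_closure (tr_pel2 hij.symm hjl b)
    simp only [mk_mul]
    exact mul_mem (mul_mem (mul_mem (key _) (key' _)) (key _)) (mul_mem (mul_mem (key _) (key' _)) (key _))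
  · refine ⟨R1 z, R1_le rfl, R1_norm rfl, fun x hx => R1_cent (by omega) z hx, ?_⟩
    rw [Cfsg.Agent.Lib.SLn.diag2n_eq_prod]
    have key : ∀ b : F, mk (Matrix.SpecialLinearGroup.transvection hij b : SL) ∈ Subgroup.closure (pel p (R1 (F := F) z)) :=
      fun b => Subgroup.subset_closure (tr_pel1 hij hjz b)
    have key' : ∀ b : F, mk (Matrix.SpecialLinearGroup.transvection hij.symm b : SL) ∈ Subgroup.closure (pel p (R1 (F := F) z)) :=
      fun b => Subgroup.subset_closure (tr_pel1 hij.symm hi b)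
    simp only [mk_mul]
    exact mul_mem (mul_mem (mul_mem (key _) (key' _)) (key _)) (mul_mem (mul_mem (key _) (key' _)) (key _))

theorem norm_mem (hn : 3 ≤ n) (g : PSL) (hg : ∀ x ∈ PU n F, g * x * g⁻¹ ∈ PU n F) :
    g ∈ Subgroup.closure (NGs p (PU n F)) := by
  obtain ⟨s, rfl⟩ := mk_surj g
  have hn1 : mk s ∈ Subgroup.normalizer (PU n F : Set PSL) := Cfsg.Agent.Lib.FusBase.mem_normalizer_of_conj_mem hg
  have hfl := flag (n := n) (by omega) s (fun u hu => by
    rw [Subgroup.mem_normalizer_iff''] at hn1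
    exact (hn1 _).1 ⟨u, hu, rfl⟩)
  have hut : ∀ i j : Fin n, j < i → (s : Mat) i j = 0 := by
    intro i j hij
    have := hfl (j.1 + 1) (E j) (fun m hm => by
      rw [E_apply, if_neg]
      rintro rfl
      omega) i (by have := Fin.lt_def.1 hij; omega)
    simpa using this
  have hdet : ∏ i, (s : Mat) i i = 1 := by
    rw [← Matrix.det_of_upperTriangular (M := (s : Mat)) (fun i j h => hut i j h)]
    exact s.2
  have h0 : ∀ i, (s : Mat) i i ≠ 0 := fun i h => by
    have : ∏ i, (s : Mat) i i = 0 := Finset.prod_eq_zero (Finset.mem_univ i) h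
    rw [hdet] at this
    exact one_ne_zero this
  set D : Fin n → F := fun i => (s : Mat) i i with hDd
  have hD : (Matrix.diagonal D).det = 1 := by rw [Matrix.det_diagonal]; exact hdet
  set d : SL := dg D hD with hd
  have hu : d⁻¹ * s ∈ UU n F := by
    intro i j hij
    have h1 : (d : Mat) * ((d⁻¹ * s : SL) : Mat) = (s : Mat) := by
      have : d * (d⁻¹ * s) = s := by group
      exact congrArg Subtype.val this
    have h2 := congrFun (congrFun h1 i) j
    have h3 : D i * ((d⁻¹ * s : SL) : Mat) i j = (s : Mat) i j := by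
      rw [← h2]
      show _ = (Matrix.diagonal D * ((d⁻¹ * s : SL) : Mat)) i j
      rw [Matrix.diagonal_mul]
    apply mul_left_cancel₀ (h0 i)
    rw [show (s : Mat) i i = D i from rfl, h3]
    by_cases h : i = j
    · subst h; rw [Matrix.one_apply_eq, mul_one]
    · rw [Matrix.one_apply_ne h, mul_zero]
      exact hut i j (lt_of_le_of_ne hij (Ne.symm h))
  have h1 : mk s = mk d * mk (d⁻¹ * s) := by rw [← mk_mul]; congr 1; group
  rw [h1]
  refine mul_mem ?_ ?_
  · set o : Fin n := ⟨1, by omega⟩ with ho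
    rw [hd, dg, Matrix.SpecialLinearGroup.diag_eq_diag2n_prod o D hD]
    refine Finset.noncommProd_induction _ _ _ (fun s : SL => mk s ∈ Subgroup.closure (NGs p (PU n F)))
      (fun a b ha hb => by rw [mk_mul]; exact mul_mem ha hb) (one_mem _) fun i hi => ?_
    have hio : i ≠ o := (Finset.mem_filter.1 hi).2
    simp only [dif_pos hio]
    exact Subgroup.subset_closure (diag_NGs hn hio rfl _ _)
  · apply Subgroup.subset_closure
    have hm : mk (d⁻¹ * s) ∈ PU n F := ⟨_, hu, rfl⟩
    refine ⟨fun x hx => mul_mem (mul_mem hm hx) (inv_mem hm), R1 ⟨0, by omega⟩, R1_le rfl, R1_norm rfl,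
      fun x hx => R1_cent (by omega) _ hx, Subgroup.subset_closure ⟨fun r hr => R1_norm rfl _ hm r hr, ?_⟩⟩
    obtain ⟨k, hk⟩ := (isPGroup_PU (n := n) (F := F) (p := p) (by omega)) ⟨_, hm⟩
    have h2 : (mk (d⁻¹ * s)) ^ p ^ k = 1 := by
      have := congrArg Subtype.val hk
      simpa using this
    obtain ⟨m, -, hm2⟩ := (Nat.dvd_prime_pow hp.out).1 (orderOf_dvd_of_pow_eq_one h2)
    exact ⟨m, hm2⟩

theorem isSimple (hn : 3 ≤ n) (S : Sylow p PSL) : (groupFusionSystem (S : Subgroup PSL)).IsSimple p := by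
  refine simple_of_norm' (sylU (by omega) p) S ?_ ?_ ?_
  · rw [sylU_coe]
    intro h
    have h1 : mk (tv ((1 : F) • (E ⟨0, by omega⟩ : Fin n → F)) (E ⟨1, by omega⟩)) ∈ PU n F :=
      ⟨_, isUT_tv (by rw [Fin.lt_def]; norm_num) 1, rfl⟩
    rw [h, Subgroup.mem_bot, one_smul] at h1
    exact mk_tv_ne_one (by omega) (E_inc (by simp [Fin.ext_iff])) (E_ne_zero _) (E_ne_zero _) h1
  · intro T hT hT1
    exact sc_top p hn hT hT1
  · intro g hg
    exact norm_mem hn g hg

end Fin

end Cfsg.Agent.H8.PslFus
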