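import Mathlib
import Cfsg.Agent.H8.Uni4

set_option autoImplicit false
set_option linter.all false

/-! Centralizers of field automorphisms of odd prime order of `PSU_n(q)`. -/

namespace Cfsg.Agent.H8.Uni

open Matrix Cfsg.Agent.H8.GrStd Cfsg.Agent.H8.AutPSL Cfsg.Agent.Lib Cfsg.Agent.H8.MSys Cfsg.Agent.Lib.Herm Cfsg.Agent.H8.Theta

variable {n q q₀ : ℕ} {F : Type*} [Field F] {F₀ : Type*} [Field F₀]

theorem mapU_mem {τ : F ≃+* F} {τ₀ : F₀ ≃+* F₀} (hτ2 : ∀ a, τ (τ a) = a) (hτ₀2 : ∀ a, τ₀ (τ₀ a) = a) (hq : ∀ a, τ a = a ^ q) (hq₀ : ∀ a, τ₀ a = a ^ q₀)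
    (ι : F₀ →+* F) (hc : ∀ y, τ (ι y) = ι (τ₀ y)) (g : Cfsg.GU n F₀ q₀) : GeneralLinearGroup.map ι g.1 ∈ Cfsg.GU n F q := by
  rw [gu_iff_st hτ2 hq]
  show st τ (g.1.1.map ι) * g.1.1.map ι = 1
  rw [st_map ι hc, ← map_mulR, (gu_iff_st hτ₀2 hq₀ g.1).1 g.2]
  exact Matrix.map_one ι (map_zero _) (map_one _)

/-- the unitary group over the subfield -/
noncomputable def mapU {τ : F ≃+* F} {τ₀ : F₀ ≃+* F₀} (hτ2 : ∀ a, τ (τ a) = a) (hτ₀2 : ∀ a, τ₀ (τ₀ a) = a) (hq : ∀ a, τ a = a ^ q) (hq₀ : ∀ a, τ₀ a = a ^ q₀)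
    (ι : F₀ →+* F) (hc : ∀ y, τ (ι y) = ι (τ₀ y)) : Cfsg.GU n F₀ q₀ →* (US n F q).Γ where
  toFun g := ⟨GeneralLinearGroup.map ι g.1, mapU_mem hτ2 hτ₀2 hq hq₀ ι hc g⟩
  map_one' := Subtype.ext (map_one _)
  map_mul' a b := Subtype.ext (map_mul _ _ _)

theorem exists_descU [Fintype F] [Finite F₀] (hn : 1 ≤ n) {τ : F ≃+* F} {τ₀ : F₀ ≃+* F₀} (hτ2 : ∀ a, τ (τ a) = a) (hτ₀ : orderOf τ₀ = 2) (hτ₀2 : ∀ a, τ₀ (τ₀ a) = a) (hq : ∀ a, τ a = a ^ q) (hq₀ : ∀ a, τ₀ a = a ^ q₀)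
    (ι : F₀ →+* F) (hc : ∀ y, τ (ι y) = ι (τ₀ y)) {σ : F ≃+* F} (hι : ∀ x, σ x = x ↔ ∃ y, ι y = x) {r : ℕ} (hr : orderOf σ = r) (hr0 : 0 < r)
    (g : (US n F q).Γ) {c : F} (hg : g.1.1.map σ = c • g.1.1) : ∃ (b : F) (g0 : Cfsg.GU n F₀ q₀), b ≠ 0 ∧ g.1.1 = b • (mapU hτ2 hτ₀2 hq hq₀ ι hc g0).1.1 := by
  obtain ⟨-, -, hτ₀3⟩ := sigma_facts hτ₀
  obtain ⟨b, hb, hfix⟩ := AutPSL.exists_fixed_scaling hn hr hr0 hg
  let g' : GL (Fin n) F := GeneralLinearGroup.scalar (Fin n) (Units.mk0 b hb) * g.1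
  have hg' : g'.1 = b • g.1.1 := by
    show Matrix.scalar (Fin n) b * g.1.1 = _
    rw [Matrix.scalar_apply, ← Matrix.smul_one_eq_diagonal, Matrix.smul_mul, Matrix.one_mul]
  obtain ⟨g1, hg1⟩ := exists_desc ι hι g' (by rw [hg']; exact hfix)
  have h1 : (st τ₀ g1.1 * g1.1).map ι = (τ b * b) • (1 : Matrix (Fin n) (Fin n) F) := by
    rw [map_mulR, ← st_map ι hc, hg1, hg', st_smul', Matrix.smul_mul, Matrix.mul_smul, (gu_iff_st hτ2 hq g.1).1 g.2, smul_smul]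
  set ν : F₀ := (st τ₀ g1.1 * g1.1) ⟨0, hn⟩ ⟨0, hn⟩ with hν
  have hιν : ι ν = τ b * b := by
    have := congrFun (congrFun h1 ⟨0, hn⟩) ⟨0, hn⟩
    rw [Matrix.smul_apply, Matrix.one_apply_eq, smul_eq_mul, mul_one] at this
    exact this
  have hν0 : ν ≠ 0 := by
    intro h0
    rw [h0, map_zero] at hιν
    rcases mul_eq_zero.1 hιν.symm with h2 | h2
    · exact hb ((map_eq_zero_iff τ τ.injective).1 h2)
    · exact hb h2
  have hντ : τ₀ ν = ν := by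
    apply ι.injective
    rw [← hc, hιν, map_mul, hτ2, mul_comm]
  have h2 : st τ₀ g1.1 * g1.1 = ν • (1 : Matrix (Fin n) (Fin n) F₀) := by
    apply map_inj ι
    rw [h1, ← hιν]
    ext i j
    show ι ν * (1 : Matrix (Fin n) (Fin n) F) i j = ι (ν * (1 : Matrix (Fin n) (Fin n) F₀) i j)
    rw [map_mul, Matrix.one_apply, Matrix.one_apply]
    split_ifs <;> simp
  obtain ⟨b1, hb10, hb1⟩ := hτ₀3 ν⁻¹ (inv_ne_zero hν0) (by rw [map_inv₀, hντ])
  let g0 : GL (Fin n) F₀ := GeneralLinearGroup.scalar (Fin n) (Units.mk0 b1 hb10) * g1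
  have hg0 : g0.1 = b1 • g1.1 := by
    show Matrix.scalar (Fin n) b1 * g1.1 = _
    rw [Matrix.scalar_apply, ← Matrix.smul_one_eq_diagonal, Matrix.smul_mul, Matrix.one_mul]
  have hmem : g0 ∈ Cfsg.GU n F₀ q₀ := by
    rw [gu_iff_st hτ₀2 hq₀, hg0, st_smul', Matrix.smul_mul, Matrix.mul_smul, h2, smul_smul, smul_smul]
    have : τ₀ b1 * b1 * ν = 1 := by
      calc τ₀ b1 * b1 * ν = (b1 * τ₀ b1) * ν := by ring
        _ = 1 := by rw [hb1, inv_mul_cancel₀ hν0]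
    rw [this, one_smul]
  refine ⟨(ι b1 * b)⁻¹, ⟨g0, hmem⟩, inv_ne_zero (mul_ne_zero ((map_ne_zero_iff ι ι.injective).2 hb10) hb), ?_⟩
  have h3 : (mapU hτ2 hτ₀2 hq hq₀ ι hc ⟨g0, hmem⟩).1.1 = g0.1.map ι := rfl
  have h4 : g0.1.map ι = (ι b1 * b) • g.1.1 := by
    rw [hg0]
    have : (b1 • g1.1).map ι = ι b1 • g1.1.map ι := by
      ext i j
      show ι (b1 * g1.1 i j) = ι b1 * ι (g1.1 i j)
      rw [map_mul]
    rw [this, hg1, hg', smul_smul]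
  rw [h3, h4, smul_smul, inv_mul_cancel₀ (mul_ne_zero ((map_ne_zero_iff ι ι.injective).2 hb10) hb), one_smul]

theorem centralizer_equiv [Fintype F] [Finite F₀] (hF : Fintype.card F = q ^ 2) (hn : 3 ≤ n) {τ : F ≃+* F} {τ₀ : F₀ ≃+* F₀} (hτ2 : ∀ a, τ (τ a) = a) (hτ₀ : orderOf τ₀ = 2) (hτ₀2 : ∀ a, τ₀ (τ₀ a) = a) (hq : ∀ a, τ a = a ^ q) (hq₀ : ∀ a, τ₀ a = a ^ q₀)
    (ι : F₀ →+* F) (hc : ∀ y, τ (ι y) = ι (τ₀ y)) (σ : (US n F q).A) (hι : ∀ x, σ.1 x = x ↔ ∃ y, ι y = x) {r : ℕ} (hr : orderOf σ.1 = r) (hr0 : 0 < r) :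
    Nonempty (↥((US n F q).delta.range ⊓ Subgroup.centralizer {(US n F q).psi σ}) ≃* Cfsg.PGU n F₀ q₀) := by
  have hn1 : 1 ≤ n := by omega
  have hmem : ∀ g0 : Cfsg.GU n F₀ q₀, (US n F q).delta (mapU hτ2 hτ₀2 hq hq₀ ι hc g0) ∈
      ((US n F q).delta.range ⊓ Subgroup.centralizer {(US n F q).psi σ}) := by
    intro g0
    refine ⟨⟨_, rfl⟩, ?_⟩
    refine ((US n F q).mem_centralizer_iff (hker' hF hn) σ _).mpr ⟨1, ?_⟩
    rw [one_smul]
    ext i j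
    exact (hι _).mpr ⟨_, rfl⟩
  let f : Cfsg.GU n F₀ q₀ →* ↥((US n F q).delta.range ⊓ Subgroup.centralizer {(US n F q).psi σ}) :=
    ((US n F q).delta.comp (mapU hτ2 hτ₀2 hq hq₀ ι hc)).codRestrict _ hmem
  apply AutPSL.projQuot_equiv (Cfsg.GU n F₀ q₀) f
  · rintro ⟨_, ⟨g, rfl⟩, hg⟩
    obtain ⟨c, hcg⟩ := ((US n F q).mem_centralizer_iff (hker' hF hn) σ g).mp hg
    obtain ⟨b, g0, hb, h1⟩ := exists_descU hn1 hτ2 hτ₀ hτ₀2 hq hq₀ ι hc hι hr hr0 g hcg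
    refine ⟨g0, Subtype.ext ?_⟩
    show (US n F q).delta (mapU hτ2 hτ₀2 hq hq₀ ι hc g0) = (US n F q).delta g
    exact ((US n F q).delta_eq_iff (hker' hF hn) _ _).mpr ⟨b, h1⟩
  · intro g
    have e : f g = 1 ↔ (US n F q).delta (mapU hτ2 hτ₀2 hq hq₀ ι hc g) = 1 := by
      constructor
      · intro h; exact congrArg Subtype.val h
      · intro h; exact Subtype.ext h
    rw [e, (US n F q).delta_eq_one_iff (hker' hF hn), Cfsg.Geo.mem_scalars_iff]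
    constructor
    · rintro ⟨c, hc'⟩
      have hent : ∀ i j, ι (g.1.1 i j) = c * (1 : Matrix (Fin n) (Fin n) F) i j := fun i j => congrFun (congrFun hc' i) j
      set z : Fin n := ⟨0, hn1⟩
      have hcz : ι (g.1.1 z z) = c := by
        rw [hent, Matrix.one_apply_eq, mul_one]
      have hne : g.1.1 z z ≠ 0 := by
        intro h0
        have h1 : (g.1.1 * (g.1⁻¹).1) z z = 1 := by rw [← Units.val_mul, mul_inv_cancel, Units.val_one, Matrix.one_apply_eq]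
        rw [h0, map_zero] at hcz
        have h2 : g.1.1 = 0 := by
          ext i j
          apply ι.injective
          rw [hent, ← hcz, zero_mul]; exact (map_zero ι).symm
        rw [h2, Matrix.zero_mul] at h1
        exact zero_ne_one h1
      refine ⟨Units.mk0 _ hne, ?_⟩
      ext i j
      apply ι.injective
      show ι (g.1.1 i j) = ι (g.1.1 z z * (1 : Matrix (Fin n) (Fin n) F₀) i j)
      rw [hent, map_mul, hcz]
      by_cases hij : i = j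
      · subst hij; simp
      · simp [hij]
    · rintro ⟨u, hu⟩
      refine ⟨ι u, ?_⟩
      show g.1.1.map ι = _
      rw [hu]
      ext i j
      by_cases hij : i = j
      · subst hij; simp
      · simp [hij]

/-- norm one elements of the subfield -/
def nuMap {τ : F ≃+* F} {τ₀ : F₀ ≃+* F₀} (ι : F₀ →+* F) (hc : ∀ y, τ (ι y) = ι (τ₀ y)) : NU τ₀ →* NU τ where
  toFun a := ⟨Units.map (ι : F₀ →* F) a.1, by
    show ι (a.1 : F₀) * τ (ι (a.1 : F₀)) = 1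
    rw [hc, ← map_mul, show (a.1 : F₀) * τ₀ (a.1 : F₀) = 1 from a.2, map_one]⟩
  map_one' := Subtype.ext (map_one _)
  map_mul' a b := Subtype.ext (map_mul _ _ _)

theorem nuMap_inj {τ : F ≃+* F} {τ₀ : F₀ ≃+* F₀} (ι : F₀ →+* F) (hc : ∀ y, τ (ι y) = ι (τ₀ y)) : Function.Injective (nuMap ι hc) := by
  intro a b h
  apply Subtype.ext
  exact Units.map_injective ι.injective (congrArg Subtype.val h)

theorem split_PSU [Fintype F] [Fintype F₀] (hF : Fintype.card F = q ^ 2) (hF₀ : Fintype.card F₀ = q₀ ^ 2) (hn : 3 ≤ n) {τ : F ≃+* F} {τ₀ : F₀ ≃+* F₀} (hτ : orderOf τ = 2) (hτ2 : ∀ a, τ (τ a) = a) (hτ₀ : orderOf τ₀ = 2) (hτ₀2 : ∀ a, τ₀ (τ₀ a) = a) (hq : ∀ a, τ a = a ^ q) (hq₀ : ∀ a, τ₀ a = a ^ q₀)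
    (ι : F₀ →+* F) (hc : ∀ y, τ (ι y) = ι (τ₀ y)) (σ : (US n F q).A) (hι : ∀ x, σ.1 x = x ↔ ∃ y, ι y = x) {r : ℕ} (hr : orderOf σ.1 = r) (hr0 : 0 < r) :
    Cfsg.splitClassCount (US n F q).delta.range (Cfsg.Inn (Cfsg.PSU n F q)) ((US n F q).psi σ) = Nat.gcd n ((q + 1) / (q₀ + 1)) := by
  have hn1 : 1 ≤ n := by omega
  rw [SimAbs.split_abs (US n F q).delta (Cfsg.Inn (Cfsg.PSU n F q)) (US n F q).inn_le (detGU hτ2 hq n) (detGU_surj hτ hτ2 hq hn1) _ (hD hF hτ hq hτ2 hn)]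
  have hmap : (powMonoidHom n : NU τ →* NU τ).range ⊔ ((Subgroup.centralizer {(US n F q).psi σ}).comap (US n F q).delta).map (detGU hτ2 hq n) =
      (powMonoidHom n : NU τ →* NU τ).range ⊔ (nuMap ι hc).range := by
    apply le_antisymm
    · apply sup_le le_sup_left
      rintro _ ⟨g, hg, rfl⟩
      obtain ⟨c, hcg⟩ := ((US n F q).mem_centralizer_iff (hker' hF hn) σ g).mp hg
      obtain ⟨b, g0, hb, h1⟩ := exists_descU hn1 hτ2 hτ₀ hτ₀2 hq hq₀ ι hc hι hr hr0 g hcg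
      -- b has norm one
      have h2 := (gu_iff' hτ2 hq g.1).1 g.2
      have h3 := (gu_iff' hτ2 hq (mapU hτ2 hτ₀2 hq hq₀ ι hc g0).1).1 (mapU hτ2 hτ₀2 hq hq₀ ι hc g0).2
      rw [h1, st_smul', Matrix.smul_mul, Matrix.mul_smul, h3, smul_smul] at h2
      have h4 := congrFun (congrFun h2 ⟨0, hn1⟩) ⟨0, hn1⟩
      rw [Matrix.smul_apply, Matrix.one_apply_eq, smul_eq_mul, mul_one] at h4
      have : detGU hτ2 hq n g = (⟨Units.mk0 b hb, h4⟩ : NU τ) ^ n * nuMap ι hc (detGU hτ₀2 hq₀ n g0) := by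
        apply Subtype.ext
        apply Units.ext
        show g.1.1.det = b ^ n * ι g0.1.1.det
        rw [h1, det_smul']
        congr 1
        exact (RingHom.map_det ι g0.1.1).symm
      rw [this]
      exact Subgroup.mul_mem _ (Subgroup.mem_sup_left ⟨_, rfl⟩) (Subgroup.mem_sup_right ⟨_, rfl⟩)
    · apply sup_le le_sup_left
      rintro _ ⟨u, rfl⟩
      apply Subgroup.mem_sup_right
      obtain ⟨g0, rfl⟩ := detGU_surj (n := n) hτ₀ hτ₀2 hq₀ hn1 u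
      refine ⟨mapU hτ2 hτ₀2 hq hq₀ ι hc g0, ?_, ?_⟩
      · refine ((US n F q).mem_centralizer_iff (hker' hF hn) σ _).mpr ⟨1, ?_⟩
        rw [one_smul]
        ext i j
        exact (hι _).mpr ⟨_, rfl⟩
      · apply Subtype.ext
        apply Units.ext
        exact (RingHom.map_det ι g0.1.1).symm
  have hidx : (nuMap ι hc).range.index = (q + 1) / (q₀ + 1) := by
    have h1 := (nuMap ι hc).range.card_mul_index
    have h2 : Nat.card (nuMap ι hc).range = q₀ + 1 := by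
      rw [← Nat.card_congr (MonoidHom.ofInjective (nuMap_inj ι hc)).toEquiv, card_NU hF₀ hτ₀ hq₀]
    rw [h2, card_NU hF hτ hq] at h1
    rw [← h1, Nat.mul_div_cancel_left _ (by omega)]
  have hdvd : (q + 1) / (q₀ + 1) ∣ q + 1 := by
    rw [← hidx, ← card_NU hF hτ hq]
    exact Subgroup.index_dvd_card _
  refine (congrArg Subgroup.index hmap).trans ?_
  rw [Cfsg.Agent.Lib.AutPSL.cyclic_index_sup, index_pow hF hτ hq, hidx, Nat.gcd_assoc, Nat.gcd_eq_right hdvd]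

theorem r_dvd [Fintype F] {p f : ℕ} [Fact p.Prime] (hf : 1 ≤ f) (hq : q = p ^ f) (hF : Fintype.card F = q ^ 2) {σ : F ≃+* F} {r : ℕ}
    (hr : orderOf σ = r) (hodd : Odd r) : r ∣ f := by
  have h1 : r ∣ 2 * f := by
    rw [← hr]
    exact FinGal.orderOf_dvd σ (p := p) (f := 2 * f) (by rw [hF, hq, ← pow_mul, mul_comm]) (by omega)
  exact (Nat.Coprime.dvd_of_dvd_mul_left (Nat.Coprime.symm (Nat.coprime_two_left.2 hodd)) h1)

/-- the coset of a field automorphism -/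
theorem coset_fieldU [Fintype F] {p f : ℕ} [Fact p.Prime] (hf : 1 ≤ f) (hq : q = p ^ f) (hF : Fintype.card F = q ^ 2) (hn : 3 ≤ n) (σ : (US n F q).A) {r : ℕ}
    (hr : orderOf σ.1 = r) (hodd : Odd r) (g : (US n F q).Γ) (h : ((US n F q).delta g * (US n F q).psi σ) ^ r = 1) :
    ∃ k : (US n F q).Γ, (US n F q).delta g * (US n F q).psi σ = (US n F q).delta k * (US n F q).psi σ * ((US n F q).delta k)⁻¹ := by
  have hr0 : 0 < r := by
    obtain ⟨s, rfl⟩ := hodd; omega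
  obtain ⟨f', rfl⟩ := r_dvd hf hq hF hr hodd
  have hf' : 1 ≤ f' := by
    by_contra h0
    have : f' = 0 := by omega
    subst this; omega
  obtain ⟨τ, hτ, hτq⟩ := exists_sigma hF
  obtain ⟨hτ2, -, -⟩ := sigma_facts hτ
  -- the fixed field
  letI : Fintype (FinGal.fixF σ.1) := Fintype.ofFinite _
  have hF₀ : Fintype.card (FinGal.fixF σ.1) = (p ^ f') ^ 2 := by
    have h1 := FinGal.card_fixF σ.1
    rw [Nat.card_eq_fintype_card, Nat.card_eq_fintype_card, hF, hq, hr, ← pow_mul] at h1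
    have h2 : (Fintype.card (FinGal.fixF σ.1)) ^ r = ((p ^ f') ^ 2) ^ r := by
      rw [← h1, ← pow_mul, ← pow_mul]
      congr 1; ring
    exact Nat.pow_left_injective (by omega) h2
  obtain ⟨τ₀, hτ₀, hq₀⟩ := exists_sigma hF₀
  have hι : ∀ x, σ.1 x = x ↔ ∃ y : FinGal.fixF σ.1, (FinGal.fixF σ.1).subtype y = x := by
    intro x
    constructor
    · intro hx; exact ⟨⟨x, hx⟩, rfl⟩
    · rintro ⟨y, rfl⟩; exact y.2
  have hc : ∀ y, τ ((FinGal.fixF σ.1).subtype y) = (FinGal.fixF σ.1).subtype (τ₀ y) :=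
    compat hF₀ hodd (by rw [hq, ← pow_mul, mul_comm]) hτq hq₀ _
  haveI : Nonempty (Fin n) := ⟨⟨0, by omega⟩⟩
  refine (US n F q).coset_field (hker' hF hn) σ hr ?_ ?_ g h
  · intro z c hz hcσ
    have h1 := (gu_iff' hτ2 hτq z.1).1 z.2
    rw [hz, st_smul', Matrix.smul_mul, Matrix.mul_smul, st_one, Matrix.mul_one, smul_smul] at h1
    have h2 := congrFun (congrFun h1 ⟨0, by omega⟩) ⟨0, by omega⟩
    rw [Matrix.smul_apply, Matrix.one_apply_eq, smul_eq_mul, mul_one] at h2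
    have hc0 : c ≠ 0 := by rintro rfl; rw [zero_mul] at h2; exact zero_ne_one h2
    obtain ⟨b, hb, hbn⟩ := nu_norm hτ hτ₀ (FinGal.fixF σ.1).subtype hc σ.1 hι hr hr0 (c := c⁻¹) (by rw [map_inv₀, ← mul_inv, h2, inv_one])
      (by rw [map_inv₀, hcσ])
    have hb0 : b ≠ 0 := by rintro rfl; rw [zero_mul] at hb; exact zero_ne_one hb
    let w : GL (Fin n) F := GeneralLinearGroup.scalar (Fin n) (Units.mk0 b hb0)
    have hw : w.1 = b • (1 : Matrix (Fin n) (Fin n) F) := by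
      show Matrix.scalar (Fin n) b = _
      rw [Matrix.smul_one_eq_diagonal]; rfl
    refine ⟨⟨w, ?_⟩, b, hw, ?_⟩
    · show w ∈ Cfsg.GU n F q
      rw [gu_iff' hτ2 hτq, hw, st_smul', Matrix.smul_mul, Matrix.mul_smul, st_one, Matrix.mul_one, smul_smul, hb, one_smul]
    · rw [hbn, inv_mul_cancel₀ hc0]
  · intro g h
    exact lang_GU hτ hτ₀ hτq (FinGal.fixF σ.1).subtype hc σ hι hr hr0 g h

end Cfsg.Agent.H8.Uni
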